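import Cfsg.Agent.ThreeTransp.PolarMain
import Cfsg.Agent.S0247
/-!
Fischer's theorem for a solvable centralizer (owner: helper8).
-/
set_option autoImplicit false
open Cfsg
open scoped Pointwise commutatorElement
namespace Cfsg.Agent.ThreeTransp

variable {G : Type*} [Group G] {D : Set G}

/-- a string of length four in the perp of `x` -/
theorem not_solvable_of_string (hD : Cfsg.IsThreeTranspositionSet D) {x d u b a : G} (hd : d ∈ D)
    (hu : u ∈ D) (hb : b ∈ D) (ha : a ∈ D) (xd : Commute x d) (xu : Commute x u) (xb : Commute x b) (xa : Commute x a)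
    (hdu : ¬ Commute d u) (hub : ¬ Commute u b) (hba : ¬ Commute b a) (cdb : Commute d b) (cda : Commute d a)
    (cua : Commute u a) : ¬ Group.IsSolvable ↥(Subgroup.closure (perp D x)) := by
  have pd : d ∈ perp D x := ⟨hd, fun h => hdu (by rw [h]; exact xu), xd⟩
  have pu : u ∈ perp D x := ⟨hu, fun h => hdu (by rw [h]; exact xd.symm), xu⟩
  have pb : b ∈ perp D x := ⟨hb, fun h => hub (by rw [h]; exact xu.symm), xb⟩
  have pa : a ∈ perp D x := ⟨ha, fun h => hba (by rw [h]; exact xb.symm), xa⟩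
  have lc : ∀ (y z : G) (hy : y ∈ perp D x) (hz : z ∈ perp D x), Commute (⟨y, Subgroup.subset_closure hy⟩ :
      ↥(Subgroup.closure (perp D x))) ⟨z, Subgroup.subset_closure hz⟩ ↔ Commute y z := by
    intro y z hy hz
    constructor
    · intro h; exact congrArg Subtype.val h
    · intro h; exact Subtype.ext h
  obtain ⟨φ, p1, p2, p3, p4⟩ := string5 (lift_perp_set hD x) (d := ⟨d, Subgroup.subset_closure pd⟩)
    (u := ⟨u, Subgroup.subset_closure pu⟩) (b := ⟨b, Subgroup.subset_closure pb⟩)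
    (a := ⟨a, Subgroup.subset_closure pa⟩) pd pu pb pa
    (fun h => hdu ((lc _ _ pd pu).1 h)) (fun h => hub ((lc _ _ pu pb).1 h)) (fun h => hba ((lc _ _ pb pa).1 h))
    ((lc _ _ pd pb).2 cdb) ((lc _ _ pd pa).2 cda) ((lc _ _ pu pa).2 cua)
  have hinj : Function.Injective φ := by
    rw [← MonoidHom.ker_eq_bot_iff]
    by_contra hne
    have hle : alternatingGroup (Fin 5) ≤ φ.ker :=
      Equiv.Perm.alternatingGroup_le_of_normal (by simp) ((Subgroup.nontrivial_iff_ne_bot _).2 hne)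
    have h1 : Equiv.swap (0 : Fin 5) 1 * Equiv.swap 1 2 ∈ φ.ker := hle (by
      rw [Equiv.Perm.mem_alternatingGroup]; decide)
    rw [MonoidHom.mem_ker, map_mul, p1, p2] at h1
    have h2 : d * u = 1 := congrArg Subtype.val h1
    apply hdu
    rw [mul_eq_one_iff_eq_inv.1 h2]
    exact (Commute.refl u).inv_left
  intro hs
  exact Equiv.Perm.not_isSolvable_fin_5 (Group.isSolvable_of_isSolvable_injective hinj)

theorem solvable_perp (hD : Cfsg.IsThreeTranspositionClass D) {x y : G} (hx : x ∈ D) (hy : y ∈ D)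
    (hs : Group.IsSolvable ↥(Subgroup.closure (perp D x))) : Group.IsSolvable ↥(Subgroup.closure (perp D y)) := by
  obtain ⟨g, rfl⟩ := exists_conj hD hx hy
  obtain ⟨f⟩ := nonempty_perp_equiv (fun g d hd => conj_mem hD hd g) x g
  exact Group.isSolvable_of_isSolvable_injective (f := f.symm.toMonoidHom) f.symm.injective

theorem nb_eq_zero_iff {x y : G} : nb x y = 0 ↔ Commute x y := by
  unfold nb
  by_cases h : Commute x y
  · rw [if_pos h]; exact ⟨fun _ => h, fun _ => rfl⟩
  · rw [if_neg h]; exact ⟨fun h1 => absurd h1 (by decide), fun h1 => absurd h1 h⟩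

variable [Finite G]

section Symp

open Cfsg.Agent.ClassSp

theorem symp_two (h : VHyp D) {x : G} (hx : x ∈ D) (hs : Group.IsSolvable ↥(Subgroup.closure (perp D x)))
    {n : ℕ} {vec : G → (Fin n ⊕ Fin n → ZMod 2)} (h2 : ∀ d ∈ D, ∀ e ∈ D, sf (vec d) (vec e) = nb d e)
    (h3 : ∀ w, w ≠ 0 → ∃ d ∈ D, vec d = w) : n = 2 := by
  have hcm : ∀ d ∈ D, ∀ e ∈ D, (sf (vec d) (vec e) = 0 ↔ Commute d e) := by
    intro d hd e he
    rw [h2 d hd e he]; exact nb_eq_zero_iff
  have hle : n ≤ 2 := by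
    by_contra hcon
    have hn0 : 0 < n := by omega
    have hn1 : 1 < n := by omega
    have hn2 : 2 < n := by omega
    set E : Fin n → (Fin n ⊕ Fin n → ZMod 2) := fun i => Pi.single (Sum.inl i) 1 with hE
    set Fv : Fin n → (Fin n ⊕ Fin n → ZMod 2) := fun i => Pi.single (Sum.inr i) 1 with hFv
    have sEE : ∀ i j, sf (E i) (E j) = 0 := by
      intro i j; rw [hE]; simp only; rw [sf_single_inl_left]; simp
    have sEF : ∀ i j, sf (E i) (Fv j) = if i = j then 1 else 0 := by
      intro i j; rw [hE, hFv]; simp only; rw [sf_single_inl_left]; simp [Pi.single_apply]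
    have sFE : ∀ i j, sf (Fv i) (E j) = if j = i then 1 else 0 := by
      intro i j
      rw [sf_swap, sEF]
      by_cases hij : j = i
      · rw [if_pos hij]; decide
      · rw [if_neg hij]; decide
    have sFF : ∀ i j, sf (Fv i) (Fv j) = 0 := by
      intro i j; rw [hFv]; simp only; rw [sf_single_inr_left]; simp
    set i0 : Fin n := ⟨0, hn0⟩ with hi0
    set i1 : Fin n := ⟨1, hn1⟩ with hi1
    set i2 : Fin n := ⟨2, hn2⟩ with hi2
    have n01 : i0 ≠ i1 := by rw [hi0, hi1]; intro h; simp at h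
    have n02 : i0 ≠ i2 := by rw [hi0, hi2]; intro h; simp at h
    have n12 : i1 ≠ i2 := by rw [hi1, hi2]; intro h; simp at h
    have ne_of : ∀ v w : Fin n ⊕ Fin n → ZMod 2, sf v w = 1 → v ≠ 0 := by
      rintro v w h1 rfl
      rw [sf_zero_left] at h1
      exact absurd h1 (by decide)
    have z0 : E i0 ≠ 0 := ne_of _ (Fv i0) (by rw [sEF, if_pos rfl])
    have z1 : E i1 ≠ 0 := ne_of _ (Fv i1) (by rw [sEF, if_pos rfl])
    have z2 : Fv i1 ≠ 0 := ne_of _ (E i1) (by rw [sFE, if_pos rfl])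
    have z3 : E i1 + E i2 ≠ 0 := ne_of _ (Fv i1) (by rw [sf_add_left, sEF, sEF, if_pos rfl, if_neg n12.symm, add_zero])
    have z4 : Fv i2 ≠ 0 := ne_of _ (E i2) (by rw [sFE, if_pos rfl])
    obtain ⟨X, hX, eX⟩ := h3 _ z0
    obtain ⟨d, hd, ed⟩ := h3 _ z1
    obtain ⟨u, hu, eu⟩ := h3 _ z2
    obtain ⟨b, hb, eb⟩ := h3 _ z3
    obtain ⟨a, ha, ea⟩ := h3 _ z4
    have c : ∀ (s t : G), s ∈ D → t ∈ D → ∀ v w, vec s = v → vec t = w → sf v w = 0 → Commute s t := by
      rintro s t hs ht v w rfl rfl h1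
      exact (hcm s hs t ht).1 h1
    have nc : ∀ (s t : G), s ∈ D → t ∈ D → ∀ v w, vec s = v → vec t = w → sf v w = 1 → ¬ Commute s t := by
      rintro s t hs ht v w rfl rfl h1 h4
      rw [(hcm s hs t ht).2 h4] at h1
      exact absurd h1 (by decide)
    apply not_solvable_of_string h.cls.1 hd hu hb ha (c X d hX hd _ _ eX ed (sEE _ _))
      (c X u hX hu _ _ eX eu (by rw [sEF, if_neg n01]))
      (c X b hX hb _ _ eX eb (by rw [sf_add_right, sEE, sEE, add_zero]))
      (c X a hX ha _ _ eX ea (by rw [sEF, if_neg n02]))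
      (nc d u hd hu _ _ ed eu (by rw [sEF, if_pos rfl]))
      (nc u b hu hb _ _ eu eb (by rw [sf_add_right, sFE, sFE, if_pos rfl, if_neg n12.symm, add_zero]))
      (nc b a hb ha _ _ eb ea (by rw [sf_add_left, sEF, sEF, if_pos rfl, if_neg n12, zero_add]))
      (c d b hd hb _ _ ed eb (by rw [sf_add_right, sEE, sEE, add_zero]))
      (c d a hd ha _ _ ed ea (by rw [sEF, if_neg n12]))
      (c u a hu ha _ _ eu ea (sFF _ _))
    exact solvable_perp h.cls hx hX hs
  -- lower bound
  obtain ⟨d, hd, a, ha, hne, hc⟩ := h.ex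
  have h4 : sf (vec d) (vec a) = 0 := (hcm d hd a ha).2 hc
  have hinj : vec d ≠ vec a := by
    intro h5
    apply hne
    symm
    apply nb_inj h hd ha
    intro f hf
    rw [← h2 d hd f hf, ← h2 a ha f hf, h5]
  have hne0 : ∀ d ∈ D, vec d ≠ 0 := by
    intro d hd h5
    obtain ⟨e, he, hde⟩ := h.nc d hd
    apply hde
    rw [← hcm d hd e he, h5, sf_zero_left]
  have hd0 := hne0 d hd
  have ha0 := hne0 a ha
  interval_cases n
  · exfalso; apply hd0; funext i; rcases i with i | i <;> exact i.elim0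
  · exfalso
    have key : ∀ v w : Fin 1 ⊕ Fin 1 → ZMod 2, v ≠ 0 → w ≠ 0 → v ≠ w → v (Sum.inl 0) * w (Sum.inr 0) -
        v (Sum.inr 0) * w (Sum.inl 0) ≠ 0 := by decide
    apply key _ _ hd0 ha0 hinj
    have h5 : sf (vec d) (vec a) = vec d (Sum.inl 0) * vec a (Sum.inr 0) - vec d (Sum.inr 0) * vec a (Sum.inl 0) := by
      unfold sf; rw [Fin.sum_univ_one]
    rw [← h5]; exact h4
  · rfl

end Symp

section Unit

omit [Finite G] in
open Cfsg.Agent.Uni in
theorem unit_le_five {K : Type*} [Field K] [Fintype K] (hK : Fintype.card K = 2 ^ 2) (hcls : Cfsg.IsThreeTranspositionClass D)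
    {x : G} (hx : x ∈ D) (hs : Group.IsSolvable ↥(Subgroup.closure (perp D x))) {n : ℕ} {φ : G ≃* Cfsg.PSU n K 2}
    {vec : G → Fin n → K} (hV : UDict D K n φ vec) : n ≤ 5 := by
  by_contra hcon
  have hn : 5 < n := by omega
  let i : ∀ k : ℕ, k ≤ 5 → Fin n := fun k hk => ⟨k, by omega⟩
  have hi : ∀ k hk l hl, k ≠ l → i k hk ≠ i l hl := by
    intro k hk l hl hkl h
    exact hkl (congrArg Fin.val h)
  obtain ⟨u0, v0, h0, -, s0⟩ := exists_hyp_coord (q := 2) (n := n) hK (i 0 (by norm_num)) (i 1 (by norm_num))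
    (hi 0 (by norm_num) 1 (by norm_num) (by norm_num))
  obtain ⟨u1, v1, h1, -, s1⟩ := exists_hyp_coord (q := 2) (n := n) hK (i 2 (by norm_num)) (i 3 (by norm_num))
    (hi 2 (by norm_num) 3 (by norm_num) (by norm_num))
  obtain ⟨u2, v2, h2, -, s2⟩ := exists_hyp_coord (q := 2) (n := n) hK (i 4 (by norm_num)) (i 5 (by norm_num))
    (hi 4 (by norm_num) 5 (by norm_num) (by norm_num))
  have hsup : ∀ (a b c d : ℕ) (ha : a ≤ 5) (hb : b ≤ 5) (hc : c ≤ 5) (hd : d ≤ 5), a ≠ c → a ≠ d → b ≠ c → b ≠ d →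
      ∀ x y x' y' : Fin n → K, (∀ k, k ≠ i a ha → k ≠ i b hb → x k = 0 ∧ y k = 0) →
      (∀ k, k ≠ i c hc → k ≠ i d hd → x' k = 0 ∧ y' k = 0) →
      hermForm n K 2 x x' = 0 ∧ hermForm n K 2 x y' = 0 ∧ hermForm n K 2 y x' = 0 ∧ hermForm n K 2 y y' = 0 := by
    intro a b c d ha hb hc hd hac had hbc hbd x y x' y' hx hx'
    have hk : ∀ k : Fin n, (k ≠ i a ha ∧ k ≠ i b hb) ∨ (k ≠ i c hc ∧ k ≠ i d hd) := by
      intro k
      by_cases h1 : k = i c hc ∨ k = i d hd
      · left
        rcases h1 with rfl | rfl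
        · exact ⟨hi c hc a ha hac.symm, hi c hc b hb hbc.symm⟩
        · exact ⟨hi d hd a ha had.symm, hi d hd b hb hbd.symm⟩
      · right; rw [not_or] at h1; exact h1
    have e : ∀ {z z' : Fin n → K}, (∀ k, k ≠ i a ha → k ≠ i b hb → z k = 0) →
        (∀ k, k ≠ i c hc → k ≠ i d hd → z' k = 0) → hermForm n K 2 z z' = 0 := by
      intro z z' hz hz'
      apply Fi22.herm_of_support two_ne_zero
      intro k
      rcases hk k with h | h
      · exact Or.inl (hz k h.1 h.2)
      · exact Or.inr (hz' k h.1 h.2)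
    exact ⟨e (fun k a b => (hx k a b).1) (fun k a b => (hx' k a b).1),
      e (fun k a b => (hx k a b).1) (fun k a b => (hx' k a b).2),
      e (fun k a b => (hx k a b).2) (fun k a b => (hx' k a b).1),
      e (fun k a b => (hx k a b).2) (fun k a b => (hx' k a b).2)⟩
  obtain ⟨a1, a2, a3, a4⟩ := hsup 0 1 2 3 (by norm_num) (by norm_num) (by norm_num) (by norm_num) (by norm_num)
    (by norm_num) (by norm_num) (by norm_num) _ _ _ _ s0 s1
  obtain ⟨b1, b2, b3, b4⟩ := hsup 0 1 4 5 (by norm_num) (by norm_num) (by norm_num) (by norm_num) (by norm_num)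
    (by norm_num) (by norm_num) (by norm_num) _ _ _ _ s0 s2
  obtain ⟨c1, c2, c3, c4⟩ := hsup 2 3 4 5 (by norm_num) (by norm_num) (by norm_num) (by norm_num) (by norm_num)
    (by norm_num) (by norm_num) (by norm_num) _ _ _ _ s1 s2
  have hvu1 : hermForm n K 2 v1 u1 = 1 := by rw [← hermForm_symm hK, h1.2.2, one_pow]
  have ne_of : ∀ v w : Fin n → K, hermForm n K 2 v w = 1 → v ≠ 0 := by
    rintro v w h rfl
    rw [hermForm_zero_left] at h
    exact zero_ne_one h
  have i3 : hermForm n K 2 (u1 + u2) (u1 + u2) = 0 := by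
    rw [hermForm_add_left, hermForm_add_right hK, hermForm_add_right hK, h1.1, h2.1, c1,
      (hermForm_eq_zero_comm hK).1 c1]; ring
  have e3 : hermForm n K 2 (u1 + u2) v2 = 1 := by
    rw [hermForm_add_left, c2, h2.2.2, zero_add]
  obtain ⟨X, hX, α0, hα0, eX⟩ := hV.surj u0 (ne_of _ _ h0.2.2) h0.1
  obtain ⟨d, hd, α1, hα1, ed⟩ := hV.surj u1 (ne_of _ _ h1.2.2) h1.1
  obtain ⟨u, hu, α2, hα2, eu⟩ := hV.surj v1 (ne_of _ _ hvu1) h1.2.1
  obtain ⟨b, hb, α3, hα3, eb⟩ := hV.surj (u1 + u2) (ne_of _ _ e3) i3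
  obtain ⟨a, ha, α4, hα4, ea⟩ := hV.surj v2 (fun h => by
    have h4 := h2.2.2
    rw [h, hermForm_zero_right hK] at h4
    exact zero_ne_one h4) h2.2.1
  have key : ∀ (s t : G), s ∈ D → t ∈ D → ∀ (α β : K) v w, α ≠ 0 → β ≠ 0 → v = α • vec s → w = β • vec t →
      (hermForm n K 2 v w = 0 ↔ Commute s t) := by
    rintro s t hs ht α β v w hα hβ rfl rfl
    rw [hermForm_smul_left, hermForm_smul_right, ← hV.comm s hs t ht]
    constructor
    · intro h
      rcases mul_eq_zero.1 h with h | h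
      · exact absurd h hα
      · rcases mul_eq_zero.1 h with h | h
        · exact absurd h (pow_ne_zero _ hβ)
        · exact h
    · intro h; rw [h, mul_zero, mul_zero]
  have c : ∀ (s t : G), s ∈ D → t ∈ D → ∀ (α β : K) v w, α ≠ 0 → β ≠ 0 → v = α • vec s → w = β • vec t →
      hermForm n K 2 v w = 0 → Commute s t := fun s t hs ht α β v w hα hβ h1 h2 h3 =>
    (key s t hs ht α β v w hα hβ h1 h2).1 h3
  have nc : ∀ (s t : G), s ∈ D → t ∈ D → ∀ (α β : K) v w, α ≠ 0 → β ≠ 0 → v = α • vec s → w = β • vec t →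
      hermForm n K 2 v w = 1 → ¬ Commute s t := by
    intro s t hs ht α β v w hα hβ h1 h2 h3 h4
    rw [(key s t hs ht α β v w hα hβ h1 h2).2 h4] at h3
    exact zero_ne_one h3
  apply not_solvable_of_string hcls.1 hd hu hb ha (c X d hX hd _ _ _ _ hα0 hα1 eX ed a1)
    (c X u hX hu _ _ _ _ hα0 hα2 eX eu a2)
    (c X b hX hb _ _ _ _ hα0 hα3 eX eb (by rw [hermForm_add_right hK, a1, b1, add_zero]))
    (c X a hX ha _ _ _ _ hα0 hα4 eX ea b2)
    (nc d u hd hu _ _ _ _ hα1 hα2 ed eu h1.2.2)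
    (nc u b hu hb _ _ _ _ hα2 hα3 eu eb (by rw [hermForm_add_right hK, hvu1, c3, add_zero]))
    (nc b a hb ha _ _ _ _ hα3 hα4 eb ea e3)
    (c d b hd hb _ _ _ _ hα1 hα3 ed eb (by rw [hermForm_add_right hK, h1.1, c1, add_zero]))
    (c d a hd ha _ _ _ _ hα1 hα4 ed ea c2)
    (c u a hu ha _ _ _ _ hα2 hα4 eu ea c4)
  exact solvable_perp hcls hx hX hs

end Unit

/-- the perps are not commutative -/
theorem FischerHyp.perp_nc (h : FischerHyp D) {x : G} (hx : x ∈ D) :
    ∃ a ∈ perp D x, ∃ b ∈ perp D x, ¬ Commute a b := by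
  have : Fact (Nat.Prime 3) := ⟨Nat.prime_three⟩
  have hconj : ∀ g : G, ∀ d ∈ D, g * d * g⁻¹ ∈ D := fun g _ hd => conj_mem h.cls hd g
  have hI := irred_of_fischer h
  by_contra hcon
  push Not at hcon
  have hall : ∀ y ∈ D, ∀ a ∈ perp D y, ∀ b ∈ perp D y, Commute a b := by
    intro y hy a ha b hb
    obtain ⟨g, rfl⟩ := exists_conj h.cls hy hx
    have := hcon _ (perp_conj_mem hconj g ha) _ (perp_conj_mem hconj g hb)
    exact (commute_conj_iff g).1 this
  obtain ⟨e, he, hxe⟩ := h.exists_not_commute hx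
  by_cases hne : (perp D x).Nonempty
  · obtain ⟨a, ha⟩ := hne
    have ha' : x ∈ perp D a := perp_symm' hx ha
    apply hxe
    apply hI (fun s t => s = t ∨ Commute s t) _ _ _ _ x hx a ha.1 ha.2.1.symm _ x hx e he |>.elim
    · rintro rfl; exact Commute.refl _
    · exact id
    · rintro g s t (rfl | h1)
      · exact Or.inl rfl
      · exact Or.inr ((commute_conj_iff g).2 h1)
    · intro s _; exact Or.inl rfl
    · rintro s _ t _ (rfl | h1)
      · exact Or.inl rfl
      · exact Or.inr h1.symm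
    · rintro s hs t ht r hr (rfl | h1) (rfl | h2)
      · exact Or.inl rfl
      · exact Or.inr h2
      · exact Or.inr h1
      · right
        by_cases hst : s = t
        · rw [hst]; exact h2
        by_cases hrt : r = t
        · rw [hrt]; exact h1
        exact hall t ht s ⟨hs, hst, h1.symm⟩ r ⟨hr, hrt, h2⟩
    · intro y hy
      have hxi := inv_eq h.cls.1 hx
      have hai := inv_eq h.cls.1 ha.1
      have hxx := mul_self h.cls.1 hx
      rw [hxi, hai]
      by_cases hyx : Commute y x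
      · have hya : Commute y a := by
          by_cases hyx' : y = x
          · rw [hyx']; exact ha.2.2
          · exact hall x hx y ⟨hy, hyx', hyx.symm⟩ a ha
        left
        rw [conj_comm hxx hyx.symm, conj_comm (mul_self h.cls.1 ha.1) hya.symm]
      · have hya : ¬ Commute y a := by
          intro hya
          by_cases hya' : y = a
          · rw [hya'] at hyx; exact hyx ha.2.2.symm
          · exact hyx (hall a ha.1 y ⟨hy, hya', hya.symm⟩ x ha')
        right
        obtain ⟨f1, _, _⟩ := four_facts h.cls.1 hx ha.1 hy ha.2.2 ha.2.1.symm hyx hya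
        rw [← cj hxx]
        have e1 : x * (x * y * x) * x = y := ThreeTrans.conj_cancel hxx y
        have e2 : x * (a * y * a) * x = (x * a) * y * (x * a)⁻¹ := by
          rw [mul_inv_rev, hxi, hai]; group
        rw [e1, e2]
        exact f1
  · rw [Set.not_nonempty_iff_eq_empty] at hne
    have hw : ∀ a ∈ D, ∀ b ∈ D, Commute a b → a = b := by
      intro a ha b hb hab
      by_contra hne'
      obtain ⟨g, rfl⟩ := exists_conj h.cls ha hx
      have h1 : b ∈ perp D a := ⟨hb, fun h2 => hne' h2.symm, hab⟩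
      have h2 := perp_conj_mem hconj g h1
      rw [hne] at h2
      exact h2
    have hmem : ∀ a ∈ D, ∀ b ∈ D, a * b ∈ Cfsg.pCore 3 G := fun a ha b hb =>
      ThreeTrans.mul_mem_three_core_of_width_one h.cls.1 (fun g d hd => conj_mem h.cls hd g) hw ha hb
    have hN : (Cfsg.pCore 3 G).Normal := Solv.pCore_normal 3
    have hbot : Cfsg.pCore 3 G = ⊥ := by
      apply h.sol _ hN
      have hp : IsPGroup 3 (Cfsg.pCore 3 G) := Solv.pCore_isPGroup (G := G) 3
      have := hp.isNilpotent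
      infer_instance
    have h1 := hmem x hx e he
    rw [hbot, Subgroup.mem_bot] at h1
    apply hxe
    rw [mul_eq_one_iff_eq_inv.1 h1]
    exact (Commute.refl e).inv_left

/-- one of the cores is not central -/
theorem FischerHyp.core_not_central (h : FischerHyp D) {x : G} (hx : x ∈ D)
    (hs : Group.IsSolvable ↥(Subgroup.closure (perp D x)))
    (h2 : Cfsg.pCore 2 ↥(Subgroup.closure (perp D x)) ≤ Subgroup.center ↥(Subgroup.closure (perp D x)))
    (ho : Cfsg.oddCore ↥(Subgroup.closure (perp D x)) ≤ Subgroup.center ↥(Subgroup.closure (perp D x))) : False := by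
  set H := Subgroup.closure (perp D x) with hH
  have hfit : Cfsg.fittingSubgroup H ≤ Subgroup.center H := by
    refine Solv.fitting_le_iSup_pCore.trans (iSup_le ?_)
    rintro ⟨p, hp⟩
    show Cfsg.pCore p H ≤ Subgroup.center H
    by_cases hp2 : p = 2
    · rw [hp2]; exact h2
    · refine le_trans ?_ ho
      have : Fact p.Prime := ⟨hp⟩
      have hn : (Cfsg.pCore p H).Normal := Solv.pCore_normal p
      show Cfsg.pCore p H ≤ Cfsg.pPrimeCore 2 H
      apply Solv.le_pPrimeCore hn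
      obtain ⟨k, hk⟩ := IsPGroup.iff_card.1 (Solv.pCore_isPGroup (G := H) p)
      rw [hk]
      exact Nat.Coprime.pow_left _ ((Nat.coprime_primes hp Nat.prime_two).2 hp2)
  have hall : ∀ a b : H, Commute a b := by
    have h3 := Solv.centralizer_fitting_le (G := H)
    have h4 : Subgroup.centralizer (Cfsg.fittingSubgroup H : Set H) = ⊤ := by
      rw [eq_top_iff]
      intro g _
      rw [Subgroup.mem_centralizer_iff]
      intro f hf
      exact (Subgroup.mem_center_iff.1 (hfit hf) g).symm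
    rw [h4] at h3
    intro a b
    have h5 : b ∈ Subgroup.center H := hfit (h3 (Subgroup.mem_top b))
    exact Subgroup.mem_center_iff.1 h5 a
  obtain ⟨a, ha, b, hb, hab⟩ := h.perp_nc hx
  apply hab
  exact congrArg Subtype.val (hall ⟨a, Subgroup.subset_closure ha⟩ ⟨b, Subgroup.subset_closure hb⟩)

end Cfsg.Agent.ThreeTransp
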