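import Cfsg.Agent.ThreeTransp.PolarUni
import Cfsg.Agent.ThreeTransp.CoreFive
/-!
Fischer's theorem for a noncentral 2-core (owner: helper8).
-/
set_option autoImplicit false
open Cfsg
open scoped Pointwise commutatorElement
namespace Cfsg.Agent.ThreeTransp

section Two

variable {H : Type*} [Group H] {Δ : Set H}

/-- If the 2-core is not central then some `V`-class is nontrivial. -/
theorem exists_vRel_of_twoCore (hΔ : Cfsg.IsThreeTranspositionSet Δ) (hconj : ∀ g : H, ∀ d ∈ Δ, g * d * g⁻¹ ∈ Δ)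
    (hgen : Subgroup.closure Δ = ⊤) (h : ¬ Cfsg.pCore 2 H ≤ Subgroup.center H) :
    ∃ d v : H, d ≠ v ∧ ThreeTrans.VRel Δ v d := by
  have : Fact (Nat.Prime 2) := ⟨Nat.prime_two⟩
  have hN := Solv.pCore_isPGroup (G := H) 2
  have hNn := Solv.pCore_normal (G := H) 2
  by_contra hcon
  push Not at hcon
  apply h
  intro n hn
  have h1 : Subgroup.closure Δ ≤ Subgroup.centralizer {n} := by
    rw [Subgroup.closure_le]
    intro d hd
    rw [SetLike.mem_coe, Subgroup.mem_centralizer_singleton_iff]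
    by_contra hne
    refine hcon d (n * d * n⁻¹) ?_ (ThreeTrans.vRel_of_mem_two_core hΔ hN hd (hconj n d hd) ?_)
    · intro h2
      apply hne
      nth_rewrite 1 [h2]; group
    · have h3 : d⁻¹ * (n * d * n⁻¹) = (d⁻¹ * n * d⁻¹⁻¹) * n⁻¹ := by group
      rw [h3]
      exact mul_mem (hNn.conj_mem n hn d⁻¹) (inv_mem hn)
  rw [hgen] at h1
  rw [Subgroup.mem_center_iff]
  intro g
  exact Subgroup.mem_centralizer_singleton_iff.1 (h1 (Subgroup.mem_top g))

end Two

variable {G : Type*} [Group G] {D : Set G} [Finite G]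

omit [Finite G] in
theorem FischerHyp.eq_one_of_commute (h : FischerHyp D) {z : G} (hz : ∀ d ∈ D, Commute d z) : z = 1 := by
  have h1 : z ∈ Subgroup.center G := by
    rw [Subgroup.mem_center_iff]
    intro g
    have h2 : (⊤ : Subgroup G) ≤ Subgroup.centralizer {z} := by
      rw [← h.cls.2.2, Subgroup.closure_le]
      intro e he
      exact Subgroup.mem_centralizer_singleton_iff.2 (hz e he).eq
    exact Subgroup.mem_centralizer_singleton_iff.1 (h2 (Subgroup.mem_top g))
  have h2 : Subgroup.center G = ⊥ := by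
    apply h.sol _ inferInstance
    apply solvable_of_commute
    intro x hx y _
    exact (Subgroup.mem_center_iff.1 hx y).symm
  rw [h2, Subgroup.mem_bot] at h1
  exact h1

theorem FischerHyp.vhyp (h : FischerHyp D) {x : G} (hx : x ∈ D)
    (hc : ¬ Cfsg.pCore 2 ↥(Subgroup.closure (perp D x)) ≤ Subgroup.center ↥(Subgroup.closure (perp D x))) :
    VHyp D := by
  have hI := irred_of_fischer h
  have hconj : ∀ g : G, ∀ d ∈ D, g * d * g⁻¹ ∈ D := fun g _ hd => conj_mem h.cls hd g
  obtain ⟨a, v, hav, hv, ha, hw⟩ := exists_vRel_of_twoCore (lift_perp_set h.cls.1 x) (lift_perp_conj hconj)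
    (closure_lift _) hc
  have ha' : (a : G) ∈ perp D x := ha
  have hv' : (v : G) ∈ perp D x := hv
  refine ⟨h.cls, hI, fun d hd => h.exists_not_commute hd, fun z hz => h.eq_one_of_commute hz, ?_,
    ⟨x, hx, a, ha'.1, ha'.2.1, ha'.2.2⟩⟩
  intro d hd b hb
  obtain ⟨e, he, hxe⟩ := h.exists_not_commute hx
  obtain ⟨g, g1, g2⟩ := exists_conj_pair h.cls hI hx ha' hd hb he hxe
  refine ⟨g * v * g⁻¹, ?_, ?_, ?_⟩
  · have := perp_conj_mem hconj g hv'
    rwa [g1] at this
  · rw [← g2]
    intro h1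
    exact hav (Subtype.ext (mul_left_cancel (mul_right_cancel h1)).symm)
  · intro y hy
    obtain ⟨z, rfl⟩ : ∃ z, y = g * z * g⁻¹ := ⟨g⁻¹ * y * g, by group⟩
    have hz : z ∈ perp D x := by
      rw [← g1] at hy
      exact (perp_conj_iff hconj g).1 hy
    rw [← g2, commute_conj_iff, commute_conj_iff]
    have h3 := hw ⟨z, Subgroup.subset_closure hz⟩ hz
    constructor
    · intro h4
      exact congrArg Subtype.val (h3.2 (Subtype.ext h4))
    · intro h4
      exact congrArg Subtype.val (h3.1 (Subtype.ext h4))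

/-- the dichotomy -/
theorem VHyp.all_three_or_five (h : VHyp D) : (∀ c ∈ D, ∀ x ∈ perp D c, (pl D c x).ncard = 3) ∨
    ∀ c ∈ D, ∀ x ∈ perp D c, (pl D c x).ncard = 5 := by
  obtain ⟨d, hd, a, ha, hne, hcm⟩ := h.ex
  have hap : a ∈ perp D d := ⟨ha, hne, hcm⟩
  rcases h.line_size hd hap with h1 | h1
  · left
    intro c hc x hx
    rw [h.pl_ncard hc hx hd hap, h1]
  · right
    intro c hc x hx
    rw [h.pl_ncard hc hx hd hap, h1]

end Cfsg.Agent.ThreeTransp
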