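import Mathlib
import Cfsg.Prelude.Def_Classical
/-!
Hermitian forms over the field with four elements (owner: helper8).
-/
set_option autoImplicit false
open Cfsg
namespace Cfsg.Agent.ThreeTransp

section Field

variable {K : Type*} [Field K] [Fintype K]

/-- a primitive cube root of one in characteristic two -/
structure Four (K : Type*) [Field K] [Fintype K] (w : K) : Prop where
  card : Fintype.card K = 4
  two : ∀ x : K, x + x = 0
  sum : w ^ 2 + w + 1 = 0

theorem exists_four (hK : Fintype.card K = 4) : ∃ w : K, Four K w := by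
  have h2 : ∀ x : K, x + x = 0 := by
    have h : ((Fintype.card K : ℕ) : K) = 0 := FiniteField.cast_card_eq_zero K
    rw [hK] at h
    have h3 : (2 : K) * 2 = 0 := by rw [← h]; norm_num
    have h4 : (2 : K) = 0 := mul_self_eq_zero.1 h3
    intro x
    rw [← two_mul, h4, zero_mul]
  obtain ⟨w, hw⟩ : ∃ w : K, w ≠ 0 ∧ w ≠ 1 := by
    by_contra hcon
    push Not at hcon
    classical
    have h1 : (Finset.univ : Finset K) ⊆ {0, 1} := by
      intro x _
      by_cases hx : x = 0
      · simp [hx]
      · simp [hcon x hx]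
    have h3 := Finset.card_le_card h1
    have h4 : ({0, 1} : Finset K).card ≤ 2 := Finset.card_le_two
    rw [Finset.card_univ, hK] at h3
    omega
  refine ⟨w, hK, h2, ?_⟩
  have h5 : w ^ 3 = 1 := by
    have := FiniteField.pow_card_sub_one_eq_one w hw.1
    rwa [hK] at this
  have h6 : (w - 1) * (w ^ 2 + w + 1) = 0 := by linear_combination h5
  rcases mul_eq_zero.1 h6 with h7 | h7
  · exact absurd (sub_eq_zero.1 h7) hw.2
  · exact h7

variable {w : K} (F : Four K w)
include F

theorem Four.cube {x : K} (hx : x ≠ 0) : x ^ 3 = 1 := by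
  have := FiniteField.pow_card_sub_one_eq_one x hx
  rwa [F.card] at this

theorem Four.four (x : K) : x ^ 4 = x := by
  have := FiniteField.pow_card x
  rwa [F.card] at this

theorem Four.w_cube : w ^ 3 = 1 := by
  linear_combination (w - 1) * F.sum

theorem Four.two' : (2 : K) = 0 := by rw [← one_add_one_eq_two]; exact F.two 1

theorem Four.add_sq (x y : K) : (x + y) ^ 2 = x ^ 2 + y ^ 2 := by
  linear_combination (x * y) * F.two'

theorem Four.neg (x : K) : -x = x := by
  rw [neg_eq_iff_add_eq_zero]; exact F.two x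

theorem Four.w_ne_zero : w ≠ 0 := by
  intro h
  have := F.w_cube
  rw [h] at this
  norm_num at this

theorem Four.w_ne_one : w ≠ 1 := by
  intro h
  have h1 := F.sum
  rw [h] at h1
  have h2 := F.two 1
  rw [one_pow, h2, zero_add] at h1
  exact one_ne_zero h1

theorem Four.sq_ne : w ^ 2 ≠ w := by
  intro h
  have h1 := F.sum
  rw [h, F.two, zero_add] at h1
  exact one_ne_zero h1

theorem Four.sq_ne_one : w ^ 2 ≠ 1 := by
  intro h
  have h1 := F.w_cube
  have h2 : w ^ 3 = w ^ 2 * w := by ring
  rw [h2, h, one_mul] at h1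
  exact F.w_ne_one h1

omit F in
/-- powers of `w` indexed by residues mod three -/
def ep (w : K) (t : ZMod 3) : K := w ^ t.val

omit F in
theorem ep_zero : ep w 0 = 1 := pow_zero w

theorem Four.ep_add (s t : ZMod 3) : ep w (s + t) = ep w s * ep w t := by
  unfold ep
  rw [ZMod.val_add, ← pow_add]
  conv_rhs => rw [← Nat.div_add_mod (s.val + t.val) 3]
  rw [pow_add, pow_mul, F.w_cube, one_pow, one_mul]

theorem Four.ep_ne_zero (t : ZMod 3) : ep w t ≠ 0 := pow_ne_zero _ F.w_ne_zero

omit F in
theorem ep_one : ep w 1 = w := pow_one w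

omit F in
theorem ep_two : ep w 2 = w ^ 2 := rfl

theorem Four.ep_inj {s t : ZMod 3} (h : ep w s = ep w t) : s = t := by
  have hall : ∀ s : ZMod 3, s = 0 ∨ s = 1 ∨ s = 2 := by decide
  have hs := hall s
  have ht := hall t
  rcases hs with rfl | rfl | rfl <;> rcases ht with rfl | rfl | rfl
  · rfl
  · rw [ep_zero, ep_one] at h; exact absurd h.symm F.w_ne_one
  · rw [ep_zero, ep_two] at h; exact absurd h.symm F.sq_ne_one
  · rw [ep_zero, ep_one] at h; exact absurd h F.w_ne_one
  · rfl
  · rw [ep_one, ep_two] at h; exact absurd h.symm F.sq_ne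
  · rw [ep_zero, ep_two] at h; exact absurd h F.sq_ne_one
  · rw [ep_one, ep_two] at h; exact absurd h F.sq_ne
  · rfl

theorem Four.ep_sq (t : ZMod 3) : ep w t ^ 2 = ep w (-t) := by
  have h1 : ep w t * ep w (-t) = 1 := by rw [← F.ep_add, add_neg_cancel, ep_zero]
  have h2 : ep w t * ep w t ^ 2 = 1 := by
    have := F.cube (F.ep_ne_zero t)
    rw [← this]; ring
  exact mul_left_cancel₀ (F.ep_ne_zero t) (h2.trans h1.symm)

theorem Four.ep_sum {a b d : ZMod 3} (hab : a ≠ b) (had : a ≠ d) (hbd : b ≠ d) : ep w a + ep w b + ep w d = 0 := by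
  have h1 : ∀ a b d : ZMod 3, a ≠ b → a ≠ d → b ≠ d → (b = a + 1 ∧ d = a + 2) ∨ (b = a + 2 ∧ d = a + 1) := by decide
  have hs : ep w 0 + ep w 1 + ep w 2 = 0 := by
    rw [ep_zero, ep_one, ep_two]; linear_combination F.sum
  rcases h1 a b d hab had hbd with ⟨rfl, rfl⟩ | ⟨rfl, rfl⟩
  · have h2 : ep w a = ep w a * ep w 0 := by rw [ep_zero, mul_one]
    rw [F.ep_add, F.ep_add]
    nth_rewrite 1 [h2]
    linear_combination ep w a * hs
  · have h2 : ep w a = ep w a * ep w 0 := by rw [ep_zero, mul_one]
    rw [F.ep_add, F.ep_add]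
    nth_rewrite 1 [h2]
    linear_combination ep w a * hs

theorem Four.exists_ep {x : K} (hx : x ≠ 0) : ∃ t, x = ep w t := by
  have h1 : (x - 1) * ((x - w) * (x - w ^ 2)) = 0 := by
    have h3 := F.cube hx
    linear_combination h3 + (-x ^ 2 + x) * F.sum + (x - 1) * F.w_cube
  rcases mul_eq_zero.1 h1 with h2 | h2
  · exact ⟨0, by rw [ep_zero]; exact sub_eq_zero.1 h2⟩
  · rcases mul_eq_zero.1 h2 with h3 | h3
    · exact ⟨1, by rw [ep_one]; exact sub_eq_zero.1 h3⟩
    · exact ⟨2, by rw [ep_two]; exact sub_eq_zero.1 h3⟩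

theorem Four.sq_eq {x : K} (h : x ^ 2 = x) : x = 0 ∨ x = 1 := by
  have h1 : x * (x - 1) = 0 := by linear_combination h
  rcases mul_eq_zero.1 h1 with h2 | h2
  · exact Or.inl h2
  · exact Or.inr (sub_eq_zero.1 h2)

/-- the trace form vanishes only at zero -/
theorem Four.eq_zero_of_trace {x : K} (h1 : x + x ^ 2 = 0) (h2 : w ^ 2 * x + w * x ^ 2 = 0) : x = 0 := by
  have h3 : x ^ 2 = x := by
    have := F.two x
    linear_combination h1 - this
  rw [h3] at h2
  have h4 : (w ^ 2 + w) * x = 0 := by linear_combination h2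
  rcases mul_eq_zero.1 h4 with h5 | h5
  · exfalso
    have := F.sum
    rw [h5, zero_add] at this
    exact one_ne_zero this
  · exact h5

end Field

/-- a hermitian form over the field with four elements -/
structure HForm {K : Type*} [Field K] {V : Type*} [AddCommGroup V] [Module K V] (H : V → V → K) : Prop where
  add_left : ∀ x y z, H (x + y) z = H x z + H y z
  smul_left : ∀ (a : K) x z, H (a • x) z = a * H x z
  herm : ∀ x y, H y x = H x y ^ 2

section HForm

variable {K : Type*} [Field K] [Fintype K] {w : K} (F : Four K w) {V : Type*} [AddCommGroup V] [Module K V]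
  {H : V → V → K} (hH : HForm H)

include F hH

theorem HForm.add_right (x y z : V) : H x (y + z) = H x y + H x z := by
  rw [hH.herm (y + z) x, hH.add_left, F.add_sq, ← hH.herm, ← hH.herm]

omit F [Fintype K] in
theorem HForm.smul_right (a : K) (x y : V) : H x (a • y) = a ^ 2 * H x y := by
  rw [hH.herm (a • y) x, hH.smul_left, mul_pow, ← hH.herm]

omit F [Fintype K] in
theorem HForm.zero_left (x : V) : H 0 x = 0 := by
  have := hH.smul_left 0 0 x
  rwa [zero_smul, zero_mul] at this

omit F [Fintype K] in
theorem HForm.zero_right (x : V) : H x 0 = 0 := by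
  rw [hH.herm 0 x, hH.zero_left, zero_pow two_ne_zero]

theorem HForm.self (x : V) : H x x = 0 ∨ H x x = 1 := F.sq_eq (hH.herm x x).symm

omit F [Fintype K] in
theorem HForm.sum_left {ι : Type*} (s : Finset ι) (f : ι → V) (y : V) : H (∑ i ∈ s, f i) y = ∑ i ∈ s, H (f i) y := by
  classical
  induction s using Finset.induction_on with
  | empty => simp [hH.zero_left]
  | insert a s ha ih => rw [Finset.sum_insert ha, Finset.sum_insert ha, hH.add_left, ih]

/-- coordinates -/
theorem HForm.exists_coord [FiniteDimensional K V] (hnd : ∀ x, (∀ y, H x y = 0) → x = 0) :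
    ∃ (n : ℕ) (e : V ≃ₗ[K] (Fin n → K)), ∀ x y, H x y = hermForm n K 2 (e x) (e y) := by
  classical
  -- orthonormal families
  let P : ℕ → Prop := fun k => ∃ u : Fin k → V, ∀ i j, H (u i) (u j) = if i = j then 1 else 0
  have hP0 : P 0 := ⟨fun i => i.elim0, fun i => i.elim0⟩
  have hle : ∀ k, P k → k ≤ Module.finrank K V := by
    rintro k ⟨u, hu⟩
    have hli : LinearIndependent K u := by
      rw [Fintype.linearIndependent_iff]
      intro g hg i
      have h1 : H (∑ j, g j • u j) (u i) = 0 := by rw [hg, hH.zero_left]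
      rw [hH.sum_left, Finset.sum_eq_single i] at h1
      · rw [hH.smul_left, hu, if_pos rfl, mul_one] at h1
        exact h1
      · intro j _ hj
        rw [hH.smul_left, hu, if_neg hj, mul_zero]
      · intro h2; exact absurd (Finset.mem_univ i) h2
    have := hli.fintype_card_le_finrank
    rwa [Fintype.card_fin] at this
  have hmax : ∃ k, P k ∧ ¬ P (k + 1) := by
    by_contra hcon
    push Not at hcon
    have hall : ∀ k, P k := by
      intro k
      induction k with
      | zero => exact hP0
      | succ k ih => exact hcon k ih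
    have := hle _ (hall (Module.finrank K V + 1))
    omega
  obtain ⟨n, ⟨u, hu⟩, hn⟩ := hmax
  have hker : ∀ x, (∀ i, H x (u i) = 0) → H x x = 0 := by
    intro x hx
    rcases hH.self F x with h1 | h1
    · exact h1
    · exfalso
      apply hn
      refine ⟨Fin.snoc (α := fun _ => V) u x, ?_⟩
      intro i j
      refine Fin.lastCases ?_ (fun i => ?_) i
      · refine Fin.lastCases ?_ (fun j => ?_) j
        · rw [Fin.snoc_last, h1, if_pos rfl]
        · rw [Fin.snoc_last, Fin.snoc_castSucc, hx, if_neg (Fin.castSucc_lt_last j).ne']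
      · refine Fin.lastCases ?_ (fun j => ?_) j
        · rw [Fin.snoc_last, Fin.snoc_castSucc, hH.herm x, hx, if_neg (Fin.castSucc_lt_last i).ne,
            zero_pow two_ne_zero]
        · rw [Fin.snoc_castSucc, Fin.snoc_castSucc, hu]
          by_cases hij : i = j
          · rw [if_pos hij, if_pos (by rw [hij])]
          · rw [if_neg hij, if_neg (fun h2 => hij (Fin.castSucc_injective _ h2))]
  have hker2 : ∀ x, (∀ i, H x (u i) = 0) → ∀ y, (∀ i, H y (u i) = 0) → H x y = 0 := by
    intro x hx y hy
    have key : ∀ a : K, a ^ 2 * H x y + a * H x y ^ 2 = 0 := by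
      intro a
      have h1 : ∀ i, H (x + a • y) (u i) = 0 := by
        intro i; rw [hH.add_left, hH.smul_left, hx, hy, mul_zero, add_zero]
      have h2 := hker _ h1
      rw [hH.add_left, hH.add_right F, hH.add_right F, hH.smul_left, hH.smul_left, hH.smul_right, hH.smul_right,
        hker x hx, hker y hy, hH.herm x y] at h2
      linear_combination h2
    apply F.eq_zero_of_trace
    · have := key 1
      rw [one_pow, one_mul, one_mul] at this
      exact this
    · exact key w
  have hproj : ∀ y, ∀ i, H (y - ∑ j, H y (u j) • u j) (u i) = 0 := by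
    intro y i
    have h1 : H y (u i) = H (y - ∑ j, H y (u j) • u j) (u i) + H (∑ j, H y (u j) • u j) (u i) := by
      rw [← hH.add_left, sub_add_cancel]
    have h2 : ∑ j, H (H y (u j) • u j) (u i) = H y (u i) := by
      rw [Finset.sum_eq_single i]
      · rw [hH.smul_left, hu, if_pos rfl, mul_one]
      · intro j _ hj
        rw [hH.smul_left, hu, if_neg hj, mul_zero]
      · intro h2; exact absurd (Finset.mem_univ i) h2
    rw [hH.sum_left, h2] at h1
    exact left_eq_add.1 (by rw [add_comm]; exact h1)
  have hinj : ∀ x, (∀ i, H x (u i) = 0) → x = 0 := by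
    intro x hx
    apply hnd
    intro y
    have h1 : y = (y - ∑ j, H y (u j) • u j) + ∑ j, H y (u j) • u j := by rw [sub_add_cancel]
    rw [h1, hH.add_right F, hker2 x hx _ (hproj y), zero_add, hH.herm (∑ j, H y (u j) • u j) x, hH.sum_left,
      Finset.sum_eq_zero, zero_pow two_ne_zero]
    intro j _
    rw [hH.smul_left, hH.herm x, hx, zero_pow two_ne_zero, mul_zero]
  have hexp : ∀ x, x = ∑ j, H x (u j) • u j := by
    intro x
    have := hinj _ (hproj x)
    exact sub_eq_zero.1 this
  let e0 : V →ₗ[K] (Fin n → K) :=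
    { toFun := fun x i => H x (u i)
      map_add' := fun x y => funext fun i => hH.add_left _ _ _
      map_smul' := fun a x => funext fun i => hH.smul_left _ _ _ }
  have he0 : ∀ x i, e0 x i = H x (u i) := fun _ _ => rfl
  have hbij : Function.Bijective e0 := by
    constructor
    · rw [← LinearMap.ker_eq_bot, LinearMap.ker_eq_bot']
      intro x hx
      exact hinj x fun i => congrFun hx i
    · intro a
      refine ⟨∑ j, a j • u j, funext fun i => ?_⟩
      rw [he0, hH.sum_left, Finset.sum_eq_single i]
      · rw [hH.smul_left, hu, if_pos rfl, mul_one]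
      · intro j _ hj
        rw [hH.smul_left, hu, if_neg hj, mul_zero]
      · intro h2; exact absurd (Finset.mem_univ i) h2
  refine ⟨n, LinearEquiv.ofBijective e0 hbij, fun x y => ?_⟩
  unfold hermForm
  rw [hexp x, hH.sum_left]
  apply Finset.sum_congr rfl
  intro j _
  rw [← hexp x, hH.smul_left, hH.herm y (u j)]
  rfl

end HForm

section Gram

variable {K : Type*} [Field K] [Fintype K] {w : K} (F : Four K w) {ι : Type*} [Fintype ι] {M : ι → ι → K}
  (hM : ∀ i j, M j i = M i j ^ 2)

include F hM

/-- the form on the row space of a hermitian matrix -/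
theorem exists_rowForm : ∃ B : (Submodule.span K (Set.range M) : Submodule K (ι → K)) →
    (Submodule.span K (Set.range M) : Submodule K (ι → K)) → K, HForm B ∧
    ∀ (u : (Submodule.span K (Set.range M) : Submodule K (ι → K))) (i : ι),
      B u ⟨M i, Submodule.subset_span ⟨i, rfl⟩⟩ = (u : ι → K) i := by
  classical
  set W := (Submodule.span K (Set.range M) : Submodule K (ι → K)) with hW
  have hex : ∀ v : W, ∃ b : ι → K, (v : ι → K) = ∑ i, b i • M i := by
    intro v
    obtain ⟨b, hb⟩ := (Submodule.mem_span_range_iff_exists_fun K).1 v.2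
    exact ⟨b, hb.symm⟩
  choose b hb using hex
  have hbv : ∀ (v : W) j, (v : ι → K) j = ∑ i, b v i * M i j := by
    intro v j
    rw [hb v, Finset.sum_apply]
    rfl
  have hsum : ∀ (f : ι → K), (∑ i, f i) ^ 2 = ∑ i, f i ^ 2 := by
    intro f
    have : ∀ s : Finset ι, (∑ i ∈ s, f i) ^ 2 = ∑ i ∈ s, f i ^ 2 := by
      intro s
      induction s using Finset.induction_on with
      | empty => simp
      | insert a s ha ih => rw [Finset.sum_insert ha, Finset.sum_insert ha, F.add_sq, ih]
    exact this _
  let B : W → W → K := fun u v => ∑ i, b v i ^ 2 * (u : ι → K) i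
  have hherm : ∀ u v, B v u = B u v ^ 2 := by
    intro u v
    have e1 : B v u = ∑ i, ∑ j, b u i ^ 2 * (b v j * M j i) := by
      simp only [B]
      apply Finset.sum_congr rfl
      intro i _
      rw [hbv v i, Finset.mul_sum]
    have e2 : B u v ^ 2 = ∑ j, ∑ i, b u i ^ 2 * (b v j * M j i) := by
      simp only [B]
      rw [hsum]
      apply Finset.sum_congr rfl
      intro j _
      rw [mul_pow, hbv u j, hsum, Finset.mul_sum]
      apply Finset.sum_congr rfl
      intro i _
      rw [mul_pow, ← hM i j, ← pow_mul]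
      have := F.four (b v j)
      linear_combination (b u i ^ 2 * M j i) * this
    rw [e1, e2, Finset.sum_comm]
  have hadd : ∀ x y z, B (x + y) z = B x z + B y z := by
    intro x y z
    simp only [B]
    rw [← Finset.sum_add_distrib]
    apply Finset.sum_congr rfl
    intro i _
    rw [Submodule.coe_add, Pi.add_apply, mul_add]
  have hsmul : ∀ (a : K) x z, B (a • x) z = a * B x z := by
    intro a x z
    simp only [B]
    rw [Finset.mul_sum]
    apply Finset.sum_congr rfl
    intro i _
    rw [Submodule.coe_smul, Pi.smul_apply, smul_eq_mul]; ring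
  refine ⟨B, ⟨hadd, hsmul, hherm⟩, ?_⟩
  intro u i
  rw [hherm ⟨M i, Submodule.subset_span ⟨i, rfl⟩⟩ u]
  simp only [B]
  rw [hsum, hbv u i]
  apply Finset.sum_congr rfl
  intro j _
  rw [mul_pow, ← pow_mul, ← hM i j]
  have := F.four (b u j)
  linear_combination M j i * this

end Gram

end Cfsg.Agent.ThreeTransp
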