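import Cfsg.Agent.ThreeTransp.PolarLine
/-!
3-transposition groups in which the 2-core of the group generated by the transpositions commuting with a transposition is
not central: lines have three or five points (owner: helper8).
-/
set_option autoImplicit false
open Cfsg
open scoped Pointwise commutatorElement
namespace Cfsg.Agent.ThreeTransp

variable {G : Type*} [Group G] {D : Set G}

theorem d4_aux (hD : Cfsg.IsThreeTranspositionSet D) {c u v q : G} (hc : c ∈ D) (hu : u ∈ D) (hv : v ∈ D) (hq : q ∈ D)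
    (uv : Commute u v) (huv : u ≠ v) (qc : ¬ Commute q c) (qu : ¬ Commute q u)
    (qv : ¬ Commute q v) : Commute (q * ((c * u * v) * q * (c * u * v)⁻¹) * q) c := by
  have ff := four_facts hD hu hv hq uv huv qu qv
  have hqq := mul_self hD hq
  have hcc := mul_self hD hc
  have hci := inv_eq hD hc
  rw [← cj hqq, ThreeTrans.conj_cancel hqq, braid hD hq hc qc, ← cj hcc, ThreeTrans.conj_cancel hcc]
  have e1 : c * ((c * u * v) * q * (c * u * v)⁻¹) * c = (u * v) * q * (u * v)⁻¹ := by
    have h1 : (c * u * v)⁻¹ = (u * v)⁻¹ * c := by rw [mul_assoc c, mul_inv_rev, hci]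
    rw [h1]
    calc c * (c * u * v * q * ((u * v)⁻¹ * c)) * c = (c * c) * (u * v * q * (u * v)⁻¹) * (c * c) := by group
      _ = _ := by rw [hcc]; group
  rw [e1]
  exact ff.1.symm

/-- facts on the D4 configuration -/
theorem d4_facts (hD : Cfsg.IsThreeTranspositionSet D) (hconj : ∀ g : G, ∀ d ∈ D, g * d * g⁻¹ ∈ D) {c u v q : G}
    (hc : c ∈ D) (hu : u ∈ D) (hv : v ∈ D) (hq : q ∈ D) (cu : Commute c u) (cv : Commute c v)
    (uv : Commute u v) (hcu : c ≠ u) (hcv : c ≠ v) (huv : u ≠ v) (qc : ¬ Commute q c) (qu : ¬ Commute q u)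
    (qv : ¬ Commute q v) :
    ¬ Commute q ((c * u * v) * q * (c * u * v)⁻¹) ∧ q * ((c * u * v) * q * (c * u * v)⁻¹) * q ∈ D ∧
      Commute (q * ((c * u * v) * q * (c * u * v)⁻¹) * q) c ∧ Commute (q * ((c * u * v) * q * (c * u * v)⁻¹) * q) u ∧
      Commute (q * ((c * u * v) * q * (c * u * v)⁻¹) * q) v ∧
      Commute q ((c * u * v) * (q * ((c * u * v) * q * (c * u * v)⁻¹) * q)) := by
  have hqq := mul_self hD hq
  have hcc := mul_self hD hc
  have huu := mul_self hD hu
  have hvv := mul_self hD hv
  have hqi := inv_eq hD hq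
  have k1 := d4_aux hD hc hu hv hq uv huv qc qu qv
  have k2 : Commute (q * ((c * u * v) * q * (c * u * v)⁻¹) * q) u := by
    have := d4_aux hD hu hc hv hq cv hcv qu qc qv
    rwa [← cu.eq] at this
  have k3 : Commute (q * ((c * u * v) * q * (c * u * v)⁻¹) * q) v := by
    have := d4_aux hD hv hc hu hq cu hcu qv qc qu
    have e1 : v * c * u = c * u * v := by rw [← cv.eq, mul_assoc, ← uv.eq, mul_assoc]
    rwa [e1] at this
  set z := c * u * v with hz
  have hzz : z * z = 1 := by
    rw [hz]
    calc c * u * v * (c * u * v) = c * u * (v * c) * u * v := by group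
      _ = c * u * (c * v) * u * v := by rw [cv.eq]
      _ = c * (u * c) * (v * u) * v := by group
      _ = c * (c * u) * (u * v) * v := by rw [cu.eq, uv.eq]
      _ = (c * c) * (u * u) * (v * v) := by group
      _ = 1 := by rw [hcc, huu, hvv]; group
  have hzi : z⁻¹ = z := inv_eq_of_mul_eq_one_left hzz
  have hzc : Commute z c := ((Commute.refl c).mul_left cu.symm).mul_left cv.symm
  set e := z * q * z⁻¹ with he
  have heD : e ∈ D := hconj z q hq
  have h1 : ¬ Commute q e := by
    intro h1
    rw [conj_comm hqq h1] at k1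
    apply qc
    have h2 : z * c * z⁻¹ = c := by rw [hzc.eq]; group
    have k4 : Commute (z * q * z⁻¹) (z * c * z⁻¹) := by rw [h2]; exact k1
    exact (commute_conj_iff z).1 k4
  refine ⟨h1, ?_, k1, k2, k3, ?_⟩
  · have := hconj q e heD
    rwa [hqi] at this
  · -- q z r q = z r
    have hee := mul_self hD heD
    have hb := braid hD hq heD h1
    have e1 : q * z = z * e := by
      rw [he, hzi]
      calc q * z = (z * z) * q * z := by rw [hzz, one_mul]
        _ = z * (z * q * z) := by group
    show q * (z * (q * e * q)) = z * (q * e * q) * q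
    calc q * (z * (q * e * q)) = (q * z) * (q * e * q) := by group
      _ = z * e * (e * q * e) := by rw [e1, hb]
      _ = z * (e * e) * (q * e) := by group
      _ = z * (q * e) := by rw [hee, mul_one]
      _ = z * (q * e) * (q * q) := by rw [hqq, mul_one]
      _ = z * (q * e * q) * q := by group

section Conn

variable (h : VHyp D)
include h

theorem VHyp.connected : (Cfsg.commutingGraph D).Connected := by
  obtain ⟨d, hd, a, ha, hne, hda⟩ := h.ex
  have hR := ThreeTrans.connRel_blockRel (D := D) h.conj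
  have hall := h.irr (ThreeTrans.connRel D) (fun g _ _ hxy => hR.conj g hxy) (fun x hx => hR.refl x hx)
    (fun _ _ _ _ h1 => hR.symm h1) (fun _ _ _ _ _ _ h1 h2 => hR.trans h1 h2) d hd a ha hne.symm ?_
  · have : Nonempty D := ⟨⟨d, hd⟩⟩
    refine ⟨?_⟩
    rintro ⟨x, hx⟩ ⟨y, hy⟩
    obtain ⟨_, _, h2⟩ := hall x hx y hy
    exact h2
  · intro y hy
    by_cases hyd : ThreeTrans.connRel D y d
    · have hya : ThreeTrans.connRel D y a := hR.trans hyd (ThreeTrans.connRel_of_commute hd ha hda)
      have h1 : ThreeTrans.connRel D (d * y * d⁻¹) d := by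
        have := hR.conj d hyd
        rwa [show d * d * d⁻¹ = d by group] at this
      have h2 : ThreeTrans.connRel D (a * y * a⁻¹) a := by
        have := hR.conj a hya
        rwa [show a * a * a⁻¹ = a by group] at this
      exact hR.trans h1 (hR.trans (ThreeTrans.connRel_of_commute hd ha hda) (hR.symm h2))
    · have h1 : ¬ Commute y d := fun hc => hyd (ThreeTrans.connRel_of_commute hy hd hc)
      have h2 : ¬ Commute y a := fun hc => hyd (hR.trans (ThreeTrans.connRel_of_commute hy ha hc)
        (ThreeTrans.connRel_of_commute ha hd hda.symm))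
      have ff := (four_facts h.cls.1 hd ha hy hda hne.symm h1 h2).1
      have h3 := (commute_conj_iff a).2 ff
      have e1 : a * ((d * a) * y * (d * a)⁻¹) * a⁻¹ = d * y * d⁻¹ := by
        have h4 : a * (d * a) = d := by
          rw [← mul_assoc, ← hda.eq, mul_assoc, h.mul_self ha, mul_one]
        calc a * ((d * a) * y * (d * a)⁻¹) * a⁻¹ = (a * (d * a)) * y * (a * (d * a))⁻¹ := by group
          _ = _ := by rw [h4]
      rw [e1] at h3
      exact ThreeTrans.connRel_of_commute (h.conj _ y hy) (h.conj _ y hy) h3.symm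

variable [Finite G]

theorem VHyp.eq_one {c q g : G} (hc : c ∈ D) (hq : q ∈ D) (hcq : ¬ Commute c q)
    (h1 : ∀ y ∈ D, Commute c y → Commute y g) (h2 : Commute q g) : g = 1 := by
  obtain ⟨d, hd, a, ha, hne, hda⟩ := h.ex
  have htop := eq_top_of_perp_le h.cls h.irr hc hq hcq hd ha hne.symm hda h.connected
    (H := Subgroup.centralizer {g}) (Subgroup.mem_centralizer_singleton_iff.2 h2.eq)
    (fun y hy hcy => Subgroup.mem_centralizer_singleton_iff.2 (h1 y hy hcy).eq)
  apply h.cen
  intro y _
  have : y ∈ Subgroup.centralizer {g} := by rw [htop]; trivial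
  exact (Subgroup.mem_centralizer_singleton_iff.1 this)

/-- the fourth root of the D4 configuration lies on the line -/
theorem VHyp.r_mem {c x q u v : G} (hc : c ∈ D) (hx : x ∈ perp D c) (hq : q ∈ D) (qc : ¬ Commute q c)
    (qx : Commute q x) (hu : u ∈ pl D c x) (huc : u ≠ c) (hux : u ≠ x) (hv : v ∈ pl D c x) (hvc : v ≠ c) (hvx : v ≠ x)
    (huv : u ≠ v) : q * ((c * u * v) * q * (c * u * v)⁻¹) * q ∈ pl D c x ∧
      q * ((c * u * v) * q * (c * u * v)⁻¹) * q ≠ c ∧ ¬ Commute q (q * ((c * u * v) * q * (c * u * v)⁻¹) * q) := by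
  have hcm := h.left_mem (a := x) hc
  have hxm := h.right_mem (d := c) hx.1
  have qu : ¬ Commute q u := fun h1 => qc (h.commute_all hc hx hxm hu hux.symm hq qx h1 hcm)
  have qv : ¬ Commute q v := fun h1 => qc (h.commute_all hc hx hxm hv hvx.symm hq qx h1 hcm)
  have cu := pl_commute hc hx hcm hu
  have cv := pl_commute hc hx hcm hv
  have uv := pl_commute hc hx hu hv
  obtain ⟨f1, f2, f3, f4, f5, f6⟩ := d4_facts h.cls.1 h.conj hc hu.1 hv.1 hq cu cv uv huc.symm hvc.symm huv qc qu qv
  have hqq := h.mul_self hq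
  have hcc := h.mul_self hc
  set e := (c * u * v) * q * (c * u * v)⁻¹ with he
  have heD : e ∈ D := h.conj _ q hq
  set r := q * e * q with hr
  have hrc : r ≠ c := by
    intro h1
    have h2 : q * c * q = e := by rw [← h1, hr, ThreeTrans.conj_cancel hqq]
    rw [braid h.cls.1 hq hc qc] at h2
    have h3 : (u * v) * q * (u * v)⁻¹ = q := by
      calc (u * v) * q * (u * v)⁻¹ = (c * c)⁻¹ * (u * v) * q * (u * v)⁻¹ * (c * c) := by rw [hcc]; group
        _ = c⁻¹ * (c⁻¹ * (u * v) * q * ((u * v)⁻¹ * c)) * c := by group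
        _ = c * (c * (u * v) * q * ((u * v)⁻¹ * c⁻¹)) * c := by rw [h.inv_eq hc]
        _ = c * ((c * u * v) * q * (c * u * v)⁻¹) * c := by group
        _ = c * (c * q * c) * c := by rw [← he, h2]
        _ = q := ThreeTrans.conj_cancel hcc q
    exact (four_facts h.cls.1 hu.1 hv.1 hq uv huv qu qv).2.1 h3.symm
  have hqr : ¬ Commute q r := by
    intro h1
    apply f1
    rw [← cj hqq, hqq, one_mul]
    exact h1
  have hrp : r ∈ perp D c := ⟨f2, hrc, f3.symm⟩
  have hrx : Commute r x := by
    have h1 : Commute (c * u * v) x :=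
      (hx.2.2.mul_left (pl_commute hc hx hu hxm)).mul_left (pl_commute hc hx hv hxm)
    have h2 : Commute e x := (h1.mul_left qx).mul_left h1.inv_left
    exact (qx.mul_left h2).mul_left qx
  refine ⟨?_, hrc, hqr⟩
  obtain ⟨r0, hr0, hqr0⟩ := h.exists_mem_commute hc hrp hq
  have hr0c : r0 ≠ c := by rintro rfl; exact qc hqr0
  have hr0p : r0 ∈ perp D c := h.mem_perp_of_pl hc hrp hr0 hr0c
  have hsub : cc D c x ⊆ cc D c r0 := by
    rintro p ⟨hp, hpc, hpx⟩
    refine ⟨hp, hpc, ?_⟩
    by_cases hpc' : p = c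
    · rw [hpc']; exact hr0p.2.2
    · have hpp : p ∈ perp D c := ⟨hp, hpc', hpc.symm⟩
      obtain ⟨p0, hp0, hqp0⟩ := h.exists_mem_commute hc hpp hq
      have hp0c : p0 ≠ c := by rintro rfl; exact qc hqp0
      have hp0x : Commute p0 x := (h.commute_all hc hpp (h.left_mem hc) (h.right_mem hp) (fun h1 => hpc' h1.symm)
        hx.1 hx.2.2.symm hpx.symm hp0).symm
      have hp0c' : Commute c p0 := pl_commute hc hpp (h.left_mem hc) hp0
      -- p0 commutes with the whole line
      have hall : ∀ w ∈ pl D c x, Commute p0 w := fun w hw =>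
        h.commute_all hc hx hcm hxm hx.2.1.symm hp0.1 hp0c'.symm hp0x hw
      have hp0r : Commute p0 r := by
        have h1 : Commute p0 (c * u * v) := (hp0c'.symm.mul_right (hall u hu)).mul_right (hall v hv)
        have h2 : Commute p0 e := (h1.mul_right hqp0.symm).mul_right h1.inv_right
        exact (hqp0.symm.mul_right h2).mul_right hqp0.symm
      have hp0r0 : Commute p0 r0 := h.commute_all hc hrp (h.left_mem hc) (h.right_mem f2) hrc.symm hp0.1 hp0c'.symm
        hp0r hr0
      exact (h.commute_all hc hpp (h.left_mem hc) hp0 (fun h1 => hp0c h1.symm) hr0.1 hr0p.2.2.symm hp0r0.symm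
        (h.right_mem hp)).symm
  have heq : cc D c x = cc D c r0 :=
    Set.eq_of_subset_of_ncard_le hsub (h.cc_ncard hc hx hc hr0p).symm.le (Set.toFinite _)
  have h1 : pl D c r = pl D c x := by
    rw [← h.pl_eq_left hc hrp hr0 hr0c]
    unfold pl; rw [heq]
  rw [← h1]
  exact h.right_mem f2

/-- the five point relation -/
theorem VHyp.five {c x u v : G} (hc : c ∈ D) (hx : x ∈ perp D c) (hu : u ∈ pl D c x) (huc : u ≠ c) (hux : u ≠ x)
    (hv : v ∈ pl D c x) (hvc : v ≠ c) (hvx : v ≠ x) (huv : u ≠ v) :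
    ∃ w ∈ pl D c x, c * x * u * v * w = 1 := by
  obtain ⟨q, hq, qx, qc⟩ := h.exists_sep hc hx
  have hcm := h.left_mem (a := x) hc
  have hxm := h.right_mem (d := c) hx.1
  obtain ⟨g1, g2, g3⟩ := h.r_mem hc hx hq qc qx hu huc hux hv hvc hvx huv
  have qu : ¬ Commute q u := fun h1 => qc (h.commute_all hc hx hxm hu hux.symm hq qx h1 hcm)
  have qv : ¬ Commute q v := fun h1 => qc (h.commute_all hc hx hxm hv hvx.symm hq qx h1 hcm)
  have cu := pl_commute hc hx hcm hu
  have cv := pl_commute hc hx hcm hv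
  have cx := hx.2.2
  have xu := pl_commute hc hx hxm hu
  have xv := pl_commute hc hx hxm hv
  have uv := pl_commute hc hx hu hv
  obtain ⟨f1, f2, f3, f4, f5, f6⟩ := d4_facts h.cls.1 h.conj hc hu.1 hv.1 hq cu cv uv huc.symm hvc.symm huv qc qu qv
  set r := q * ((c * u * v) * q * (c * u * v)⁻¹) * q with hr
  have hrx : r ≠ x := by intro h1; rw [h1] at g3; exact g3 qx
  have xr : Commute x r := pl_commute hc hx hxm g1
  have hqq := h.mul_self hq
  have hcc := h.mul_self hc
  have hxx := h.mul_self hx.1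
  have huu := h.mul_self hu.1
  have hvv := h.mul_self hv.1
  have hrr := h.mul_self f2
  have hci := h.inv_eq hc
  have hxi := h.inv_eq hx.1
  have hui := h.inv_eq hu.1
  have hvi := h.inv_eq hv.1
  have hri := h.inv_eq f2
  refine ⟨r, g1, ?_⟩
  -- g = x u v r
  set g := x * u * v * r with hg
  have hcg : Commute c g := ((cx.mul_right cu).mul_right cv).mul_right f3.symm
  have hgl : ∀ w ∈ pl D c x, Commute w g := fun w hw =>
    (((pl_commute hc hx hw hxm).mul_right (pl_commute hc hx hw hu)).mul_right (pl_commute hc hx hw hv)).mul_right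
      (pl_commute hc hx hw g1)
  -- q commutes with c g
  have hqg : Commute q (c * g) := by
    have e1 : c * g = x * ((c * u * v) * r) := by
      rw [hg]
      calc c * (x * u * v * r) = (c * x) * (u * v * r) := by group
        _ = (x * c) * (u * v * r) := by rw [cx.eq]
        _ = _ := by group
    rw [e1]
    exact qx.mul_right f6
  -- the conjugate of q by u
  have hquD : u * q * u ∈ D := h.conj3 hu.1 hq
  have hquc : ¬ Commute (u * q * u) c := by
    intro h1
    apply qc
    rw [← cj huu, conj_comm huu cu.symm]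
    exact h1
  have main0 : ∀ p ∈ perp D c, ¬ Commute p x → Commute q p → Commute p g := by
    intro p hp hpx hqp
    have hpr : ¬ Commute p v := fun h1 => hpx (h.commute_all hc hx hcm hv hvc.symm hp.1 hp.2.2.symm h1 hxm)
    obtain ⟨s1, s2, s3⟩ := h.shift hc hx hu huc hux hp hpx
    have hvp : v ∈ perp D c := h.mem_perp_of_pl hc hx hv hvc
    have hlv : pl D c v = pl D c x := h.pl_eq_left hc hx hv hvc
    have hrv : r ≠ v := by
      intro h1
      -- q commutes with c u v r = c u
      rw [h1] at f6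
      have e1 : c * u * v * v = c * u := by rw [mul_assoc, hvv, mul_one]
      rw [e1, commute_mul_two_iff h.cls.1 hc hu.1 hq huc.symm cu] at f6
      exact qc f6.1
    obtain ⟨t1, t2, t3⟩ := h.shift hc hvp (y := r) (by rw [hlv]; exact g1) g2 hrv hp hpr
    have k1 : Commute (u * q * u) ((x * u) * p * (x * u)⁻¹) := by
      have h1 : u * q * u = (x * u) * q * (x * u)⁻¹ := by
        rw [xu.eq, mul_inv_rev, hxi, hui]
        calc u * q * u = u * (q * (x * x)) * u := by rw [hxx, mul_one]
          _ = u * ((q * x) * x) * u := by group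
          _ = u * ((x * q) * x) * u := by rw [qx.eq]
          _ = _ := by group
      rw [h1]
      exact (commute_conj_iff _).2 hqp
    have k2 : Commute (u * q * u) ((v * r) * p * (v * r)⁻¹) := by
      have vr : Commute v r := f5.symm
      -- (c u) (v r) centralises q
      have h1 : (v * r) * q * (v * r)⁻¹ = (c * u)⁻¹ * q * (c * u) := by
        have h2 : (c * u) * ((v * r) * q * (v * r)⁻¹) * (c * u)⁻¹ = q := by
          calc (c * u) * ((v * r) * q * (v * r)⁻¹) * (c * u)⁻¹ = ((c * u * v) * r) * q * ((c * u * v) * r)⁻¹ := by group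
            _ = q := by rw [← f6.eq]; group
        calc (v * r) * q * (v * r)⁻¹ = (c * u)⁻¹ * ((c * u) * ((v * r) * q * (v * r)⁻¹) * (c * u)⁻¹) * (c * u) := by group
          _ = _ := by rw [h2]
      have h2 : Commute ((v * r) * q * (v * r)⁻¹) ((v * r) * p * (v * r)⁻¹) := (commute_conj_iff _).2 hqp
      rw [h1] at h2
      have hB : Commute c ((v * r) * p * (v * r)⁻¹) := by
        have h3 : Commute c (v * r) := cv.mul_right f3.symm
        exact (h3.mul_right hp.2.2).mul_right h3.inv_right
      have h3 := (cj hcc).2 h2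
      rw [conj_comm hcc hB] at h3
      have e1 : c * ((c * u)⁻¹ * q * (c * u)) * c = u * q * u := by
        rw [mul_inv_rev, hci, hui]
        calc c * (u * c * q * (c * u)) * c = (c * u) * c * q * c * (u * c) := by group
          _ = (u * c) * c * q * c * (c * u) := by rw [cu.eq]
          _ = u * (c * c) * q * (c * c) * u := by group
          _ = _ := by rw [hcc]; group
      rwa [e1] at h3
    have k3 := h.unique hc hp hquD hquc s1 t1 k1 k2
    -- so p commutes with (v r)⁻¹ (x u)
    have h4 : Commute p ((v * r)⁻¹ * (x * u)) := by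
      show p * ((v * r)⁻¹ * (x * u)) = ((v * r)⁻¹ * (x * u)) * p
      calc p * ((v * r)⁻¹ * (x * u)) = (v * r)⁻¹ * ((v * r) * p * (v * r)⁻¹) * (x * u) := by group
        _ = (v * r)⁻¹ * ((x * u) * p * (x * u)⁻¹) * (x * u) := by rw [k3]
        _ = _ := by group
    have e2 : (v * r)⁻¹ * (x * u) = g := by
      have h5 : Commute (v * r) (x * u) := ((xv.symm.mul_left xr.symm).mul_right (uv.symm.mul_left f4))
      have h6 : (v * r)⁻¹ = v * r := by rw [mul_inv_rev, hvi, hri]; exact f5.eq
      rw [h6, h5.eq, hg]; group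
    rwa [e2] at h4
  have main : ∀ p ∈ D, Commute c p → Commute p g := by
    intro p hp hcp
    by_cases hpc : p = c
    · rw [hpc]; exact hcg
    have hpp : p ∈ perp D c := ⟨hp, hpc, hcp⟩
    by_cases hpx : Commute p x
    · have hall : ∀ w ∈ pl D c x, Commute p w := fun w hw => h.commute_all hc hx hcm hxm hx.2.1.symm hp hcp.symm hpx hw
      exact (((hall x hxm).mul_right (hall u hu)).mul_right (hall v hv)).mul_right (hall r g1)
    obtain ⟨p0, hp0, hqp0⟩ := h.exists_mem_commute hc hpp hq
    have hp0c : p0 ≠ c := by rintro rfl; exact qc hqp0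
    have hp0p : p0 ∈ perp D c := h.mem_perp_of_pl hc hpp hp0 hp0c
    have hline : pl D c p0 = pl D c p := h.pl_eq_left hc hpp hp0 hp0c
    have hp0x : ¬ Commute p0 x := fun h1 => hpx (h.commute_all hc hpp (h.left_mem hc) hp0 (fun h2 => hp0c h2.symm)
      hx.1 hx.2.2.symm h1.symm (h.right_mem hp)).symm
    have hg0 := main0 p0 hp0p hp0x hqp0
    by_cases hpp0 : p = p0
    · rw [hpp0]; exact hg0
    -- p = (x w) p0 (x w)⁻¹
    have hsurj : ∃ w ∈ pl D c x, (x * w) * p0 * (x * w)⁻¹ = p := by
      have himg : (fun w => (x * w) * p0 * (x * w)⁻¹) '' (pl D c x \ {c, x}) = pl D c p0 \ {c, p0} := by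
        apply Set.eq_of_subset_of_ncard_le _ _ (Set.toFinite _)
        · rintro _ ⟨w, ⟨hw, hw2⟩, rfl⟩
          rw [Set.mem_insert_iff, Set.mem_singleton_iff, not_or] at hw2
          obtain ⟨s1, s2, s3⟩ := h.shift hc hx hw hw2.1 hw2.2 hp0p hp0x
          refine ⟨s1, ?_⟩
          rw [Set.mem_insert_iff, Set.mem_singleton_iff, not_or]
          exact ⟨s2, s3⟩
        · rw [Set.InjOn.ncard_image]
          · have h1 : ({c, x} : Set G) ⊆ pl D c x := by
              intro y hy
              rcases hy with rfl | hy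
              · exact hcm
              · rw [Set.mem_singleton_iff.1 hy]; exact hxm
            have h2 : ({c, p0} : Set G) ⊆ pl D c p0 := by
              intro y hy
              rcases hy with rfl | hy
              · exact h.left_mem hc
              · rw [Set.mem_singleton_iff.1 hy]; exact h.right_mem hp0.1
            rw [Set.ncard_sdiff h1 (Set.toFinite _), Set.ncard_sdiff h2 (Set.toFinite _), Set.ncard_pair hx.2.1.symm,
              Set.ncard_pair (fun h1 => hp0c h1.symm), h.pl_ncard hc hx hc hp0p]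
          · rintro w ⟨hw, hw2⟩ w' ⟨hw', hw2'⟩ heq
            rw [Set.mem_insert_iff, Set.mem_singleton_iff, not_or] at hw2 hw2'
            by_contra hne
            simp only at heq
            have h1 : Commute p0 (w' * w) := by
              have hwi := h.inv_eq hw.1
              have hwi' := h.inv_eq hw'.1
              have h2 : w * p0 * w = w' * p0 * w' := by
                rw [mul_inv_rev, mul_inv_rev, hwi, hwi', hxi] at heq
                calc w * p0 * w = x⁻¹ * (x * w * p0 * (w * x)) * x⁻¹ := by group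
                  _ = x⁻¹ * (x * w' * p0 * (w' * x)) * x⁻¹ := by rw [heq]
                  _ = _ := by group
              show p0 * (w' * w) = w' * w * p0
              calc p0 * (w' * w) = (w' * w') * p0 * w' * w := by rw [h.mul_self hw'.1]; group
                _ = w' * (w' * p0 * w') * w := by group
                _ = w' * (w * p0 * w) * w := by rw [h2]
                _ = w' * w * p0 * (w * w) := by group
                _ = _ := by rw [h.mul_self hw.1, mul_one]
            rw [commute_mul_two_iff h.cls.1 hw'.1 hw.1 hp0.1 (fun h3 => hne h3.symm) (pl_commute hc hx hw' hw)] at h1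
            exact hp0x (h.commute_all hc hx hcm hw (fun h3 => hw2.1 h3.symm) hp0.1 hp0p.2.2.symm h1.2 hxm)
      have : p ∈ pl D c p0 \ {c, p0} := by
        refine ⟨by rw [hline]; exact h.right_mem hp, ?_⟩
        rw [Set.mem_insert_iff, Set.mem_singleton_iff, not_or]
        exact ⟨hpc, hpp0⟩
      rw [← himg] at this
      obtain ⟨w, hw, hwp⟩ := this
      exact ⟨w, hw.1, hwp⟩
    obtain ⟨w, hw, rfl⟩ := hsurj
    have h1 : Commute (x * w) g := (hgl x hxm).mul_left (hgl w hw)
    exact (h1.mul_left hg0).mul_left h1.inv_left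
  have hfin : c * g = 1 := by
    apply h.eq_one hc hq (fun h1 => qc h1.symm)
    · intro y hy hcy
      exact hcy.symm.mul_right (main y hy hcy)
    · exact hqg
  rw [← hfin, hg]; group

theorem VHyp.five' {c x a b u v : G} (hc : c ∈ D) (hx : x ∈ perp D c) (ha : a ∈ pl D c x) (hb : b ∈ pl D c x)
    (hu : u ∈ pl D c x) (hv : v ∈ pl D c x) (hab : a ≠ b) (hau : a ≠ u) (hav : a ≠ v) (hbu : b ≠ u) (hbv : b ≠ v)
    (huv : u ≠ v) : ∃ w ∈ pl D c x, a * b * u * v * w = 1 := by
  have hbp : b ∈ perp D a := ⟨hb.1, hab.symm, pl_commute hc hx ha hb⟩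
  have hl : pl D a b = pl D c x := h.pl_eq hc hx ha hb hab
  obtain ⟨w, hw, hw1⟩ := h.five ha.1 hbp (u := u) (v := v) (by rwa [hl]) hau.symm hbu.symm (by rwa [hl]) hav.symm
    hbv.symm huv
  exact ⟨w, by rwa [hl] at hw, hw1⟩

theorem VHyp.three_ne {c x a b u : G} (hc : c ∈ D) (hx : x ∈ perp D c) (ha : a ∈ pl D c x) (hb : b ∈ pl D c x)
    (hu : u ∈ pl D c x) (hab : a ≠ b) (hbu : b ≠ u) : a * b * u ≠ 1 := by
  intro h1
  have hba : a ∈ perp D b := ⟨ha.1, hab, pl_commute hc hx hb ha⟩
  obtain ⟨y, hy, h2, h3⟩ := h.exists_sep hb.1 hba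
  have h4 : a = b * u := by
    have : a = (b * u)⁻¹ := eq_inv_of_mul_eq_one_left (by rw [← mul_assoc]; exact h1)
    rw [this, mul_inv_rev, h.inv_eq hb.1, h.inv_eq hu.1]
    exact (pl_commute hc hx hu hb).eq
  rw [h4, commute_mul_two_iff h.cls.1 hb.1 hu.1 hy hbu (pl_commute hc hx hb hu)] at h2
  exact h3 h2.1

theorem VHyp.five_ne {c x a b u v w : G} (hc : c ∈ D) (hx : x ∈ perp D c) (ha : a ∈ pl D c x) (hb : b ∈ pl D c x)
    (hu : u ∈ pl D c x) (hv : v ∈ pl D c x) (hab : a ≠ b) (hau : a ≠ u) (hav : a ≠ v) (hbu : b ≠ u) (hbv : b ≠ v)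
    (huv : u ≠ v) (h1 : a * b * u * v * w = 1) : w ≠ a ∧ w ≠ b ∧ w ≠ u ∧ w ≠ v := by
  have cm : ∀ y ∈ pl D c x, ∀ z ∈ pl D c x, y * z = z * y := fun y hy z hz => (pl_commute hc hx hy hz).eq
  have haa := h.mul_self ha.1
  have hbb := h.mul_self hb.1
  have huu := h.mul_self hu.1
  have hvv := h.mul_self hv.1
  refine ⟨?_, ?_, ?_, ?_⟩
  · rintro rfl
    apply h.three_ne hc hx hb hu hv hbu huv
    calc b * u * v = (w * w) * b * u * v := by rw [haa, one_mul]
      _ = w * (w * b * u * v) := by group
      _ = w * (w * b * u * v * w) * w⁻¹ := by group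
      _ = 1 := by rw [h1]; group
  · rintro rfl
    apply h.three_ne hc hx ha hu hv hau huv
    calc a * u * v = a * (w * w) * u * v := by rw [hbb, mul_one]
      _ = (a * w) * w * u * v := by group
      _ = (w * a) * w * u * v := by rw [cm a ha w hb]
      _ = w * (a * w * u * v * w) * w⁻¹ := by group
      _ = 1 := by rw [h1]; group
  · rintro rfl
    apply h.three_ne hc hx ha hb hv hab hbv
    calc a * b * v = a * b * v * (w * w) := by rw [huu, mul_one]
      _ = a * b * (v * w) * w := by group
      _ = a * b * (w * v) * w := by rw [cm v hv w hu]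
      _ = a * b * w * v * w := by group
      _ = 1 := h1
  · rintro rfl
    apply h.three_ne hc hx ha hb hu hab hbu
    calc a * b * u = a * b * u * (w * w) := by rw [hvv, mul_one]
      _ = a * b * u * w * w := by group
      _ = 1 := h1

theorem VHyp.no_six {c x a b u v w t : G} (hc : c ∈ D) (hx : x ∈ perp D c) (ha : a ∈ pl D c x) (hb : b ∈ pl D c x)
    (hu : u ∈ pl D c x) (hv : v ∈ pl D c x) (hw : w ∈ pl D c x) (hab : a ≠ b) (hau : a ≠ u) (hav : a ≠ v)
    (hbu : b ≠ u) (hbv : b ≠ v) (huv : u ≠ v) (h1 : a * b * u * v * w = 1) (ht : t ∈ pl D c x) (hta : t ≠ a)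
    (htb : t ≠ b) (htu : t ≠ u) (htv : t ≠ v) : t = w := by
  by_contra htw
  obtain ⟨w1, w2, w3, w4⟩ := h.five_ne hc hx ha hb hu hv hab hau hav hbu hbv huv h1
  obtain ⟨s, hs, hs1⟩ := h.five' hc hx ha hb hu ht hab hau hta.symm hbu htb.symm htu.symm
  obtain ⟨s1, s2, s3, s4⟩ := h.five_ne hc hx ha hb hu ht hab hau hta.symm hbu htb.symm htu.symm hs1
  have e1 : v * w = t * s := by
    have h2 : (a * b * u) * (v * w) = (a * b * u) * (t * s) := by
      calc (a * b * u) * (v * w) = a * b * u * v * w := by group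
        _ = a * b * u * t * s := by rw [h1, hs1]
        _ = _ := by group
    exact mul_left_cancel h2
  have hsv : s ≠ v := by
    rintro rfl
    rw [(pl_commute hc hx ht hv).eq] at e1
    exact htw (mul_left_cancel e1).symm
  have hsw : s ≠ w := by
    rintro rfl
    exact htv (mul_right_cancel e1).symm
  have e2 : v * w * t * s = 1 := by
    rw [e1]
    calc t * s * t * s = t * (s * t) * s := by group
      _ = t * (t * s) * s := by rw [(pl_commute hc hx hs ht).eq]
      _ = (t * t) * (s * s) := by group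
      _ = 1 := by rw [h.mul_self ht.1, h.mul_self hs.1, one_mul]
  obtain ⟨r, hr, hr1⟩ := h.five' hc hx hv hw ht hs w4.symm htv.symm hsv.symm (fun h2 => htw h2.symm) hsw.symm s4.symm
  rw [e2, one_mul] at hr1
  exact ne_one h.cls.1 hr.1 hr1

theorem VHyp.line_size {c x : G} (hc : c ∈ D) (hx : x ∈ perp D c) :
    (pl D c x).ncard = 3 ∨ (pl D c x).ncard = 5 := by
  obtain ⟨u, hu, huc, hux⟩ := h.exists_third hc hx
  have hcm := h.left_mem (a := x) hc
  have hxm := h.right_mem (d := c) hx.1
  by_cases h4 : ∃ v ∈ pl D c x, v ≠ c ∧ v ≠ x ∧ v ≠ u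
  · right
    obtain ⟨v, hv, hvc, hvx, hvu⟩ := h4
    obtain ⟨w, hw, hw1⟩ := h.five' hc hx hcm hxm hu hv hx.2.1.symm huc.symm hvc.symm hux.symm hvx.symm hvu.symm
    obtain ⟨w1, w2, w3, w4⟩ := h.five_ne hc hx hcm hxm hu hv hx.2.1.symm huc.symm hvc.symm hux.symm hvx.symm hvu.symm hw1
    have heq : pl D c x = {c, x, u, v, w} := by
      ext t
      constructor
      · intro ht
        by_contra hcon
        simp only [Set.mem_insert_iff, Set.mem_singleton_iff, not_or] at hcon
        obtain ⟨t1, t2, t3, t4, t5⟩ := hcon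
        exact t5 (h.no_six hc hx hcm hxm hu hv hw hx.2.1.symm huc.symm hvc.symm hux.symm hvx.symm hvu.symm hw1 ht t1 t2
          t3 t4)
      · rintro (rfl | rfl | rfl | rfl | rfl)
        · exact hcm
        · exact hxm
        · exact hu
        · exact hv
        · exact hw
    rw [heq, Set.ncard_insert_of_notMem, Set.ncard_insert_of_notMem, Set.ncard_insert_of_notMem, Set.ncard_pair w4.symm]
    · simp only [Set.mem_insert_iff, Set.mem_singleton_iff, not_or]; exact ⟨hvu.symm, w3.symm⟩
    · simp only [Set.mem_insert_iff, Set.mem_singleton_iff, not_or]; exact ⟨hux.symm, hvx.symm, w2.symm⟩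
    · simp only [Set.mem_insert_iff, Set.mem_singleton_iff, not_or]
      exact ⟨hx.2.1.symm, huc.symm, hvc.symm, w1.symm⟩
  · left
    push Not at h4
    have heq : pl D c x = {c, x, u} := by
      ext t
      constructor
      · intro ht
        by_contra hcon
        simp only [Set.mem_insert_iff, Set.mem_singleton_iff, not_or] at hcon
        exact hcon.2.2 (h4 t ht hcon.1 hcon.2.1)
      · rintro (rfl | rfl | rfl)
        · exact hcm
        · exact hxm
        · exact hu
    rw [heq, Set.ncard_insert_of_notMem, Set.ncard_pair hux.symm]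
    simp only [Set.mem_insert_iff, Set.mem_singleton_iff, not_or]
    exact ⟨hx.2.1.symm, huc.symm⟩

/-- in a line with five points the product of all points is one -/
theorem VHyp.prod_five {c x a b u v w : G} (hc : c ∈ D) (hx : x ∈ perp D c) (ha : a ∈ pl D c x)
    (hb : b ∈ pl D c x) (hu : u ∈ pl D c x) (hv : v ∈ pl D c x) (hw : w ∈ pl D c x) (hab : a ≠ b) (hau : a ≠ u)
    (hav : a ≠ v) (hbu : b ≠ u) (hbv : b ≠ v) (huv : u ≠ v) (hwa : w ≠ a) (hwb : w ≠ b) (hwu : w ≠ u) (hwv : w ≠ v) :
    a * b * u * v * w = 1 := by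
  obtain ⟨t, ht, ht1⟩ := h.five' hc hx ha hb hu hv hab hau hav hbu hbv huv
  have := h.no_six hc hx ha hb hu hv ht hab hau hav hbu hbv huv ht1 hw hwa hwb hwu hwv
  rw [this]; exact ht1

end Conn

end Cfsg.Agent.ThreeTransp
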