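import Cfsg.Agent.ThreeTransp.PolarNF
import Cfsg.Agent.ThreeTransp.FourField
/-!
The case of lines with five points: the hermitian space (owner: helper8).
-/
set_option autoImplicit false
open Cfsg
open scoped Pointwise commutatorElement
namespace Cfsg.Agent.ThreeTransp

section Heis

/-- the data of a biadditive form -/
structure HData (K V : Type*) [Field K] [AddCommGroup V] where
  H : V → V → K
  add_left : ∀ x y z, H (x + y) z = H x z + H y z
  add_right : ∀ x y z, H x (y + z) = H x y + H x z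

variable {K V : Type*} [Field K] [AddCommGroup V]

theorem HData.zero_left (d : HData K V) (x : V) : d.H 0 x = 0 := by
  have := d.add_left 0 0 x
  rw [add_zero] at this
  exact left_eq_add.1 this

theorem HData.zero_right (d : HData K V) (x : V) : d.H x 0 = 0 := by
  have := d.add_right x 0 0
  rw [add_zero] at this
  exact left_eq_add.1 this

theorem HData.neg_left (d : HData K V) (x y : V) : d.H (-x) y = - d.H x y := by
  have := d.add_left x (-x) y
  rw [add_neg_cancel, d.zero_left] at this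
  exact (neg_eq_of_add_eq_zero_right this.symm).symm

theorem HData.neg_right (d : HData K V) (x y : V) : d.H x (-y) = - d.H x y := by
  have := d.add_right x y (-y)
  rw [add_neg_cancel, d.zero_right] at this
  exact (neg_eq_of_add_eq_zero_right this.symm).symm

/-- the Heisenberg group -/
@[ext] structure HeisG (d : HData K V) where
  a : K
  v : V

variable (d : HData K V)

instance : Mul (HeisG d) := ⟨fun x y => ⟨x.a + y.a + d.H y.v x.v, x.v + y.v⟩⟩
instance : One (HeisG d) := ⟨⟨0, 0⟩⟩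
instance : _root_.Inv (HeisG d) := ⟨fun x => ⟨-x.a + d.H x.v x.v, -x.v⟩⟩

variable {d}

theorem HeisG.mul_a (x y : HeisG d) : (x * y).a = x.a + y.a + d.H y.v x.v := rfl
theorem HeisG.mul_v (x y : HeisG d) : (x * y).v = x.v + y.v := rfl
theorem HeisG.one_a : (1 : HeisG d).a = 0 := rfl
theorem HeisG.one_v : (1 : HeisG d).v = 0 := rfl
theorem HeisG.inv_a (x : HeisG d) : (x⁻¹).a = -x.a + d.H x.v x.v := rfl
theorem HeisG.inv_v (x : HeisG d) : (x⁻¹).v = -x.v := rfl

instance : Group (HeisG d) := Group.ofLeftAxioms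
  (fun x y z => by
    apply HeisG.ext
    · simp only [HeisG.mul_a, HeisG.mul_v, d.add_left, d.add_right]; ring
    · simp only [HeisG.mul_v, add_assoc])
  (fun x => by
    apply HeisG.ext
    · simp only [HeisG.mul_a, HeisG.one_a, HeisG.one_v, d.zero_right]; ring
    · simp only [HeisG.mul_v, HeisG.one_v, zero_add])
  (fun x => by
    apply HeisG.ext
    · simp only [HeisG.mul_a, HeisG.one_a, HeisG.inv_a, HeisG.inv_v, d.neg_right]; ring
    · simp only [HeisG.mul_v, HeisG.one_v, HeisG.inv_v, neg_add_cancel])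

end Heis

variable {G : Type*} [Group G] {D : Set G}

theorem rho_of_mem {c q : G} [Finite G] (U : UData D c q) {x : G} (hx : x ∈ Dp D c q) : rho D c q x = 1 := by
  unfold rho; rw [U.pr_self hx]; exact U.h.mul_self hx.1.1

variable [Finite G] {c q : G} (U : UData D c q)

section Line

include U

theorem UData.line_no {x a b : G} (hx : x ∈ perp D c) (ha : a ∈ pl D c x) (hac : a ≠ c) (hb : b ∈ pl D c x) :
    a * b ≠ c := by
  intro h1
  by_cases hab : a = b
  · rw [hab, U.h.mul_self hb.1] at h1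
    exact ne_one U.h.cls.1 U.hc h1.symm
  · apply U.h.three_ne U.hc hx (U.h.left_mem U.hc) ha hb (fun h2 => hac h2.symm) hab
    rw [mul_assoc, h1, U.h.mul_self U.hc]

theorem UData.rad_eq : rad D c = Subgroup.closure (insert c (rho D c q '' Om D c q)) := by
  apply le_antisymm
  · unfold rad
    rw [Subgroup.closure_le]
    have key : ∀ a ∈ perp D c, rho D c q a ∈ Subgroup.closure (insert c (rho D c q '' Om D c q)) := by
      intro a ha
      by_cases hqa : Commute q a
      · rw [rho_of_mem U ⟨ha, hqa⟩]; exact one_mem _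
      · exact Subgroup.subset_closure (Set.mem_insert_of_mem _ ⟨a, ⟨ha, hqa⟩, rfl⟩)
    rintro g (rfl | ⟨a, ha, b, hb, hbc, rfl⟩)
    · exact Subgroup.subset_closure (Set.mem_insert _ _)
    · have hbp := U.h.mem_perp_of_pl U.hc ha hb hbc
      have e1 : a * b = rho D c q a * rho D c q b := by
        unfold rho
        rw [U.pr_of_mem ha hb hbc]
        have h1 := U.pr_commute ha
        have h2 := U.h.mul_self (U.pr_mem ha).1.1
        calc a * b = (pr D c q a * pr D c q a) * a * b := by rw [h2, one_mul]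
          _ = pr D c q a * (pr D c q a * a) * b := by group
          _ = pr D c q a * (a * pr D c q a) * b := by rw [h1.eq]
          _ = _ := by group
      rw [SetLike.mem_coe, e1]
      exact mul_mem (key a ha) (key b hbp)
  · rw [Subgroup.closure_le]
    rintro g (rfl | ⟨y, hy, rfl⟩)
    · exact mem_rad_self g
    · exact U.rho_mem hy.1

end Line

variable {L : G → ZMod 3} (hL : Lab D c q L) {K : Type*} [Field K] [Fintype K] {w : K} (F : Four K w)

open Classical in
/-- the coordinate of a point of a line -/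
noncomputable def bet (w : K) (q : G) (L : G → ZMod 3) (y' p : G) : K := if Commute q p then 0 else ep w (L p - L y')

/-- the vector of an element of the radical group -/
noncomputable def vv (w : K) (D : Set G) (c q : G) (L : G → ZMod 3) (r : G) : Om D c q → K :=
  fun y' => bet w q L y' (r * pr D c q y' * r⁻¹)

section VV

include U

omit [Fintype K] in
theorem UData.bet_pr {y' : G} (hy' : y' ∈ Om D c q) : bet w q L y' (pr D c q y') = 0 :=
  if_pos (U.pr_mem hy'.1).2

omit [Fintype K] in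
theorem UData.bet_ne {y' p : G} (hy' : y' ∈ Om D c q) (hp : p ∈ pl D c y') (hpc : p ≠ c) (hne : p ≠ pr D c q y') :
    bet w q L y' p = ep w (L p - L y') ∧ p ∈ Om D c q ∧ pr D c q p = pr D c q y' := by
  have h1 : ¬ Commute q p := fun h1 => hne (U.pr_unique hy'.1 hp h1)
  exact ⟨if_neg h1, ⟨U.h.mem_perp_of_pl U.hc hy'.1 hp hpc, h1⟩, U.pr_of_mem hy'.1 hp hpc⟩

include hL F

theorem UData.four_add {y' p p2 p3 : G} (hy' : y' ∈ Om D c q) (hp : p ∈ pl D c y') (hpc : p ≠ c)
    (hp2 : p2 ∈ pl D c y') (hp2c : p2 ≠ c) (hp3 : p3 ∈ pl D c y') (hp3c : p3 ≠ c)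
    (hrel : p2 * p3 = pr D c q y' * p ∨ p2 * p3 = c * (pr D c q y' * p)) :
    bet w q L y' p3 = bet w q L y' p + bet w q L y' p2 := by
  have hno : ∀ a ∈ pl D c y', a ≠ c → ∀ b ∈ pl D c y', a * b ≠ c := fun a ha hac b hb => U.line_no hy'.1 ha hac hb
  have hx := (U.pr_spec hy'.1).1
  have hxc := U.pr_ne hy'.1
  have hb0 := U.bet_pr (w := w) (L := L) hy'
  set x := pr D c q y' with hxd
  have sq : ∀ a ∈ pl D c y', a * a = 1 := fun a ha => U.h.mul_self ha.1
  have cm : ∀ a ∈ pl D c y', ∀ b ∈ pl D c y', a * b = b * a := fun a ha b hb => (pl_commute U.hc hy'.1 ha hb).eq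
  have hcm := U.h.left_mem (a := y') U.hc
  have hcc := U.h.mul_self U.hc
  -- general cancellation facts
  have eq_of : ∀ a ∈ pl D c y', ∀ b ∈ pl D c y', a * b = 1 → a = b := by
    intro a ha b hb h1
    rw [mul_eq_one_iff_eq_inv.1 h1, U.h.inv_eq hb.1]
  by_cases h1 : p = x
  · subst h1
    have h2 : p2 = p3 := by
      rcases hrel with h3 | h3
      · rw [sq _ hp] at h3; exact eq_of _ hp2 _ hp3 h3
      · rw [sq _ hp, mul_one] at h3; exact absurd h3 (hno _ hp2 hp2c _ hp3)
    rw [← h2, hb0, zero_add]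
  by_cases h2 : p2 = x
  · have h3 : p3 = p := by
      rw [h2] at hrel
      rcases hrel with h3 | h3
      · exact mul_left_cancel h3
      · exfalso
        apply hno _ hp3 hp3c _ hp
        have h4 : x * p3 = x * (c * p) := by
          rw [h3, ← mul_assoc, ← mul_assoc, cm _ hx _ hcm]
        rw [mul_left_cancel h4, mul_assoc, sq _ hp, mul_one]
    rw [h3, h2, hb0, add_zero]
  by_cases h3 : p3 = x
  · have h4 : p2 = p := by
      rw [h3, cm _ hp2 _ hx] at hrel
      rcases hrel with h5 | h5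
      · exact mul_left_cancel h5
      · exfalso
        apply hno _ hp2 hp2c _ hp
        have h4 : x * p2 = x * (c * p) := by
          rw [h5, ← mul_assoc, ← mul_assoc, cm _ hx _ hcm]
        rw [mul_left_cancel h4, mul_assoc, sq _ hp, mul_one]
    rw [h3, h4, hb0, F.two]
  have n12 : p ≠ p2 := by
    rintro rfl
    rw [cm _ hx _ hp] at hrel
    rcases hrel with h5 | h5
    · exact h3 (mul_left_cancel h5)
    · apply hno _ hp3 hp3c _ hx
      have h4 : p * p3 = p * (c * x) := by
        rw [h5, ← mul_assoc, ← mul_assoc, cm _ hp _ hcm]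
      rw [mul_left_cancel h4, mul_assoc, sq _ hx, mul_one]
  have n13 : p ≠ p3 := by
    rintro rfl
    rw [cm _ hx _ hp, cm _ hp2 _ hp] at hrel
    rcases hrel with h5 | h5
    · exact h2 (mul_left_cancel h5)
    · apply hno _ hp2 hp2c _ hx
      have h4 : p * p2 = p * (c * x) := by
        rw [h5, ← mul_assoc, ← mul_assoc, cm _ hp _ hcm]
      rw [mul_left_cancel h4, mul_assoc, sq _ hx, mul_one]
  have n23 : p2 ≠ p3 := by
    rintro rfl
    rw [sq _ hp2] at hrel
    rcases hrel with h5 | h5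
    · exact h1 (eq_of _ hx _ hp h5.symm).symm
    · apply hno _ hx hxc _ hp
      have h6 : c * (x * p) = c * c := by rw [← h5, hcc]
      exact mul_left_cancel h6
  obtain ⟨b1, o1, r1⟩ := U.bet_ne (w := w) (L := L) hy' hp hpc h1
  obtain ⟨b2, o2, r2⟩ := U.bet_ne (w := w) (L := L) hy' hp2 hp2c h2
  obtain ⟨b3, o3, r3⟩ := U.bet_ne (w := w) (L := L) hy' hp3 hp3c h3
  rw [b1, b2, b3]
  have m12 : L p ≠ L p2 := fun h4 => n12 (hL.inj _ o1 _ o2 (by rw [r1, r2]) h4)
  have m13 : L p ≠ L p3 := fun h4 => n13 (hL.inj _ o1 _ o3 (by rw [r1, r3]) h4)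
  have m23 : L p2 ≠ L p3 := fun h4 => n23 (hL.inj _ o2 _ o3 (by rw [r2, r3]) h4)
  have hs := F.ep_sum (a := L p - L y') (b := L p2 - L y') (d := L p3 - L y')
    (fun h4 => m12 (sub_left_injective h4)) (fun h4 => m13 (sub_left_injective h4))
    (fun h4 => m23 (sub_left_injective h4))
  have h7 := F.two (ep w (L p3 - L y'))
  linear_combination h7 - hs

theorem UData.vv_mul {r s : G} (hr : r ∈ rad D c) (hs : s ∈ rad D c) :
    vv w D c q L (r * s) = vv w D c q L r + vv w D c q L s := by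
  funext y'
  obtain ⟨y', hy'⟩ := y'
  show bet w q L y' (r * s * pr D c q y' * (r * s)⁻¹) = bet w q L y' (r * pr D c q y' * r⁻¹) +
    bet w q L y' (s * pr D c q y' * s⁻¹)
  have hx := U.pr_mem hy'.1
  have hline := U.pr_line hy'.1
  set x := pr D c q y' with hxd
  have m1 := rad_pl U.h U.hc hs x hx.1
  have m2 := rad_pl U.h U.hc hr x hx.1
  have m3 := rad_pl U.h U.hc (mul_mem hr hs) x hx.1
  have c1 := (rad_perp U.h U.hc hs hx.1).2.1
  have c2 := (rad_perp U.h U.hc hr hx.1).2.1
  have c3 := (rad_perp U.h U.hc (mul_mem hr hs) hx.1).2.1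
  have hrel := rad_comm U.h U.hc hr (mem_rad_of_mul hx.1 m1 c1)
  have e1 : r * (x * (s * x * s⁻¹)) * r⁻¹ = (r * x * r⁻¹) * (r * s * x * (r * s)⁻¹) := by group
  rw [e1] at hrel
  rw [hline] at m1 m2 m3
  rw [add_comm]
  exact U.four_add hL F hy' m1 c1 m2 c2 m3 c3 hrel

omit hL F [Fintype K] in
theorem UData.vv_one : vv w D c q L 1 = 0 := by
  funext y'
  obtain ⟨y', hy'⟩ := y'
  show bet w q L y' (1 * pr D c q y' * 1⁻¹) = 0
  rw [one_mul, inv_one, mul_one]
  exact U.bet_pr hy'

omit hL F [Fintype K] in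
theorem UData.vv_c : vv w D c q L c = 0 := by
  funext y'
  obtain ⟨y', hy'⟩ := y'
  show bet w q L y' (c * pr D c q y' * c⁻¹) = 0
  rw [(U.pr_mem hy'.1).1.2.2.eq, mul_inv_cancel_right]
  exact U.bet_pr hy'

theorem UData.vv_inv {r : G} (hr : r ∈ rad D c) : vv w D c q L r⁻¹ = vv w D c q L r := by
  have h1 := U.vv_mul hL F hr (inv_mem hr)
  rw [mul_inv_cancel, U.vv_one] at h1
  have h2 : vv w D c q L r + vv w D c q L r = 0 := funext fun y => F.two _
  exact add_left_cancel (h1.symm.trans h2.symm)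

open Classical in
omit hL F [Fintype K] in
theorem UData.vv_rho {y y' : G} (hy : y ∈ Om D c q) (hy' : y' ∈ Om D c q) :
    vv w D c q L (rho D c q y) ⟨y', hy'⟩ = if Commute y y' then 0 else ep w (tt D c q L y y') := by
  have hiff : Commute y (pr D c q y') ↔ Commute y y' :=
    U.commute_line_iff hy.1 hy'.1 (U.h.right_mem hy.1.1) (U.pr_spec hy'.1).1 hy.1.2.1 (U.pr_ne hy'.1)
  by_cases hc : Commute y y'
  · rw [if_pos hc]
    show bet w q L y' (rho D c q y * pr D c q y' * (rho D c q y)⁻¹) = 0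
    have h1 : Commute (rho D c q y) (pr D c q y') :=
      (U.commute_line hy.1 hy'.1 hc (U.pr_spec hy.1).1 (U.pr_spec hy'.1).1).mul_left (hiff.2 hc)
    rw [h1.eq, mul_inv_cancel_right]
    exact U.bet_pr hy'
  · rw [if_neg hc]
    obtain ⟨p1, p2, p3⟩ := U.phi_mem hy (U.pr_mem hy'.1) (fun h1 => hc (hiff.1 h1))
    exact if_neg p1.2

/-- scalar multiples -/
theorem UData.vv_smul {r : G} (hr : r ∈ rad D c) (a : K) : ∃ s ∈ rad D c, vv w D c q L s = a • vv w D c q L r := by
  classical
  rw [U.rad_eq] at hr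
  have hle : Subgroup.closure (insert c (rho D c q '' Om D c q)) ≤ rad D c := by rw [← U.rad_eq]
  induction hr using Subgroup.closure_induction with
  | mem x hx =>
    rcases hx with rfl | ⟨y, hy, rfl⟩
    · exact ⟨1, one_mem _, by rw [U.vv_c, U.vv_one, smul_zero]⟩
    · by_cases ha : a = 0
      · exact ⟨1, one_mem _, by rw [ha, zero_smul, U.vv_one]⟩
      · obtain ⟨t, rfl⟩ := F.exists_ep ha
        obtain ⟨z, hz, hzy, hLz⟩ := hL.surj _ (U.pr_mem hy.1) (L y + t)
        refine ⟨rho D c q z, U.rho_mem hz.1, ?_⟩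
        funext y'
        obtain ⟨y', hy'⟩ := y'
        rw [Pi.smul_apply, smul_eq_mul, U.vv_rho hz hy', U.vv_rho hy hy']
        have hiff : Commute z y' ↔ Commute y y' := by
          rw [← U.commute_pr_iff hz.1 hy'.1, hzy, U.commute_pr_iff hy.1 hy'.1]
        by_cases hc : Commute y y'
        · rw [if_pos hc, if_pos (hiff.2 hc), mul_zero]
        · rw [if_neg hc, if_neg (fun h1 => hc (hiff.1 h1)), hL.tt_line' U hy' hy hz hc hzy, hLz, ← F.ep_add]
          congr 1; ring
  | one => exact ⟨1, one_mem _, by rw [U.vv_one, smul_zero]⟩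
  | mul x y hx hy ihx ihy =>
    obtain ⟨s, hs, h1⟩ := ihx
    obtain ⟨t, ht, h2⟩ := ihy
    exact ⟨s * t, mul_mem hs ht, by rw [U.vv_mul hL F hs ht, U.vv_mul hL F (hle hx) (hle hy), h1, h2, smul_add]⟩
  | inv x hx ihx =>
    obtain ⟨s, hs, h1⟩ := ihx
    exact ⟨s, hs, by rw [U.vv_inv hL F (hle hx), h1]⟩

end VV

/-- the Gram matrix -/
noncomputable def gram (w : K) (D : Set G) (c q : G) (L : G → ZMod 3) (y y' : Om D c q) : K :=
  vv w D c q L (rho D c q y) y'

/-- the space -/
abbrev WSp (w : K) (D : Set G) (c q : G) (L : G → ZMod 3) : Submodule K (Om D c q → K) :=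
  Submodule.span K (Set.range (gram w D c q L))

section Gram

include U hL F

theorem UData.gram_herm (y y' : Om D c q) : gram w D c q L y' y = gram w D c q L y y' ^ 2 := by
  classical
  obtain ⟨y, hy⟩ := y
  obtain ⟨y', hy'⟩ := y'
  show vv w D c q L (rho D c q y') ⟨y, hy⟩ = vv w D c q L (rho D c q y) ⟨y', hy'⟩ ^ 2
  rw [U.vv_rho hy hy', U.vv_rho hy' hy]
  by_cases hc : Commute y y'
  · rw [if_pos hc, if_pos hc.symm, zero_pow two_ne_zero]
  · rw [if_neg hc, if_neg (fun h1 => hc h1.symm), F.ep_sq, hL.tt_symm U hy hy' hc]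

theorem UData.vv_mem {r : G} (hr : r ∈ rad D c) : vv w D c q L r ∈ WSp w D c q L := by
  rw [U.rad_eq] at hr
  have hle : Subgroup.closure (insert c (rho D c q '' Om D c q)) ≤ rad D c := by rw [← U.rad_eq]
  induction hr using Subgroup.closure_induction with
  | mem x hx =>
    rcases hx with rfl | ⟨y, hy, rfl⟩
    · rw [U.vv_c]; exact zero_mem _
    · exact Submodule.subset_span ⟨⟨y, hy⟩, rfl⟩
  | one => rw [U.vv_one]; exact zero_mem _
  | mul x y hx hy ihx ihy => rw [U.vv_mul hL F (hle hx) (hle hy)]; exact add_mem ihx ihy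
  | inv x hx ihx => rw [U.vv_inv hL F (hle hx)]; exact ihx

theorem UData.exists_vv {u : Om D c q → K} (hu : u ∈ WSp w D c q L) : ∃ r ∈ rad D c, vv w D c q L r = u := by
  induction hu using Submodule.span_induction with
  | mem x hx =>
    obtain ⟨⟨y, hy⟩, rfl⟩ := hx
    exact ⟨rho D c q y, U.rho_mem hy.1, rfl⟩
  | zero => exact ⟨1, one_mem _, U.vv_one⟩
  | add x y _ _ hx hy =>
    obtain ⟨r, hr, rfl⟩ := hx
    obtain ⟨s, hs, rfl⟩ := hy
    exact ⟨r * s, mul_mem hr hs, U.vv_mul hL F hr hs⟩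
  | smul a x _ hx =>
    obtain ⟨r, hr, rfl⟩ := hx
    obtain ⟨s, hs, h1⟩ := U.vv_smul hL F hr a
    exact ⟨s, hs, h1⟩

end Gram

end Cfsg.Agent.ThreeTransp
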