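import Cfsg.Agent.ThreeTransp.PolarTheta
/-!
The case of lines with five points: the graph of the isomorphism with the Heisenberg group (owner: helper8).
-/
set_option autoImplicit false
open Cfsg
open scoped Pointwise commutatorElement
namespace Cfsg.Agent.ThreeTransp

variable {G : Type*} [Group G] {D : Set G} {c q : G} {L : G → ZMod 3} {K : Type*} [Field K] {w : K}
  {B : WSp w D c q L → WSp w D c q L → K} (W : WForm B)
  [Finite G] [Fintype K] (U : UData D c q) (hL : Lab D c q L) (F : Four K w)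

omit [Finite G] in
/-- the graph -/
noncomputable def WForm.Dl : Subgroup (G × HeisG (W.hd F)) :=
  Subgroup.closure (insert (W.gam F) (W.del F '' Om D c q))

include U hL in
omit [Fintype K] in
theorem UData.exists_nc_om {a : G} (ha : a ∈ Om D c q) : ∃ b ∈ Om D c q, ¬ Commute a b := by
  obtain ⟨y, hy, h1, h2⟩ := U.h.exists_sep ha.1.1 (perp_symm' U.hc ha.1)
  have hyc : y ≠ c := by
    rintro rfl
    exact h2 ha.1.2.2
  have hyp : y ∈ perp D c := ⟨hy, hyc, h1.symm⟩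
  obtain ⟨b, hb, hpb, _⟩ := hL.surj _ (U.pr_mem hyp) 0
  refine ⟨b, hb, fun h3 => h2 ?_⟩
  rw [← U.commute_pr_iff hyp ha.1, ← hpb, U.commute_pr_iff hb.1 ha.1]
  exact h3.symm

include U hL W F in
theorem WForm.hv_ne_zero {a : G} (ha : a ∈ Om D c q) : hv w D c q L a ≠ 0 := by
  intro h1
  obtain ⟨b, hb, hab⟩ := U.exists_nc_om hL ha
  have h2 := W.B_nc U ha hb hab
  rw [h1, W.form.zero_left] at h2
  exact F.ep_ne_zero _ h2.symm

include U W F in
theorem WForm.hv_add_ne_zero {a b : G} (ha : a ∈ Om D c q) (hb : b ∈ Om D c q) (hab : ¬ Commute a b) :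
    hv w D c q L a + hv w D c q L b ≠ 0 := by
  intro h1
  have h3 : hv w D c q L a = hv w D c q L b := by
    have h4 := hv_add_self F (hv w D c q L b)
    exact add_right_cancel (h1.trans h4.symm)
  have h2 := W.B_nc U ha hb hab
  rw [h3, W.B_comm U hb hb (Commute.refl b)] at h2
  exact F.ep_ne_zero _ h2.symm

include U in
omit [Fintype K] in
theorem UData.rho_mul_ne_one {a b : G} (ha : a ∈ Om D c q) (hb : b ∈ Om D c q) (hab : ¬ Commute a b)
    (ht : ¬ tl q a b) : rho D c q a * rho D c q b ≠ 1 := by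
  intro h1
  apply U.rho_not_commute ha hb hab ht
  show rho D c q a * rho D c q b = rho D c q b * rho D c q a
  rw [h1, mul_eq_one_comm.1 h1]

include U in
theorem UData.c_rho_mul_ne_one {a b : G} (ha : a ∈ Om D c q) (hb : b ∈ Om D c q) (hab : ¬ Commute a b)
    (ht : ¬ tl q a b) : c * (rho D c q a * rho D c q b) ≠ 1 := by
  intro h1
  apply U.rho_not_commute ha hb hab ht
  have h2 : rho D c q a * rho D c q b = c := by
    have h3 := eq_inv_of_mul_eq_one_right h1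
    rw [h3, U.h.inv_eq U.hc]
  show rho D c q a * rho D c q b = rho D c q b * rho D c q a
  have h4 := rad_commute U.h U.hc (U.rho_mem ha.1)
  have h5 : rho D c q b * rho D c q a = (rho D c q a)⁻¹ * (rho D c q a * rho D c q b) * rho D c q a := by group
  rw [h5, h2, mul_assoc, h4.eq, inv_mul_cancel_left]

include U hL in
theorem WForm.nf_cases {p : G × HeisG (W.hd F)} (hp : p ∈ W.Dl F) :
    (p.1 = 1 ∧ p.2.a = 0 ∧ p.2.v = 0) ∨ (p.1 = c ∧ p.2.a = 1 ∧ p.2.v = 0) ∨
    (∃ a ∈ Om D c q, p.1 = rho D c q a ∧ p.2.a = 1 ∧ p.2.v = hv w D c q L a) ∨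
    (∃ a ∈ Om D c q, p.1 = c * rho D c q a ∧ p.2.a = 0 ∧ p.2.v = hv w D c q L a) ∨
    (∃ a ∈ Om D c q, ∃ b ∈ Om D c q, ¬ Commute a b ∧ ¬ tl q a b ∧ p.1 = rho D c q a * rho D c q b ∧
      p.2.a = ep w (tt D c q L b a) ∧ p.2.v = hv w D c q L a + hv w D c q L b) ∨
    (∃ a ∈ Om D c q, ∃ b ∈ Om D c q, ¬ Commute a b ∧ ¬ tl q a b ∧ p.1 = c * (rho D c q a * rho D c q b) ∧
      p.2.a = 1 + ep w (tt D c q L b a) ∧ p.2.v = hv w D c q L a + hv w D c q L b) := by
  have h2 : (1 : K) + 1 = 0 := F.two 1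
  have hB0r : ∀ x, B x 0 = 0 := W.form.zero_right
  obtain ⟨e, he, h1⟩ := (W.rules U hL F).nf_all U hL hp
  rcases he with rfl | rfl
  · rcases h1 with rfl | ⟨a, ha, rfl⟩ | ⟨a, ha, b, hb, hab, ht, rfl⟩
    · exact Or.inl ⟨rfl, rfl, rfl⟩
    · rw [one_mul]
      exact Or.inr (Or.inr (Or.inl ⟨a, ha, rfl, rfl, rfl⟩))
    · rw [one_mul]
      refine Or.inr (Or.inr (Or.inr (Or.inr (Or.inl ⟨a, ha, b, hb, hab, ht, rfl, ?_, rfl⟩))))
      show (1 : K) + 1 + B (hv w D c q L b) (hv w D c q L a) = _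
      rw [W.B_nc U hb ha (fun h3 => hab h3.symm), h2, zero_add]
  · rcases h1 with rfl | ⟨a, ha, rfl⟩ | ⟨a, ha, b, hb, hab, ht, rfl⟩
    · exact Or.inr (Or.inl ⟨rfl, rfl, rfl⟩)
    · refine Or.inr (Or.inr (Or.inr (Or.inl ⟨a, ha, rfl, ?_, ?_⟩)))
      · show (1 : K) + 1 + B (hv w D c q L a) 0 = _
        rw [hB0r, h2, zero_add]
      · show 0 + hv w D c q L a = _
        rw [zero_add]
    · refine Or.inr (Or.inr (Or.inr (Or.inr (Or.inr ⟨a, ha, b, hb, hab, ht, rfl, ?_, ?_⟩))))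
      · show (1 : K) + (1 + 1 + B (hv w D c q L b) (hv w D c q L a)) + B (hv w D c q L a + hv w D c q L b) 0 = _
        rw [W.B_nc U hb ha (fun h3 => hab h3.symm), h2, zero_add, hB0r, add_zero]
      · show 0 + (hv w D c q L a + hv w D c q L b) = _
        rw [zero_add]

include U in
/-- every element of the radical group occurs -/
theorem WForm.exists_graph {r : G} (hr : r ∈ rad D c) : ∃ t, (r, t) ∈ W.Dl F := by
  rw [U.rad_eq] at hr
  induction hr using Subgroup.closure_induction with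
  | mem x hx =>
    rcases hx with rfl | ⟨y, hy, rfl⟩
    · exact ⟨_, Subgroup.subset_closure (Set.mem_insert _ _)⟩
    · exact ⟨_, Subgroup.subset_closure (Set.mem_insert_of_mem _ ⟨y, hy, rfl⟩)⟩
  | one => exact ⟨1, one_mem _⟩
  | mul x y hx hy ihx ihy =>
    obtain ⟨s, hs⟩ := ihx
    obtain ⟨t, ht⟩ := ihy
    exact ⟨s * t, mul_mem hs ht⟩
  | inv x hx ihx =>
    obtain ⟨s, hs⟩ := ihx
    exact ⟨s⁻¹, inv_mem hs⟩

include U hL in
theorem WForm.graph_facts {p : G × HeisG (W.hd F)} (hp : p ∈ W.Dl F) : p.1 ∈ rad D c ∧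
    (p.2.v : Om D c q → K) = vv w D c q L p.1 ∧ p.2.a + p.2.a ^ 2 = B p.2.v p.2.v := by
  have h2 : (1 : K) + 1 = 0 := F.two 1
  have hB0r : ∀ x, B x 0 = 0 := W.form.zero_right
  induction hp using Subgroup.closure_induction with
  | mem x hx =>
    rcases hx with rfl | ⟨y, hy, rfl⟩
    · refine ⟨mem_rad_self c, ?_, ?_⟩
      · show ((0 : WSp w D c q L) : Om D c q → K) = vv w D c q L c
        rw [U.vv_c]; rfl
      · show (1 : K) + 1 ^ 2 = B 0 0
        rw [hB0r, one_pow, h2]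
    · refine ⟨U.rho_mem hy.1, hv_coe hy, ?_⟩
      show (1 : K) + 1 ^ 2 = B (hv w D c q L y) (hv w D c q L y)
      rw [W.B_comm U hy hy (Commute.refl y), one_pow, h2]
  | one =>
    refine ⟨one_mem _, ?_, ?_⟩
    · show ((0 : WSp w D c q L) : Om D c q → K) = vv w D c q L 1
      rw [U.vv_one]; rfl
    · show (0 : K) + 0 ^ 2 = B 0 0
      rw [hB0r]; ring
  | mul x y hx hy ihx ihy =>
    obtain ⟨x1, x2, x3⟩ := ihx
    obtain ⟨y1, y2, y3⟩ := ihy
    refine ⟨mul_mem x1 y1, ?_, ?_⟩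
    · show ((x.2.v + y.2.v : WSp w D c q L) : Om D c q → K) = vv w D c q L (x.1 * y.1)
      rw [Submodule.coe_add, x2, y2, U.vv_mul hL F x1 y1]
    · show (x.2.a + y.2.a + B y.2.v x.2.v) + (x.2.a + y.2.a + B y.2.v x.2.v) ^ 2 =
        B (x.2.v + y.2.v) (x.2.v + y.2.v)
      rw [W.form.add_left, W.form.add_right F, W.form.add_right F, F.add_sq, F.add_sq, ← x3, ← y3,
        ← W.form.herm y.2.v x.2.v]
      ring
  | inv x hx ihx =>
    obtain ⟨x1, x2, x3⟩ := ihx
    refine ⟨inv_mem x1, ?_, ?_⟩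
    · show ((-x.2.v : WSp w D c q L) : Om D c q → K) = vv w D c q L (x.1⁻¹)
      rw [U.vv_inv hL F x1, ← x2]
      funext y
      exact F.neg _
    · show (-x.2.a + B x.2.v x.2.v) + (-x.2.a + B x.2.v x.2.v) ^ 2 = B (-x.2.v) (-x.2.v)
      have h4 : (-x.2.v : WSp w D c q L) = x.2.v := by
        apply Subtype.ext; funext y; exact F.neg _
      rw [h4, F.add_sq, neg_sq, F.neg, ← W.form.herm]
      linear_combination x3 + F.two (B x.2.v x.2.v)

include U hL in
theorem WForm.graph_one_left {t : HeisG (W.hd F)} (ht : ((1 : G), t) ∈ W.Dl F) : t = 1 := by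
  rcases W.nf_cases U hL F ht with ⟨_, h1, h2⟩ | ⟨h1, _⟩ | ⟨a, ha, h1, _⟩ | ⟨a, ha, h1, _⟩ |
    ⟨a, ha, b, hb, h1, h2, h3, _⟩ | ⟨a, ha, b, hb, h1, h2, h3, _⟩
  · exact HeisG.ext h1 h2
  · exact absurd h1.symm (ne_one U.h.cls.1 U.hc)
  · exact absurd h1.symm (U.rho_ne_one ha)
  · exfalso
    apply U.rho_ne_c ha
    have h3 : (1 : G) = c * rho D c q a := h1
    rw [eq_inv_of_mul_eq_one_right h3.symm, U.h.inv_eq U.hc]
  · exact absurd h3.symm (U.rho_mul_ne_one ha hb h1 h2)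
  · exact absurd h3.symm (U.c_rho_mul_ne_one ha hb h1 h2)

include U hL in
theorem WForm.graph_unique {r : G} {s t : HeisG (W.hd F)} (hs : (r, s) ∈ W.Dl F) (ht : (r, t) ∈ W.Dl F) : s = t := by
  have h1 : ((1 : G), s⁻¹ * t) ∈ W.Dl F := by
    have := mul_mem (inv_mem hs) ht
    have h2 : (r, s)⁻¹ * (r, t) = ((1 : G), s⁻¹ * t) := by
      refine Prod.ext ?_ rfl
      show r⁻¹ * r = 1
      rw [inv_mul_cancel]
    rwa [h2] at this
  have := W.graph_one_left U hL F h1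
  exact inv_mul_eq_one.1 this

include U hL in
theorem WForm.graph_one_right {r : G} (ht : (r, (1 : HeisG (W.hd F))) ∈ W.Dl F) : r = 1 := by
  rcases W.nf_cases U hL F ht with ⟨h1, _⟩ | ⟨_, h1, _⟩ | ⟨a, ha, _, h1, _⟩ | ⟨a, ha, _, _, h1⟩ |
    ⟨a, ha, b, hb, h1, h2, _, _, h3⟩ | ⟨a, ha, b, hb, h1, h2, _, _, h3⟩
  · exact h1
  · exact absurd h1.symm one_ne_zero
  · exact absurd h1.symm one_ne_zero
  · exact absurd h1.symm (W.hv_ne_zero U hL F ha)
  · exact absurd h3.symm (W.hv_add_ne_zero U F ha hb h1)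
  · exact absurd h3.symm (W.hv_add_ne_zero U F ha hb h1)

include U hL in
theorem WForm.graph_unique' {r s : G} {t : HeisG (W.hd F)} (hs : (r, t) ∈ W.Dl F) (ht : (s, t) ∈ W.Dl F) : r = s := by
  have h1 : (r⁻¹ * s, (1 : HeisG (W.hd F))) ∈ W.Dl F := by
    have := mul_mem (inv_mem hs) ht
    have h2 : (r, t)⁻¹ * (s, t) = (r⁻¹ * s, (1 : HeisG (W.hd F))) := by
      refine Prod.ext rfl ?_
      show t⁻¹ * t = 1
      rw [inv_mul_cancel]
    rwa [h2] at this
  have := W.graph_one_right U hL F h1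
  exact inv_mul_eq_one.1 this

include U hL in
omit [Finite G] U in
theorem one_add_ep_ne_zero [Finite G] (U : UData D c q) {a b : G} (ha : a ∈ Om D c q) (hb : b ∈ Om D c q) (hab : ¬ Commute a b)
    (ht : ¬ tl q a b) (F : Four K w) : 1 + ep w (tt D c q L b a) ≠ 0 := by
  intro h1
  have h2 : ep w (tt D c q L b a) = ep w 0 := by
    rw [ep_zero]
    have := F.two 1
    linear_combination h1 - this
  have h3 := F.ep_inj h2
  exact ht (U.tl_symm hb ha ((hL.tt_eq_zero U hb ha (fun h5 => hab h5.symm)).1 h3))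

include U hL in
/-- the coordinate `a` detects commuting -/
theorem WForm.graph_a {r : G} {t : HeisG (W.hd F)} (ht : (r, t) ∈ W.Dl F) : t.a = 0 ↔ Commute q (r * q * r⁻¹) := by
  have hr : r ∈ rad D c := (W.graph_facts U hL F ht).1
  rw [U.commute_conj_iff' hr]
  constructor
  · intro h0
    rcases W.nf_cases U hL F ht with ⟨h1, _⟩ | ⟨_, h1, _⟩ | ⟨a, ha, _, h1, _⟩ | ⟨a, ha, h1, _, _⟩ |
      ⟨a, ha, b, hb, h1, h2, _, h3, _⟩ | ⟨a, ha, b, hb, h1, h2, _, h3, _⟩
    · exact Or.inl h1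
    · have h1' : t.a = 1 := h1
      exact absurd (h0.symm.trans h1') (zero_ne_one)
    · have h1' : t.a = 1 := h1
      exact absurd (h0.symm.trans h1') (zero_ne_one)
    · exact Or.inr ⟨a, ha, h1⟩
    · have h3' : t.a = ep w (tt D c q L b a) := h3
      exact absurd (h3'.symm.trans h0) (F.ep_ne_zero _)
    · have h3' : t.a = 1 + ep w (tt D c q L b a) := h3
      exact absurd (h3'.symm.trans h0) (one_add_ep_ne_zero hL U ha hb h1 h2 F)
  · rintro (rfl | ⟨y, hy, rfl⟩)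
    · rw [W.graph_unique U hL F ht (one_mem (W.Dl F))]; rfl
    · have h1 : W.gam F * W.del F y ∈ W.Dl F := mul_mem (Subgroup.subset_closure (Set.mem_insert _ _))
        (Subgroup.subset_closure (Set.mem_insert_of_mem _ ⟨y, hy, rfl⟩))
      rw [W.graph_unique U hL F ht h1]
      show (1 : K) + 1 + B (hv w D c q L y) 0 = 0
      rw [W.form.zero_right, F.two, add_zero]

include U hL W F in
/-- the kernel of the vector map -/
theorem WForm.vv_ker {r : G} (hr : r ∈ rad D c) (h0 : vv w D c q L r = 0) : r = 1 ∨ r = c := by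
  obtain ⟨t, ht⟩ := W.exists_graph U F hr
  have h4 := (W.graph_facts U hL F ht).2.1
  have h5 : t.v = 0 := by
    apply Subtype.ext
    rw [show (t.v : Om D c q → K) = vv w D c q L r from h4, h0]; rfl
  rcases W.nf_cases U hL F ht with ⟨h1, _⟩ | ⟨h1, _⟩ | ⟨a, ha, _, _, h1⟩ | ⟨a, ha, _, _, h1⟩ |
    ⟨a, ha, b, hb, h1, h2, _, _, h3⟩ | ⟨a, ha, b, hb, h1, h2, _, _, h3⟩
  · exact Or.inl h1
  · exact Or.inr h1
  · exact absurd (h1.symm.trans h5) (W.hv_ne_zero U hL F ha)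
  · exact absurd (h1.symm.trans h5) (W.hv_ne_zero U hL F ha)
  · exact absurd (h3.symm.trans h5) (W.hv_add_ne_zero U F ha hb h1)
  · exact absurd (h3.symm.trans h5) (W.hv_add_ne_zero U F ha hb h1)

include U hL in
theorem WForm.exists_of_vec (u : WSp w D c q L) : ∃ r t, (r, t) ∈ W.Dl F ∧ t.v = u := by
  obtain ⟨r, hr, h1⟩ := U.exists_vv hL F u.2
  obtain ⟨t, ht⟩ := W.exists_graph U F hr
  refine ⟨r, t, ht, Subtype.ext ?_⟩
  rw [← h1]
  exact (W.graph_facts U hL F ht).2.1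

include U hL W F in
/-- isotropic vectors -/
theorem WForm.iso_point {u : WSp w D c q L} (h0 : u ≠ 0) (h1 : B u u = 0) : ∃ y ∈ Om D c q, hv w D c q L y = u := by
  obtain ⟨r, t, ht, hu⟩ := W.exists_of_vec U hL F u
  have h4 := (W.graph_facts U hL F ht).2.2
  have h5 : t.a + t.a ^ 2 = 0 := by
    rw [show t.a + t.a ^ 2 = B t.v t.v from h4, hu, h1]
  rcases W.nf_cases U hL F ht with ⟨_, _, h1⟩ | ⟨_, _, h1⟩ | ⟨a, ha, _, _, h1⟩ | ⟨a, ha, _, _, h1⟩ |
    ⟨a, ha, b, hb, h1, h2, _, h3, _⟩ | ⟨a, ha, b, hb, h1, h2, _, h3, _⟩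
  · exact absurd (hu.symm.trans h1) h0
  · exact absurd (hu.symm.trans h1) h0
  · exact ⟨a, ha, h1.symm.trans hu⟩
  · exact ⟨a, ha, h1.symm.trans hu⟩
  · exfalso
    have h3' : t.a = ep w (tt D c q L b a) := h3
    rw [h3'] at h5
    have h6 : ep w (tt D c q L b a) * (1 + ep w (tt D c q L b a)) = 0 := by linear_combination h5
    rcases mul_eq_zero.1 h6 with h7 | h7
    · exact F.ep_ne_zero _ h7
    · exact one_add_ep_ne_zero hL U ha hb h1 h2 F h7
  · exfalso
    have h3' : t.a = 1 + ep w (tt D c q L b a) := h3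
    rw [h3'] at h5
    have h8 := F.two 1
    have h6 : ep w (tt D c q L b a) * (1 + ep w (tt D c q L b a)) = 0 := by
      linear_combination h5 - (1 + ep w (tt D c q L b a)) * h8
    rcases mul_eq_zero.1 h6 with h7 | h7
    · exact F.ep_ne_zero _ h7
    · exact one_add_ep_ne_zero hL U ha hb h1 h2 F h7

include U hL in
/-- all scalars with the right trace occur -/
theorem WForm.exists_of_pair {m : K} {u : WSp w D c q L} (h1 : m + m ^ 2 = B u u) :
    ∃ r t, (r, t) ∈ W.Dl F ∧ t.a = m ∧ t.v = u := by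
  obtain ⟨r, t, ht, hu⟩ := W.exists_of_vec U hL F u
  have h4 := (W.graph_facts U hL F ht).2.2
  have h5 : t.a + t.a ^ 2 = m + m ^ 2 := by
    rw [show t.a + t.a ^ 2 = B t.v t.v from h4, hu, h1]
  have h6 : (t.a + m) ^ 2 = t.a + m := by
    rw [F.add_sq]
    linear_combination h5 - F.two t.a + F.two (m ^ 2) - 0 * h1
  rcases F.sq_eq h6 with h7 | h7
  · refine ⟨r, t, ht, ?_, hu⟩
    linear_combination h7 - F.two m
  · refine ⟨_, _, mul_mem (Subgroup.subset_closure (Set.mem_insert _ _)) ht, ?_, ?_⟩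
    · show (1 : K) + t.a + B t.v 0 = m
      rw [W.form.zero_right]
      linear_combination h7 + F.two 1 - F.two m
    · show 0 + t.v = u
      rw [zero_add, hu]

end Cfsg.Agent.ThreeTransp
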