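import Cfsg.Agent.ThreeTransp.PolarRho
/-!
The case of lines with five points: consistent labels of the points (owner: helper8).
-/
set_option autoImplicit false
open Cfsg
open scoped Pointwise commutatorElement
namespace Cfsg.Agent.ThreeTransp

section Sign

/-- a sign on the edges of a graph which is trivial on triangles is a coboundary when all cycles are sums of triangles -/
theorem exists_sign {α : Type*} (N : α → α → Prop) (irr : ∀ x, ¬ N x x) (hN : ∀ x y, N x y → N y x) (s : α → α → ℤˣ)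
    (hs : ∀ x y, N x y → s x y = s y x)
    (tri : ∀ x y z, N x y → N y z → N x z → s x y * s y z = s x z)
    (diam : ∀ x y, x ≠ y → ¬ N x y → ∃ e, N x e ∧ N e y)
    (fill : ∀ e x, N e x → ∃ t, N t e ∧ N t x ∧ ∀ z, ((N z e ∧ ¬ N z x) ∨ (¬ N z e ∧ N z x)) → N t z) :
    ∃ ε : α → ℤˣ, ∀ x y, N x y → s x y = ε x * ε y := by
  classical
  by_cases hne : Nonempty α
  swap
  · exact ⟨fun _ => 1, fun x => absurd ⟨x⟩ hne⟩
  obtain ⟨x1⟩ := hne
  have sq : ∀ u : ℤˣ, u * u = 1 := fun u => Int.units_mul_self u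
  -- four cycles
  have fc1 : ∀ e x e', N x1 e → N e x → N x1 e' → N e' x → N e e' → s x1 e * s e x = s x1 e' * s e' x := by
    intro e x e' h1 h2 h3 h4 h5
    rw [← tri x1 e e' h1 h5 h3, mul_assoc, tri e e' x h5 h4 h2]
  have fc : ∀ e x e', N x1 e → N e x → N x1 e' → N e' x → ¬ N x1 x → s x1 e * s e x = s x1 e' * s e' x := by
    intro e x e' h1 h2 h3 h4 h5
    by_cases h6 : N e e'
    · exact fc1 e x e' h1 h2 h3 h4 h6
    · obtain ⟨t, ht1, ht2, ht⟩ := fill e x h2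
      have k1 : N t x1 := ht x1 (Or.inl ⟨h1, h5⟩)
      have k2 : N t e' := ht e' (Or.inr ⟨fun h => h6 (hN _ _ h), h4⟩)
      rw [fc1 e x t h1 h2 (hN _ _ k1) ht2 (hN _ _ ht1), fc1 t x e' (hN _ _ k1) ht2 h3 h4 k2]
  choose! e he using fun (x : α) (h : x1 ≠ x ∧ ¬ N x1 x) => diam x1 x h.1 h.2
  let ε : α → ℤˣ := fun x => if x1 = x then 1 else if N x1 x then s x1 x else s x1 (e x) * s (e x) x
  have ε1 : ε x1 = 1 := if_pos rfl
  have ε2 : ∀ x, N x1 x → ε x = s x1 x := by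
    intro x hx
    have h1 : x1 ≠ x := by rintro rfl; exact irr _ hx
    simp only [ε]; rw [if_neg h1, if_pos hx]
  have ε3 : ∀ x, x1 ≠ x → ¬ N x1 x → ∀ f, N x1 f → N f x → ε x = s x1 f * s f x := by
    intro x h1 h2 f h3 h4
    simp only [ε]; rw [if_neg h1, if_neg h2]
    obtain ⟨h5, h6⟩ := he x ⟨h1, h2⟩
    exact fc (e x) x f h5 h6 h3 h4 h2
  -- one direction of the mixed case
  have mixed : ∀ x y, N x1 x → x1 ≠ y → ¬ N x1 y → N x y → s x y = ε x * ε y := by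
    intro x y h1 h2 h3 h4
    rw [ε2 x h1, ε3 y h2 h3 x h1 h4, ← mul_assoc, sq, one_mul]
  refine ⟨ε, ?_⟩
  intro x y hxy
  by_cases hx : x1 = x
  · subst hx
    rw [ε1, one_mul, ε2 y hxy]
  by_cases hy : x1 = y
  · subst hy
    rw [ε1, mul_one, ε2 x (hN _ _ hxy), hs x x1 hxy]
  by_cases hx1 : N x1 x
  · by_cases hy1 : N x1 y
    · rw [ε2 x hx1, ε2 y hy1, ← tri x1 x y hx1 hxy hy1, ← mul_assoc, sq, one_mul]
    · exact mixed x y hx1 hy hy1 hxy
  · by_cases hy1 : N x1 y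
    · rw [hs x y hxy, mul_comm]
      exact mixed y x hy1 hx hx1 (hN _ _ hxy)
    · -- both commute with the base point
      have key : ∃ f, N x1 f ∧ N f x ∧ N f y := by
        obtain ⟨h5, h6⟩ := he x ⟨hx, hx1⟩
        by_cases h7 : N (e x) y
        · exact ⟨e x, h5, h6, h7⟩
        · obtain ⟨t, ht1, ht2, ht⟩ := fill (e x) x h6
          exact ⟨t, hN _ _ (ht x1 (Or.inl ⟨h5, hx1⟩)), ht2, ht y (Or.inr ⟨fun h => h7 (hN _ _ h), hN _ _ hxy⟩)⟩
      obtain ⟨f, f1, f2, f3⟩ := key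
      rw [ε3 x hx hx1 f f1 f2, ε3 y hy hy1 f f1 f3, ← tri x f y (hN _ _ f2) f3 hxy, hs x f (hN _ _ f2)]
      calc s f x * s f y = (s x1 f * s x1 f) * (s f x * s f y) := by rw [sq, one_mul]
        _ = _ := mul_mul_mul_comm _ _ _ _

end Sign

variable {G : Type*} [Group G] {D : Set G}

theorem exists_bij_three {α : Type*} {S : Set α} (hS : S.ncard = 3) :
    ∃ f : α → ZMod 3, (∀ x ∈ S, ∀ y ∈ S, f x = f y → x = y) ∧ ∀ k, ∃ x ∈ S, f x = k := by
  classical
  obtain ⟨a, b, d, hab, had, hbd, rfl⟩ := Set.ncard_eq_three.1 hS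
  let f : α → ZMod 3 := fun x => if x = a then 0 else if x = b then 1 else 2
  have fa : f a = 0 := if_pos rfl
  have fb : f b = 1 := by simp [f, hab.symm]
  have fd : f d = 2 := by simp [f, had.symm, hbd.symm]
  refine ⟨f, ?_, ?_⟩
  · rintro x (rfl | rfl | rfl) y (rfl | rfl | rfl) hxy
    · rfl
    · rw [fa, fb] at hxy; exact absurd hxy (by decide)
    · rw [fa, fd] at hxy; exact absurd hxy (by decide)
    · rw [fa, fb] at hxy; exact absurd hxy (by decide)
    · rfl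
    · rw [fb, fd] at hxy; exact absurd hxy (by decide)
    · rw [fa, fd] at hxy; exact absurd hxy (by decide)
    · rw [fb, fd] at hxy; exact absurd hxy (by decide)
    · rfl
  · intro k
    have : k = 0 ∨ k = 1 ∨ k = 2 := by revert k; decide
    rcases this with rfl | rfl | rfl
    · exact ⟨a, by simp, fa⟩
    · exact ⟨b, by simp, fb⟩
    · exact ⟨d, by simp, fd⟩

theorem affine_three : ∀ f : ZMod 3 → ZMod 3, Function.Injective f →
    (∀ a b, f a - f b = a - b) ∨ (∀ a b, f a - f b = -(a - b)) := by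
  have : ∀ x y z : ZMod 3, x ≠ y → x ≠ z → y ≠ z → (x - y = 0 - 1 ∧ x - z = 0 - 2 ∧ y - z = 1 - 2) ∨
    (x - y = -(0 - 1) ∧ x - z = -(0 - 2) ∧ y - z = -(1 - 2)) := by decide
  intro f hf
  rcases this (f 0) (f 1) (f 2) (fun h => absurd (hf h) (by decide)) (fun h => absurd (hf h) (by decide))
    (fun h => absurd (hf h) (by decide)) with ⟨h1, h2, h3⟩ | ⟨h1, h2, h3⟩
  · left
    intro a b
    have ha : a = 0 ∨ a = 1 ∨ a = 2 := by revert a; decide
    have hb : b = 0 ∨ b = 1 ∨ b = 2 := by revert b; decide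
    rcases ha with rfl | rfl | rfl <;> rcases hb with rfl | rfl | rfl
    · rw [sub_self, sub_self]
    · exact h1
    · exact h2
    · rw [← neg_sub, h1, neg_sub]
    · rw [sub_self, sub_self]
    · exact h3
    · rw [← neg_sub, h2, neg_sub]
    · rw [← neg_sub, h3, neg_sub]
    · rw [sub_self, sub_self]
  · right
    intro a b
    have ha : a = 0 ∨ a = 1 ∨ a = 2 := by revert a; decide
    have hb : b = 0 ∨ b = 1 ∨ b = 2 := by revert b; decide
    rcases ha with rfl | rfl | rfl <;> rcases hb with rfl | rfl | rfl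
    · rw [sub_self, sub_self, neg_zero]
    · exact h1
    · exact h2
    · rw [← neg_sub, h1, neg_sub]
    · rw [sub_self, sub_self, neg_zero]
    · exact h3
    · rw [← neg_sub, h2, neg_sub]
    · rw [← neg_sub, h3, neg_sub]
    · rw [sub_self, sub_self, neg_zero]

/-- labels related along the pairs -/
def Ori (D : Set G) (c q : G) (L : G → ZMod 3) (x x' : G) (σ : ZMod 3) : Prop :=
  ∀ y ∈ Om D c q, ∀ z ∈ Om D c q, ∀ y' ∈ Om D c q, ∀ z' ∈ Om D c q, pr D c q y = x → pr D c q z = x →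
    pr D c q y' = x' → pr D c q z' = x' → tl q y y' → tl q z z' → L y' - L z' = σ * (L y - L z)

variable [Finite G] {c q : G} (U : UData D c q)
include U

theorem UData.tl_symm {y y' : G} (hy : y ∈ Om D c q) (hy' : y' ∈ Om D c q) (ht : tl q y y') : tl q y' y :=
  tl_symm' U U.h.cls.1 hy.1.1 hy'.1.1 ht

theorem UData.fiber_ncard {x : G} (hx : x ∈ Dp D c q) : {y | y ∈ Om D c q ∧ pr D c q y = x}.ncard = 3 := by
  have h1 : {y | y ∈ Om D c q ∧ pr D c q y = x} = pl D c x \ {c, x} := by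
    ext y
    constructor
    · rintro ⟨hy, rfl⟩
      refine ⟨U.mem_pl_pr hy.1, ?_⟩
      rw [Set.mem_insert_iff, Set.mem_singleton_iff, not_or]
      exact ⟨hy.1.2.1, (U.pr_ne_self hy).symm⟩
    · rintro ⟨hy, hy2⟩
      rw [Set.mem_insert_iff, Set.mem_singleton_iff, not_or] at hy2
      have hyp : y ∈ perp D c := U.h.mem_perp_of_pl U.hc hx.1 hy hy2.1
      refine ⟨⟨hyp, fun h2 => hy2.2 (U.h.unique U.hc hx.1 U.hq U.qc hy (U.h.right_mem hx.1.1) h2 hx.2)⟩, ?_⟩
      rw [U.pr_of_mem hx.1 hy hy2.1, U.pr_self hx]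
  have h2 : ({c, x} : Set G) ⊆ pl D c x := by
    intro y hy
    rcases hy with rfl | hy
    · exact U.h.left_mem U.hc
    · rw [Set.mem_singleton_iff.1 hy]; exact U.h.right_mem hx.1.1
  rw [h1, Set.ncard_sdiff h2 (Set.toFinite _), Set.ncard_pair hx.1.2.1.symm, U.h5 c U.hc x hx.1]

theorem UData.exists_label0 : ∃ L : G → ZMod 3,
    (∀ y ∈ Om D c q, ∀ y' ∈ Om D c q, pr D c q y = pr D c q y' → L y = L y' → y = y') ∧
    ∀ x ∈ Dp D c q, ∀ k, ∃ y ∈ Om D c q, pr D c q y = x ∧ L y = k := by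
  have h1 : ∀ x : Dp D c q, ∃ f : G → ZMod 3, (∀ y ∈ {y | y ∈ Om D c q ∧ pr D c q y = x},
      ∀ z ∈ {y | y ∈ Om D c q ∧ pr D c q y = x}, f y = f z → y = z) ∧
      ∀ k, ∃ y ∈ {y | y ∈ Om D c q ∧ pr D c q y = x}, f y = k := fun x => exists_bij_three (U.fiber_ncard x.2)
  choose f hf1 hf2 using h1
  classical
  have hcast : ∀ (a b z : G) (ha : a ∈ Dp D c q) (hb : b ∈ Dp D c q), a = b → f ⟨a, ha⟩ z = f ⟨b, hb⟩ z := by
    rintro a b z ha hb rfl; rfl
  refine ⟨fun y => if hy : pr D c q y ∈ Dp D c q then f ⟨_, hy⟩ y else 0, ?_, ?_⟩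
  · intro y hy y' hy' hpr hL
    simp only at hL
    rw [dif_pos (U.pr_mem hy.1), dif_pos (U.pr_mem hy'.1)] at hL
    apply hf1 ⟨_, U.pr_mem hy.1⟩ y ⟨hy, rfl⟩ y' ⟨hy', hpr.symm⟩
    rw [hL]
    exact hcast _ _ _ _ _ hpr.symm
  · intro x hx k
    obtain ⟨y, ⟨hy, hyx⟩, hk⟩ := hf2 ⟨x, hx⟩ k
    refine ⟨y, hy, hyx, ?_⟩
    simp only
    rw [dif_pos (U.pr_mem hy.1), ← hk]
    exact hcast _ _ _ _ _ hyx

/-- the partner on a noncommuting line -/
theorem UData.exists_partner {y x : G} (hy : y ∈ Om D c q) (hx : x ∈ Dp D c q) (hnc : ¬ Commute (pr D c q y) x) :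
    ∃ y' ∈ Om D c q, pr D c q y' = x ∧ tl q y y' := by
  have hnc' : ¬ Commute y x := by
    intro h1
    apply hnc
    exact (U.commute_line_iff hy.1 hx.1 (U.pr_spec hy.1).1 (U.h.right_mem hx.1.1) (U.pr_ne hy.1) hx.1.2.1).2 h1
  obtain ⟨h1, h2, h3⟩ := U.phi_mem hy hx hnc'
  exact ⟨_, h1, by rw [U.pr_of_mem hx.1 h2 h1.1.2.1, U.pr_self hx], h3⟩

theorem UData.exists_ori {L : G → ZMod 3}
    (hL1 : ∀ y ∈ Om D c q, ∀ y' ∈ Om D c q, pr D c q y = pr D c q y' → L y = L y' → y = y')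
    (hL2 : ∀ x ∈ Dp D c q, ∀ k, ∃ y ∈ Om D c q, pr D c q y = x ∧ L y = k) {x x' : G} (hx : x ∈ Dp D c q)
    (hx' : x' ∈ Dp D c q) (hnc : ¬ Commute x x') : Ori D c q L x x' 1 ∨ Ori D c q L x x' (-1) := by
  choose g hg1 hg2 hg3 using hL2 x hx
  have h1 : ∀ k, ∃ y' ∈ Om D c q, pr D c q y' = x' ∧ tl q (g k) y' := fun k =>
    U.exists_partner (hg1 k) hx' (by rw [hg2]; exact hnc)
  choose p hp1 hp2 hp3 using h1
  have hinj : Function.Injective fun k => L (p k) := by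
    intro a b hab
    have h2 := hL1 _ (hp1 a) _ (hp1 b) (by rw [hp2, hp2]) hab
    have h3 := U.tl_symm (hg1 a) (hp1 a) (hp3 a)
    have h4 := U.tl_symm (hg1 b) (hp1 b) (hp3 b)
    rw [← h2] at h4
    have h5 := U.tl_unique (hp1 a) (hg1 a) (hg1 b) (by rw [hg2, hg2]) h3 h4
    rw [← hg3 a, h5, hg3]
  have hgy : ∀ y ∈ Om D c q, pr D c q y = x → g (L y) = y := by
    intro y hy hyx
    exact hL1 _ (hg1 _) _ hy (by rw [hg2, hyx]) (hg3 _)
  have hpy : ∀ y ∈ Om D c q, pr D c q y = x → ∀ y' ∈ Om D c q, pr D c q y' = x' → tl q y y' → p (L y) = y' := by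
    intro y hy hyx y' hy' hyx' ht
    have h2 := hp3 (L y)
    rw [hgy y hy hyx] at h2
    exact U.tl_unique hy (hp1 _) hy' (by rw [hp2, hyx']) h2 ht
  rcases affine_three _ hinj with h2 | h2
  · left
    intro y hy z hz y' hy' z' hz' h3 h4 h5 h6 h7 h8
    rw [← hpy y hy h3 y' hy' h5 h7, ← hpy z hz h4 z' hz' h6 h8, one_mul]
    exact h2 _ _
  · right
    intro y hy z hz y' hy' z' hz' h3 h4 h5 h6 h7 h8
    rw [← hpy y hy h3 y' hy' h5 h7, ← hpy z hz h4 z' hz' h6 h8, neg_one_mul]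
    exact h2 _ _

theorem UData.ori_symm {L : G → ZMod 3} {x x' : G} {σ : ZMod 3} (hσ : σ * σ = 1) (ho : Ori D c q L x x' σ) :
    Ori D c q L x' x σ := by
  intro y hy z hz y' hy' z' hz' h3 h4 h5 h6 h7 h8
  have h1 := ho y' hy' z' hz' y hy z hz h5 h6 h3 h4 (U.tl_symm hy hy' h7) (U.tl_symm hz hz' h8)
  rw [h1, ← mul_assoc, hσ, one_mul]

theorem UData.ori_unique {L : G → ZMod 3}
    (hL2 : ∀ x ∈ Dp D c q, ∀ k, ∃ y ∈ Om D c q, pr D c q y = x ∧ L y = k) {x x' : G} (hx : x ∈ Dp D c q)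
    (hx' : x' ∈ Dp D c q) (hnc : ¬ Commute x x') {σ τ : ZMod 3} (h1 : Ori D c q L x x' σ)
    (h2 : Ori D c q L x x' τ) : σ = τ := by
  obtain ⟨y, hy, hyx, hy1⟩ := hL2 x hx 1
  obtain ⟨z, hz, hzx, hz1⟩ := hL2 x hx 0
  obtain ⟨y', hy', hyx', ht⟩ := U.exists_partner hy hx' (by rw [hyx]; exact hnc)
  obtain ⟨z', hz', hzx', ht'⟩ := U.exists_partner hz hx' (by rw [hzx]; exact hnc)
  have e1 := h1 y hy z hz y' hy' z' hz' hyx hzx hyx' hzx' ht ht'
  have e2 := h2 y hy z hz y' hy' z' hz' hyx hzx hyx' hzx' ht ht'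
  rw [hy1, hz1, sub_zero, mul_one] at e1 e2
  rw [← e1, ← e2]

/-- triangles -/
theorem UData.ori_tri {L : G → ZMod 3}
    (hL1 : ∀ y ∈ Om D c q, ∀ y' ∈ Om D c q, pr D c q y = pr D c q y' → L y = L y' → y = y')
    (hL2 : ∀ x ∈ Dp D c q, ∀ k, ∃ y ∈ Om D c q, pr D c q y = x ∧ L y = k) {x x' x'' : G} (hx : x ∈ Dp D c q)
    (hx' : x' ∈ Dp D c q) (hx'' : x'' ∈ Dp D c q) (n1 : ¬ Commute x x') (n2 : ¬ Commute x' x'') (n3 : ¬ Commute x x'')
    {σ τ υ : ZMod 3} (hσ : σ = 1 ∨ σ = -1) (hτ : τ = 1 ∨ τ = -1) (hυ : υ = 1 ∨ υ = -1)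
    (h1 : Ori D c q L x x' σ) (h2 : Ori D c q L x' x'' τ) (h3 : Ori D c q L x x'' υ) : σ * τ = υ := by
  by_contra hne
  choose g hg1 hg2 hg3 using hL2 x hx
  have k1 : ∀ k, ∃ y' ∈ Om D c q, pr D c q y' = x' ∧ tl q (g k) y' := fun k =>
    U.exists_partner (hg1 k) hx' (by rw [hg2]; exact n1)
  choose p hp1 hp2 hp3 using k1
  have k2 : ∀ k, ∃ y' ∈ Om D c q, pr D c q y' = x'' ∧ tl q (p k) y' := fun k =>
    U.exists_partner (hp1 k) hx'' (by rw [hp2]; exact n2)
  choose r hr1 hr2 hr3 using k2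
  have k3 : ∀ k, ∃ y' ∈ Om D c q, pr D c q y' = x'' ∧ tl q (g k) y' := fun k =>
    U.exists_partner (hg1 k) hx'' (by rw [hg2]; exact n3)
  choose t ht1 ht2 ht3 using k3
  have e1 : ∀ k, L (p k) = L (p 0) + σ * k := by
    intro k
    have := h1 _ (hg1 k) _ (hg1 0) _ (hp1 k) _ (hp1 0) (hg2 k) (hg2 0) (hp2 k) (hp2 0) (hp3 k) (hp3 0)
    rw [hg3, hg3, sub_zero] at this
    rw [← this]; ring
  have e2 : ∀ k, L (r k) = L (r 0) + τ * (σ * k) := by
    intro k
    have := h2 _ (hp1 k) _ (hp1 0) _ (hr1 k) _ (hr1 0) (hp2 k) (hp2 0) (hr2 k) (hr2 0) (hr3 k) (hr3 0)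
    rw [e1 k] at this
    have h4 : L (r k) = L (r 0) + τ * (L (p 0) + σ * k - L (p 0)) := by rw [← this]; ring
    rw [h4]; ring
  have e3 : ∀ k, L (t k) = L (t 0) + υ * k := by
    intro k
    have := h3 _ (hg1 k) _ (hg1 0) _ (ht1 k) _ (ht1 0) (hg2 k) (hg2 0) (ht2 k) (ht2 0) (ht3 k) (ht3 0)
    rw [hg3, hg3, sub_zero] at this
    rw [← this]; ring
  -- υ = - σ τ
  have hυ' : υ = -(σ * τ) := by
    rcases hσ with rfl | rfl <;> rcases hτ with rfl | rfl <;> rcases hυ with rfl | rfl <;> revert hne <;> decide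
  have hστ : (σ * τ) * (σ * τ) = 1 := by
    rcases hσ with rfl | rfl <;> rcases hτ with rfl | rfl <;> decide
  -- find k with L (r k) = L (t k)
  have h3' : (3 : ZMod 3) = 0 := rfl
  set k0 := (σ * τ) * (L (r 0) - L (t 0)) with hk0
  have hk : L (r k0) = L (t k0) := by
    rw [e2, e3, hυ']
    have : τ * (σ * k0) = (σ * τ) * k0 := by ring
    rw [this, hk0, ← mul_assoc (σ * τ) (σ * τ), hστ, one_mul]
    have h6 : -(σ * τ) * ((σ * τ) * (L (r 0) - L (t 0))) = -(L (r 0) - L (t 0)) := by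
      rw [neg_mul, ← mul_assoc, hστ, one_mul]
    rw [h6]
    linear_combination (L (r 0) - L (t 0)) * h3'
  have hrt : r k0 = t k0 := hL1 _ (hr1 _) _ (ht1 _) (by rw [hr2, ht2]) hk
  have hcl := U.tl_closed (hg1 k0) (hp1 k0) (hr1 k0) (hp3 k0) (hr3 k0) (by rw [hrt]; exact ht3 k0)
  rw [hg2, hp2, hr2] at hcl
  -- so all agree
  have hall : ∀ k, r k = t k := by
    intro k
    have hnc : ¬ Commute (g k) (r k) := by
      intro h4
      apply n3
      rw [← hg2 k, ← hr2 k]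
      exact (U.commute_pr_iff (hg1 k).1 (hr1 k).1).2 h4
    have h5 := U.tl_trans (hg1 k) (hp1 k) (hr1 k) (hp3 k) (hr3 k) hnc (by rw [hg2, hp2, hr2]; exact hcl)
    exact U.tl_unique (hg1 k) (hr1 k) (ht1 k) (by rw [hr2, ht2]) h5 (ht3 k)
  have f0 := e2 1
  have f1 := e3 1
  rw [hall 1, hall 0] at f0
  rw [f0, mul_one, mul_one] at f1
  have h7 : τ * σ = υ := add_left_cancel f1
  exact hne (by rw [mul_comm]; exact h7)

theorem UData.exists_common' {x x' : G} (hx : x ∈ Dp D c q) (hx' : x' ∈ Dp D c q) (hne : x ≠ x')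
    (hxx : Commute x x') : ∃ e ∈ Dp D c q, ¬ Commute x e ∧ ¬ Commute e x' := by
  -- separation inside the members commuting with c
  have sep : ∀ x ∈ Dp D c q, ∀ x' ∈ Dp D c q, x ≠ x' → ∃ e ∈ perp D c, Commute e x ∧ ¬ Commute e x' := by
    intro x hx x' hx' hne
    by_contra hcon
    push Not at hcon
    have hsub : cc D c x ⊆ cc D c x' := by
      rintro y ⟨hy, hyc, hyx⟩
      refine ⟨hy, hyc, ?_⟩
      by_cases hyc' : y = c
      · rw [hyc']; exact hx'.1.2.2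
      · exact hcon y ⟨hy, hyc', hyc.symm⟩ hyx
    have heq : cc D c x = cc D c x' :=
      Set.eq_of_subset_of_ncard_le hsub (U.h.cc_ncard U.hc hx.1 U.hc hx'.1).symm.le (Set.toFinite _)
    have h1 : pl D c x = pl D c x' := by unfold pl; rw [heq]
    apply hne
    exact U.h.unique U.hc hx.1 U.hq U.qc (U.h.right_mem hx.1.1) (by rw [h1]; exact U.h.right_mem hx'.1.1) hx.2 hx'.2
  obtain ⟨e, he, hex, hex'⟩ := sep x hx x' hx' hne
  obtain ⟨f, hf, hfx', hfx⟩ := sep x' hx' x hx hne.symm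
  -- a member commuting with c and with neither
  have key : ∃ w ∈ perp D c, ¬ Commute w x ∧ ¬ Commute w x' := by
    by_cases hef : Commute e f
    · have hne' : e ≠ f := by rintro rfl; exact hfx hex
      have hfp : f ∈ perp D e := ⟨hf.1, hne'.symm, hef⟩
      obtain ⟨w, hw, hwe, hwf⟩ := U.h.exists_third he.1 hfp
      have hwc : w ≠ c := by
        rintro rfl
        exact hex' (U.h.commute_all he.1 hfp hw (U.h.right_mem hf.1) hwf hx'.1.1 hx'.1.2.2.symm hfx'.symm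
          (U.h.left_mem he.1)).symm
      have hcw : Commute c w := U.h.commute_all he.1 hfp (U.h.left_mem he.1) (U.h.right_mem hf.1) hne' U.hc he.2.2
        hf.2.2 hw
      refine ⟨w, ⟨hw.1, hwc, hcw⟩, ?_, ?_⟩
      · intro h1
        exact hfx (U.h.commute_all he.1 hfp (U.h.left_mem he.1) hw hwe.symm hx.1.1 hex.symm h1.symm
          (U.h.right_mem hf.1)).symm
      · intro h1
        exact hex' (U.h.commute_all he.1 hfp hw (U.h.right_mem hf.1) hwf hx'.1.1 h1.symm hfx'.symm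
          (U.h.left_mem he.1)).symm
    · have hee := U.h.mul_self he.1
      have hff := U.h.mul_self hf.1
      refine ⟨e * f * e, ?_, ?_, ?_⟩
      · have := perp_conj_mem U.h.conj e hf
        rwa [U.h.inv_eq he.1, conj_comm hee he.2.2.symm] at this
      · intro h1
        apply hfx
        rw [← cj hee, conj_comm hee hex]; exact h1
      · intro h1
        apply hex'
        rw [braid U.h.cls.1 he.1 hf.1 hef] at h1
        rw [← cj hff, conj_comm hff hfx']; exact h1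
  obtain ⟨w, hw, hwx, hwx'⟩ := key
  refine ⟨pr D c q w, U.pr_mem hw, ?_, ?_⟩
  · intro h1
    apply hwx
    rw [← U.commute_pr_iff hw hx.1, U.pr_self hx]; exact h1.symm
  · intro h1
    apply hwx'
    rw [← U.commute_pr_iff hw hx'.1, U.pr_self hx']; exact h1

/-- consistent labels -/
theorem UData.exists_label : ∃ L : G → ZMod 3,
    (∀ y ∈ Om D c q, ∀ y' ∈ Om D c q, pr D c q y = pr D c q y' → L y = L y' → y = y') ∧
    (∀ x ∈ Dp D c q, ∀ k, ∃ y ∈ Om D c q, pr D c q y = x ∧ L y = k) ∧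
    ∀ x ∈ Dp D c q, ∀ x' ∈ Dp D c q, ¬ Commute x x' → Ori D c q L x x' 1 := by
  classical
  obtain ⟨L, hL1, hL2⟩ := U.exists_label0
  let toZ : ℤˣ → ZMod 3 := fun u => if u = 1 then 1 else -1
  have toZ_mul : ∀ u v : ℤˣ, toZ (u * v) = toZ u * toZ v := by decide
  have toZ_cases : ∀ u : ℤˣ, toZ u = 1 ∨ toZ u = -1 := by decide
  have toZ_sq : ∀ u : ℤˣ, toZ u * toZ u = 1 := by decide
  have toZ_inj : ∀ u v : ℤˣ, toZ u = toZ v → u = v := by decide
  let N : Dp D c q → Dp D c q → Prop := fun x y => ¬ Commute (x : G) y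
  let s : Dp D c q → Dp D c q → ℤˣ := fun x y => if Ori D c q L x y 1 then 1 else -1
  have hs : ∀ x y, N x y → Ori D c q L x y (toZ (s x y)) := by
    intro x y hxy
    by_cases h1 : Ori D c q L x y 1
    · have : s x y = 1 := if_pos h1
      rw [this]; exact h1
    · have : s x y = -1 := if_neg h1
      rw [this]
      exact (U.exists_ori hL1 hL2 x.2 y.2 hxy).resolve_left h1
  have hcl : ∀ e x : Dp D c q, (e : G) * x * e ∈ Dp D c q := by
    intro e x
    have hee := U.h.mul_self e.2.1.1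
    constructor
    · have := perp_conj_mem U.h.conj (e : G) x.2.1
      rwa [U.h.inv_eq e.2.1.1, conj_comm hee e.2.1.2.2.symm] at this
    · exact (e.2.2.mul_right x.2.2).mul_right e.2.2
  obtain ⟨ε, hε⟩ := exists_sign N (fun x h1 => h1 (Commute.refl _)) (fun x y h1 h2 => h1 h2.symm) s
    (fun x y hxy => by
      apply toZ_inj
      have h1 := U.ori_symm (toZ_sq _) (hs x y hxy)
      exact U.ori_unique hL2 y.2 x.2 (fun h2 => hxy h2.symm) h1 (hs y x (fun h2 => hxy h2.symm)))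
    (fun x y z hxy hyz hxz => by
      apply toZ_inj
      rw [toZ_mul]
      exact U.ori_tri hL1 hL2 x.2 y.2 z.2 hxy hyz hxz (toZ_cases _) (toZ_cases _) (toZ_cases _) (hs x y hxy)
        (hs y z hyz) (hs x z hxz))
    (fun x y hne hxy => by
      obtain ⟨e, he, h1, h2⟩ := U.exists_common' x.2 y.2 (fun h1 => hne (Subtype.ext h1)) (not_not.1 hxy)
      exact ⟨⟨e, he⟩, h1, h2⟩)
    (fun e x hex => by
      have hee := U.h.mul_self e.2.1.1
      have hxx := U.h.mul_self x.2.1.1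
      have hb := braid U.h.cls.1 e.2.1.1 x.2.1.1 hex
      refine ⟨⟨e * x * e, hcl e x⟩, ?_, ?_, ?_⟩
      · intro h1
        apply hex
        have h2 : Commute ((e : G) * x * e) (e * e * e) := by rw [hee, one_mul]; exact h1
        exact ((cj hee).1 h2).symm
      · intro h1
        apply hex
        have h2 : Commute ((x : G) * e * x) (x * x * x) := by rw [hxx, one_mul, ← hb]; exact h1
        exact ((cj hxx).1 h2)
      · rintro z (⟨h1, h2⟩ | ⟨h1, h2⟩) h3
        · have h2' : Commute (z : G) x := not_not.1 h2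
          apply h1
          have h4 : Commute ((x : G) * e * x) (x * z * x) := by
            rw [← hb, conj_comm hxx h2'.symm]; exact h3
          exact ((cj hxx).1 h4).symm
        · have h1' : Commute (z : G) e := not_not.1 h1
          apply h2
          have h4 : Commute ((e : G) * x * e) (e * z * e) := by
            rw [conj_comm hee h1'.symm]; exact h3
          exact ((cj hee).1 h4).symm)
  -- the new labels
  let ε' : G → ZMod 3 := fun x => if hx : x ∈ Dp D c q then toZ (ε ⟨x, hx⟩) else 1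
  have hε' : ∀ x : Dp D c q, ε' x = toZ (ε x) := fun x => dif_pos x.2
  have hεsq : ∀ x : Dp D c q, ε' x * ε' x = 1 := fun x => by rw [hε']; exact toZ_sq _
  refine ⟨fun y => ε' (pr D c q y) * L y, ?_, ?_, ?_⟩
  · intro y hy y' hy' hpr hL
    simp only at hL
    rw [← hpr] at hL
    apply hL1 y hy y' hy' hpr
    have h1 := congrArg (fun t => ε' (pr D c q y) * t) hL
    simp only [← mul_assoc] at h1
    rwa [hεsq ⟨_, U.pr_mem hy.1⟩, one_mul, one_mul] at h1
  · intro x hx k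
    obtain ⟨y, hy, hyx, hyk⟩ := hL2 x hx (ε' x * k)
    refine ⟨y, hy, hyx, ?_⟩
    simp only
    rw [hyx, hyk, ← mul_assoc, hεsq ⟨x, hx⟩, one_mul]
  · intro x hx x' hx' hnc y hy z hz y' hy' z' hz' h3 h4 h5 h6 h7 h8
    simp only
    rw [h3, h4, h5, h6, one_mul, ← mul_sub, ← mul_sub]
    have h1 := hs ⟨x, hx⟩ ⟨x', hx'⟩ hnc y hy z hz y' hy' z' hz' h3 h4 h5 h6 h7 h8
    rw [h1, hε ⟨x, hx⟩ ⟨x', hx'⟩ hnc, toZ_mul]
    have h2 := hεsq ⟨x', hx'⟩
    have h9 := hε' ⟨x, hx⟩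
    have h10 := hε' ⟨x', hx'⟩
    simp only at h2 h9 h10
    rw [← h9, ← h10]
    calc ε' x' * (ε' x * ε' x' * (L y - L z)) = (ε' x' * ε' x') * ε' x * (L y - L z) := by ring
      _ = _ := by rw [h2, one_mul]

end Cfsg.Agent.ThreeTransp
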