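import Cfsg.Agent.ThreeTransp.CoreFive
import Cfsg.Agent.ThreeTransp.LocalS3
/-!
3-transposition groups in which the 2-core of the group generated by the transpositions commuting with a transposition is
not central: the lines of the polar space of transpositions (owner: helper8).
-/
set_option autoImplicit false
open Cfsg
open scoped Pointwise commutatorElement
namespace Cfsg.Agent.ThreeTransp

variable {G : Type*} [Group G] {D : Set G}

section Elem

theorem cj {x : G} (hx : x * x = 1) {a b : G} : Commute (x * a * x) (x * b * x) ↔ Commute a b := by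
  have h1 := inv_eq_of_mul_eq_one_left hx
  have h := commute_conj_iff (x := a) (y := b) x
  rwa [h1] at h

theorem conj_comm {x a : G} (hx : x * x = 1) (h : Commute x a) : x * a * x = a := by
  rw [h.eq, mul_assoc, hx, mul_one]

/-- the four-point facts -/
theorem four_facts (hD : Cfsg.IsThreeTranspositionSet D) {d a p : G} (hd : d ∈ D) (ha : a ∈ D) (hp : p ∈ D)
    (hda : Commute d a) (hne : d ≠ a) (hpd : ¬ Commute p d) (hpa : ¬ Commute p a) :
    Commute p ((d * a) * p * (d * a)⁻¹) ∧ p ≠ (d * a) * p * (d * a)⁻¹ ∧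
      (p * ((d * a) * p * (d * a)⁻¹)) * d * (p * ((d * a) * p * (d * a)⁻¹))⁻¹ = a := by
  obtain ⟨φ, hinj, p1, p2, p3⟩ := string4 hD hd hp ha hda hne (fun h => hpd h.symm) hpa
  have e1 : (Equiv.swap (0 : Fin 4) 1 * Equiv.swap 2 3) * Equiv.swap 1 2 * (Equiv.swap 0 1 * Equiv.swap 2 3)⁻¹ =
    Equiv.swap 0 3 := by decide
  have f1 := congrArg φ e1
  simp only [map_mul, map_inv, p1, p2, p3] at f1
  refine ⟨?_, ?_, ?_⟩
  · have c : Commute (φ (Equiv.swap 1 2)) (φ (Equiv.swap 0 3)) := by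
      show _ * _ = _ * _
      rw [← map_mul, ← map_mul]
      exact congrArg φ (by decide)
    rw [p2, ← f1] at c
    exact c
  · intro h1
    rw [← h1, ← p2] at f1
    exact absurd (hinj f1) (by decide)
  · rw [f1]
    have e2 : (Equiv.swap (1 : Fin 4) 2 * Equiv.swap 0 3) * Equiv.swap 0 1 * (Equiv.swap 1 2 * Equiv.swap 0 3)⁻¹ =
      Equiv.swap 2 3 := by decide
    have f2 := congrArg φ e2
    simp only [map_mul, map_inv, p1, p2, p3] at f2
    exact f2

theorem even_ncard_of_involution {s : Set G} (hs : s.Finite) (f : G → G) (h1 : ∀ x ∈ s, f x ∈ s)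
    (h2 : ∀ x ∈ s, f (f x) = x) (h3 : ∀ x ∈ s, f x ≠ x) : Even s.ncard := by
  classical
  obtain ⟨t, rfl⟩ := hs.exists_finset_coe
  rw [Set.ncard_coe_finset]
  have key : ∑ _x ∈ t, (1 : ZMod 2) = 0 := by
    apply Finset.sum_involution (fun a _ => f a)
    · intro a _; decide
    · intro a ha _; exact h3 a ha
    · intro a ha; exact h1 a ha
    · intro a ha; exact h2 a ha
  rw [Finset.sum_const, nsmul_eq_mul, mul_one] at key
  exact (ZMod.natCast_eq_zero_iff_even).1 key

end Elem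

/-- members commuting with both -/
def cc (D : Set G) (d a : G) : Set G := {y | y ∈ D ∧ Commute y d ∧ Commute y a}

/-- the line through two commuting members -/
def pl (D : Set G) (d a : G) : Set G := {v | v ∈ D ∧ ∀ y ∈ cc D d a, Commute v y}

theorem cc_symm (d a : G) : cc D d a = cc D a d := by
  ext y; exact ⟨fun h => ⟨h.1, h.2.2, h.2.1⟩, fun h => ⟨h.1, h.2.2, h.2.1⟩⟩

theorem pl_symm (d a : G) : pl D d a = pl D a d := by
  unfold pl; rw [cc_symm]

theorem cc_conj_iff (hconj : ∀ g : G, ∀ d ∈ D, g * d * g⁻¹ ∈ D) {d a y : G} (g : G) :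
    g * y * g⁻¹ ∈ cc D (g * d * g⁻¹) (g * a * g⁻¹) ↔ y ∈ cc D d a := by
  constructor
  · rintro ⟨h1, h2, h3⟩
    refine ⟨?_, (commute_conj_iff g).1 h2, (commute_conj_iff g).1 h3⟩
    have := hconj g⁻¹ _ h1
    have e : g⁻¹ * (g * y * g⁻¹) * g⁻¹⁻¹ = y := by group
    rwa [e] at this
  · rintro ⟨h1, h2, h3⟩
    exact ⟨hconj g y h1, (commute_conj_iff g).2 h2, (commute_conj_iff g).2 h3⟩

theorem pl_conj (hconj : ∀ g : G, ∀ d ∈ D, g * d * g⁻¹ ∈ D) {d a v : G} (g : G) (hv : v ∈ pl D d a) :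
    g * v * g⁻¹ ∈ pl D (g * d * g⁻¹) (g * a * g⁻¹) := by
  refine ⟨hconj g v hv.1, fun y hy => ?_⟩
  obtain ⟨z, rfl⟩ : ∃ z, y = g * z * g⁻¹ := ⟨g⁻¹ * y * g, by group⟩
  rw [commute_conj_iff]
  exact hv.2 z ((cc_conj_iff hconj g).1 hy)

/-- the hypotheses: every commuting pair has a nontrivial class of members with the same commuting members -/
structure VHyp (D : Set G) : Prop where
  cls : Cfsg.IsThreeTranspositionClass D
  irr : Irred D
  nc : ∀ d ∈ D, ∃ e ∈ D, ¬ Commute d e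
  cen : ∀ z : G, (∀ d ∈ D, Commute d z) → z = 1
  vl : ∀ d ∈ D, ∀ a ∈ perp D d, ∃ v ∈ perp D d, v ≠ a ∧ ∀ y ∈ perp D d, Commute a y ↔ Commute v y
  ex : ∃ d ∈ D, ∃ a ∈ D, a ≠ d ∧ Commute d a

variable (h : VHyp D)
include h

theorem VHyp.conj : ∀ g : G, ∀ d ∈ D, g * d * g⁻¹ ∈ D := fun g _ hd => conj_mem h.cls hd g

theorem VHyp.mul_self {d : G} (hd : d ∈ D) : d * d = 1 := ThreeTransp.mul_self h.cls.1 hd

theorem VHyp.inv_eq {d : G} (hd : d ∈ D) : d⁻¹ = d := ThreeTransp.inv_eq h.cls.1 hd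

theorem VHyp.conj3 {x d : G} (hx : x ∈ D) (hd : d ∈ D) : x * d * x ∈ D := by
  have := h.conj x d hd
  rwa [h.inv_eq hx] at this

theorem VHyp.left_mem {d a : G} (hd : d ∈ D) : d ∈ pl D d a := ⟨hd, fun _ hy => hy.2.1.symm⟩

theorem VHyp.right_mem {d a : G} (ha : a ∈ D) : a ∈ pl D d a := ⟨ha, fun _ hy => hy.2.2.symm⟩

omit h in
theorem perp_symm' {d a : G} (hd : d ∈ D) (ha : a ∈ perp D d) : d ∈ perp D a :=
  ⟨hd, ha.2.1.symm, ha.2.2.symm⟩

omit h in
theorem mem_cc_of_mem_pl {d a u : G} (hd : d ∈ D) (ha : a ∈ perp D d) (hu : u ∈ pl D d a) : u ∈ cc D d a :=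
  ⟨hu.1, hu.2 d ⟨hd, Commute.refl d, ha.2.2⟩, hu.2 a ⟨ha.1, ha.2.2.symm, Commute.refl a⟩⟩

omit h in
theorem pl_commute {d a u w : G} (hd : d ∈ D) (ha : a ∈ perp D d) (hu : u ∈ pl D d a) (hw : w ∈ pl D d a) :
    Commute u w := hu.2 w (mem_cc_of_mem_pl hd ha hw)

omit h in
theorem pl_subset_cc {d a u w : G} (hu : u ∈ pl D d a) (hw : w ∈ pl D d a) :
    cc D d a ⊆ cc D u w := fun y hy => ⟨hy.1, (hu.2 y hy).symm, (hw.2 y hy).symm⟩

variable [Finite G]

theorem VHyp.cc_ncard {d a u w : G} (hd : d ∈ D) (ha : a ∈ perp D d) (hu : u ∈ D) (hw : w ∈ perp D u) :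
    (cc D d a).ncard = (cc D u w).ncard := by
  obtain ⟨e, he, hde⟩ := h.nc d hd
  obtain ⟨g, g1, g2⟩ := exists_conj_pair h.cls h.irr hd ha hu hw he hde
  apply ncard_conj (p := fun y => y ∈ cc D d a) (q := fun y => y ∈ cc D u w) g
  intro x
  show x ∈ cc D d a ↔ g * x * g⁻¹ ∈ cc D u w
  rw [← g1, ← g2, cc_conj_iff h.conj]

theorem VHyp.pl_ncard {d a u w : G} (hd : d ∈ D) (ha : a ∈ perp D d) (hu : u ∈ D) (hw : w ∈ perp D u) :
    (pl D d a).ncard = (pl D u w).ncard := by
  obtain ⟨e, he, hde⟩ := h.nc d hd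
  obtain ⟨g, g1, g2⟩ := exists_conj_pair h.cls h.irr hd ha hu hw he hde
  apply ncard_conj (p := fun y => y ∈ pl D d a) (q := fun y => y ∈ pl D u w) g
  intro x
  show x ∈ pl D d a ↔ g * x * g⁻¹ ∈ pl D u w
  rw [← g1, ← g2]
  constructor
  · exact pl_conj h.conj g
  · intro h1
    have := pl_conj h.conj g⁻¹ h1
    have e : ∀ z : G, g⁻¹ * (g * z * g⁻¹) * g⁻¹⁻¹ = z := fun z => by group
    rwa [e, e, e] at this

theorem VHyp.cc_eq {d a u w : G} (hd : d ∈ D) (ha : a ∈ perp D d) (hu : u ∈ pl D d a) (hw : w ∈ pl D d a)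
    (huw : u ≠ w) : cc D u w = cc D d a := by
  symm
  apply Set.eq_of_subset_of_ncard_le (pl_subset_cc hu hw) _ (Set.toFinite _)
  rw [h.cc_ncard hd ha hu.1 ⟨hw.1, huw.symm, pl_commute hd ha hu hw⟩]

theorem VHyp.pl_eq {d a u w : G} (hd : d ∈ D) (ha : a ∈ perp D d) (hu : u ∈ pl D d a) (hw : w ∈ pl D d a)
    (huw : u ≠ w) : pl D u w = pl D d a := by
  unfold pl
  rw [h.cc_eq hd ha hu hw huw]

theorem VHyp.commute_all {d a u w v p : G} (hd : d ∈ D) (ha : a ∈ perp D d) (hu : u ∈ pl D d a) (hw : w ∈ pl D d a)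
    (huw : u ≠ w) (hp : p ∈ D) (h1 : Commute p u) (h2 : Commute p w) (hv : v ∈ pl D d a) : Commute p v := by
  have h3 : p ∈ cc D d a := by
    rw [← h.cc_eq hd ha hu hw huw]
    exact ⟨hp, h1, h2⟩
  exact (hv.2 p h3).symm

omit [Finite G] in
theorem VHyp.exists_third {d a : G} (hd : d ∈ D) (ha : a ∈ perp D d) : ∃ v ∈ pl D d a, v ≠ d ∧ v ≠ a := by
  obtain ⟨v, hv, hva, hall⟩ := h.vl d hd a ha
  refine ⟨v, ⟨hv.1, fun y hy => ?_⟩, hv.2.1, hva⟩
  by_cases hyd : y = d
  · subst hyd; exact hv.2.2.symm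
  · exact (hall y ⟨hy.1, hyd, hy.2.1.symm⟩).1 hy.2.2.symm

theorem VHyp.even_nc {d a p : G} (hd : d ∈ D) (ha : a ∈ perp D d) (hp : p ∈ D) (h1 : ¬ Commute p d)
    (h2 : ¬ Commute p a) : Even {v | v ∈ pl D d a ∧ ¬ Commute p v}.ncard := by
  obtain ⟨f1, f2, f3⟩ := four_facts h.cls.1 hd ha.1 hp ha.2.2 ha.2.1.symm h1 h2
  set q := (d * a) * p * (d * a)⁻¹ with hq
  have hqD : q ∈ D := h.conj _ p hp
  set g := p * q with hg
  have hgg : g * g = 1 := by
    rw [hg]
    calc p * q * (p * q) = p * (q * p) * q := by group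
      _ = p * (p * q) * q := by rw [f1.eq]
      _ = (p * p) * (q * q) := by group
      _ = 1 := by rw [h.mul_self hp, h.mul_self hqD, one_mul]
  have hgi : g⁻¹ = g := inv_eq_of_mul_eq_one_left hgg
  have f4 : g * a * g⁻¹ = d := by
    rw [← f3]
    calc g * (g * d * g⁻¹) * g⁻¹ = (g * g) * d * (g * g)⁻¹ := by group
      _ = d := by rw [hgg]; group
  have f5 : g * p * g⁻¹ = p := by
    have : Commute g p := (Commute.refl p).mul_left f1.symm
    rw [this.eq]; group
  apply even_ncard_of_involution (Set.toFinite _) (fun v => g * v * g⁻¹)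
  · rintro v ⟨hv, hvp⟩
    constructor
    · have := pl_conj h.conj g hv
      rwa [f3, f4, pl_symm] at this
    · intro hc
      apply hvp
      rw [← f5] at hc
      exact (commute_conj_iff g).1 hc
  · intro v _
    calc g * (g * v * g⁻¹) * g⁻¹ = (g * g) * v * (g * g)⁻¹ := by group
      _ = v := by rw [hgg]; group
  · rintro v ⟨hv, hvp⟩ hc
    have h3 : Commute v g := by
      have hc' : g * v * g⁻¹ = v := hc
      show v * g = g * v
      calc v * g = (g * v * g⁻¹) * g := by rw [hc']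
        _ = g * v := by group
    rw [hg, commute_mul_two_iff h.cls.1 hp hqD hv.1 f2 f1] at h3
    exact hvp h3.1.symm

theorem VHyp.exists_sep {d a : G} (hd : d ∈ D) (ha : a ∈ perp D d) : ∃ y ∈ D, Commute y a ∧ ¬ Commute y d := by
  by_contra hcon
  push Not at hcon
  obtain ⟨e, he, hae⟩ := h.nc a ha.1
  refine not_same_perp h.cls h.irr hd ha.1 ha.2.1.symm (h.nc d hd).choose_spec.1 (h.nc d hd).choose_spec.2 ?_
  apply perp_eq_of_le h.cls hd ha.1
  intro y hy h1 h2
  exact h1 (hcon y hy h2.symm).symm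

theorem VHyp.exists_mem_commute {d a p : G} (hd : d ∈ D) (ha : a ∈ perp D d) (hp : p ∈ D) :
    ∃ v ∈ pl D d a, Commute p v := by
  by_contra hcon
  push Not at hcon
  have h1 := h.even_nc hd ha hp (hcon d (h.left_mem hd)) (hcon a (h.right_mem ha.1))
  have h2 : {v | v ∈ pl D d a ∧ ¬ Commute p v} = pl D d a := by
    ext v
    exact ⟨fun h => h.1, fun hv => ⟨hv, hcon v hv⟩⟩
  rw [h2] at h1
  obtain ⟨y, hy, hya, hyd⟩ := h.exists_sep hd ha
  obtain ⟨v, hv, hvd, hva⟩ := h.exists_third hd ha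
  have hyv : ¬ Commute y v := fun hc =>
    hyd (h.commute_all hd ha hv (h.right_mem ha.1) hva hy hc hya (h.left_mem hd))
  have hvp : v ∈ perp D d := ⟨hv.1, hvd, (mem_cc_of_mem_pl hd ha hv).2.1.symm⟩
  have h3 := h.even_nc hd hvp hy hyd hyv
  have h4 : pl D d v = pl D d a := h.pl_eq hd ha (h.left_mem hd) hv hvd.symm
  rw [h4] at h3
  have h5 : {w | w ∈ pl D d a ∧ ¬ Commute y w} = pl D d a \ {a} := by
    ext w
    constructor
    · rintro ⟨hw, hwy⟩
      exact ⟨hw, fun hwa => hwy (by rw [Set.mem_singleton_iff.1 hwa]; exact hya)⟩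
    · rintro ⟨hw, hwa⟩
      refine ⟨hw, fun hc => hyd ?_⟩
      exact h.commute_all hd ha hw (h.right_mem ha.1) hwa hy hc hya (h.left_mem hd)
  rw [h5] at h3
  have h6 := Set.ncard_sdiff_singleton_add_one (h.right_mem (d := d) ha.1) (Set.toFinite (pl D d a))
  rw [← h6] at h1
  rw [Nat.even_add_one] at h1
  exact h1 h3

/-- the point of the line commuting with a member is unique when not all commute -/
theorem VHyp.unique {d a p u w : G} (hd : d ∈ D) (ha : a ∈ perp D d) (hp : p ∈ D) (hpd : ¬ Commute p d)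
    (hu : u ∈ pl D d a) (hw : w ∈ pl D d a) (h1 : Commute p u) (h2 : Commute p w) : u = w := by
  by_contra hne
  exact hpd (h.commute_all hd ha hu hw hne hp h1 h2 (h.left_mem hd))

omit [Finite G] in
theorem VHyp.mem_perp_of_pl {d a v : G} (hd : d ∈ D) (ha : a ∈ perp D d) (hv : v ∈ pl D d a) (hne : v ≠ d) :
    v ∈ perp D d := ⟨hv.1, hne, (mem_cc_of_mem_pl hd ha hv).2.1.symm⟩

theorem VHyp.pl_eq_left {d a v : G} (hd : d ∈ D) (ha : a ∈ perp D d) (hv : v ∈ pl D d a) (hne : v ≠ d) :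
    pl D d v = pl D d a := h.pl_eq hd ha (h.left_mem hd) hv hne.symm

/-- L1: conjugating by the product of two points of the line different from `c` moves a point along its line with `c`. -/
theorem VHyp.shift {c x y p : G} (hc : c ∈ D) (hx : x ∈ perp D c) (hy : y ∈ pl D c x) (hyc : y ≠ c) (hyx : y ≠ x)
    (hp : p ∈ perp D c) (hpx : ¬ Commute p x) :
    (x * y) * p * (x * y)⁻¹ ∈ pl D c p ∧ (x * y) * p * (x * y)⁻¹ ≠ c ∧ (x * y) * p * (x * y)⁻¹ ≠ p := by
  have hyD := hy.1
  have hxD := hx.1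
  have hpD := hp.1
  have hxy : Commute x y := pl_commute hc hx (h.right_mem hx.1) hy
  have hpy : ¬ Commute p y := fun h1 => hpx (h.commute_all hc hx (h.left_mem hc) hy hyc.symm hpD hp.2.2.symm h1
    (h.right_mem hx.1))
  have hxx := h.mul_self hxD
  have hyy := h.mul_self hyD
  have hpp := h.mul_self hpD
  have hxi := h.inv_eq hxD
  have hyi := h.inv_eq hyD
  have hpi := h.inv_eq hpD
  have e0 : (x * y) * p * (x * y)⁻¹ = x * (y * p * y) * x := by
    rw [mul_inv_rev, hxi, hyi]; group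
  have ff := four_facts h.cls.1 hxD hyD hpD hxy (fun h1 => hyx h1.symm) hpx hpy
  refine ⟨⟨h.conj _ p hpD, fun z hz => ?_⟩, ?_, fun h1 => ff.2.1 h1.symm⟩
  · by_cases hzx : Commute z x
    · have hzy : Commute z y := h.commute_all hc hx (h.left_mem hc) (h.right_mem hx.1) hx.2.1.symm hz.1 hz.2.1 hzx hy
      have : Commute z (x * y) := hzx.mul_right hzy
      exact ((this.mul_right hz.2.2).mul_right this.inv_right).symm
    · by_cases hzp : z = p
      · subst hzp; exact ff.1.symm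
      · have hzy : ¬ Commute z y := fun h1 => hzx (h.commute_all hc hx (h.left_mem hc) hy hyc.symm hz.1 hz.2.1 h1
          (h.right_mem hx.1))
        have hzz := h.mul_self hz.1
        have hzi := h.inv_eq hz.1
        have gg := four_facts h.cls.1 hpD hz.1 hyD hz.2.2.symm (fun h1 => hzp h1.symm) (fun h1 => hpy h1.symm)
          (fun h1 => hzy h1.symm)
        set t := (p * z) * y * (p * z)⁻¹ with ht
        have htD : t ∈ D := h.conj _ y hyD
        have htc : Commute t c := by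
          have h1 : Commute (p * z) c := hp.2.2.symm.mul_left hz.2.1
          have h2 : Commute y c := (pl_commute hc hx (h.left_mem hc) hy).symm
          exact (h1.mul_left h2).mul_left h1.inv_left
        have htx : Commute t x := h.commute_all hc hx (h.left_mem hc) hy hyc.symm htD htc gg.1.symm
          (h.right_mem hx.1)
        -- conjugate by z
        have e1 : z * t * z = p * y * p := by
          rw [ht, mul_inv_rev, hpi, hzi]
          calc z * (p * z * y * (z * p)) * z = (z * p) * z * y * z * (p * z) := by group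
            _ = (p * z) * z * y * z * (z * p) := by rw [hz.2.2.eq]
            _ = p * (z * z) * y * (z * z) * p := by group
            _ = p * y * p := by rw [hzz]; group
        have h2 : Commute (z * t * z) (z * x * z) := (cj hzz).2 htx
        rw [e1, braid h.cls.1 hpD hyD hpy, braid h.cls.1 hz.1 hxD hzx] at h2
        have h3 := (cj hxx).2 h2
        rw [ThreeTrans.conj_cancel hxx] at h3
        rw [e0]
        exact h3
  · intro h1
    have h2 : Commute (x * y) c := (hx.2.2.symm).mul_left (pl_commute hc hx (h.left_mem hc) hy).symm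
    have h3 : (x * y) * c * (x * y)⁻¹ = c := by rw [h2.eq]; group
    rw [← h3] at h1
    exact hp.2.1 (mul_left_cancel (mul_right_cancel h1))

end Cfsg.Agent.ThreeTransp
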