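import Cfsg.Agent.ThreeTransp.PolarLabel
/-!
The case of lines with five points: reduction of products of `rho`'s (owner: helper8).
-/
set_option autoImplicit false
open Cfsg
open scoped Pointwise commutatorElement
namespace Cfsg.Agent.ThreeTransp

variable {G : Type*} [Group G] {D : Set G}

/-- the properties of labels -/
structure Lab (D : Set G) (c q : G) (L : G → ZMod 3) : Prop where
  inj : ∀ y ∈ Om D c q, ∀ y' ∈ Om D c q, pr D c q y = pr D c q y' → L y = L y' → y = y'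
  surj : ∀ x ∈ Dp D c q, ∀ k, ∃ y ∈ Om D c q, pr D c q y = x ∧ L y = k
  ori : ∀ x ∈ Dp D c q, ∀ x' ∈ Dp D c q, ¬ Commute x x' → Ori D c q L x x' 1

/-- the label difference of a noncommuting pair -/
noncomputable def tt (D : Set G) (c q : G) (L : G → ZMod 3) (a b : G) : ZMod 3 :=
  L (rho D c q a * pr D c q b * (rho D c q a)⁻¹) - L b

/-- the rules for a system of involutions -/
structure Rules (D : Set G) (c q : G) {T : Type*} [Group T] (γ : T) (δ : G → T) : Prop where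
  gg : γ * γ = 1
  gd : ∀ y ∈ Om D c q, γ * δ y = δ y * γ
  d1 : ∀ y ∈ Om D c q, δ y * δ y = 1
  d2 : ∀ y ∈ Om D c q, ∀ y' ∈ Om D c q, y ≠ y' → Commute y y' → ∃ w ∈ Om D c q, δ y * δ y' = γ * δ w
  d3 : ∀ y ∈ Om D c q, ∀ y' ∈ Om D c q, tl q y y' → ∃ w ∈ Om D c q, δ y * δ y' = δ w
  d4 : ∀ y ∈ Om D c q, ∀ y' ∈ Om D c q, δ y * δ y' = δ y' * δ y ∨ δ y * δ y' = γ * (δ y' * δ y)
  d5 : ∀ b ∈ Om D c q, ∀ b1 ∈ Om D c q, ∀ b2 ∈ Om D c q, pr D c q b1 = pr D c q b → pr D c q b2 = pr D c q b →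
    b ≠ b1 → b ≠ b2 → b1 ≠ b2 → δ b = γ * δ b1 * δ b2

/-- normal forms -/
def NF (D : Set G) (c q : G) {T : Type*} [Group T] (γ : T) (δ : G → T) (t : T) : Prop :=
  ∃ e : T, (e = 1 ∨ e = γ) ∧ (t = e ∨ (∃ a ∈ Om D c q, t = e * δ a) ∨
    ∃ a ∈ Om D c q, ∃ b ∈ Om D c q, ¬ Commute a b ∧ ¬ tl q a b ∧ t = e * (δ a * δ b))

variable [Finite G] {c q : G} (U : UData D c q) {L : G → ZMod 3} (hL : Lab D c q L)

section Labels

include U hL

theorem Lab.tt_eq_zero {a b : G} (ha : a ∈ Om D c q) (hb : b ∈ Om D c q) (hab : ¬ Commute a b) :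
    tt D c q L a b = 0 ↔ tl q a b := by
  have hab' : ¬ Commute a (pr D c q b) := by
    intro h1
    exact hab ((U.commute_line_iff ha.1 hb.1 (U.h.right_mem ha.1.1) (U.pr_spec hb.1).1 ha.1.2.1 (U.pr_ne hb.1)).1 h1)
  obtain ⟨p1, p2, p3⟩ := U.phi_mem ha (U.pr_mem hb.1) hab'
  rw [U.tl_iff ha hb hab]
  unfold tt
  rw [sub_eq_zero]
  constructor
  · intro h1
    apply hL.inj _ p1 _ hb _ h1
    rw [U.pr_of_mem (U.pr_mem hb.1).1 p2 p1.1.2.1, U.pr_self (U.pr_mem hb.1)]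
  · intro h1; rw [h1]

theorem Lab.tt_symm {a b : G} (ha : a ∈ Om D c q) (hb : b ∈ Om D c q) (hab : ¬ Commute a b) :
    tt D c q L b a = - tt D c q L a b := by
  have hab' : ¬ Commute a (pr D c q b) := by
    intro h1
    exact hab ((U.commute_line_iff ha.1 hb.1 (U.h.right_mem ha.1.1) (U.pr_spec hb.1).1 ha.1.2.1 (U.pr_ne hb.1)).1 h1)
  have hba' : ¬ Commute b (pr D c q a) := by
    intro h1
    exact hab ((U.commute_line_iff hb.1 ha.1 (U.h.right_mem hb.1.1) (U.pr_spec ha.1).1 hb.1.2.1 (U.pr_ne ha.1)).1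
      h1).symm
  obtain ⟨p1, p2, p3⟩ := U.phi_mem ha (U.pr_mem hb.1) hab'
  obtain ⟨r1, r2, r3⟩ := U.phi_mem hb (U.pr_mem ha.1) hba'
  have hp : pr D c q (rho D c q a * pr D c q b * (rho D c q a)⁻¹) = pr D c q b := by
    rw [U.pr_of_mem (U.pr_mem hb.1).1 p2 p1.1.2.1, U.pr_self (U.pr_mem hb.1)]
  have hr : pr D c q (rho D c q b * pr D c q a * (rho D c q b)⁻¹) = pr D c q a := by
    rw [U.pr_of_mem (U.pr_mem ha.1).1 r2 r1.1.2.1, U.pr_self (U.pr_mem ha.1)]
  have hnc : ¬ Commute (pr D c q a) (pr D c q b) := fun h1 => hab ((U.commute_pr_iff ha.1 hb.1).1 h1)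
  have h1 := hL.ori _ (U.pr_mem ha.1) _ (U.pr_mem hb.1) hnc a ha _ r1 _ p1 b hb rfl hr hp rfl p3
    (U.tl_symm hb r1 r3)
  unfold tt
  rw [one_mul] at h1
  rw [h1]; ring

omit [Finite G] U hL in
theorem tt_line {a b b' : G} (hbb : pr D c q b' = pr D c q b) :
    tt D c q L a b' = tt D c q L a b + (L b - L b') := by
  unfold tt
  rw [hbb]; ring

theorem Lab.tt_line' {a b b' : G} (ha : a ∈ Om D c q) (hb : b ∈ Om D c q) (hb' : b' ∈ Om D c q)
    (hab : ¬ Commute b a) (hbb : pr D c q b' = pr D c q b) : tt D c q L b' a = tt D c q L b a + (L b' - L b) := by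
  have hab' : ¬ Commute b' a := by
    intro h1
    apply hab
    rw [← U.commute_pr_iff hb.1 ha.1, ← hbb, U.commute_pr_iff hb'.1 ha.1]
    exact h1
  rw [hL.tt_symm U ha hb' (fun h1 => hab' h1.symm), tt_line hbb, hL.tt_symm U hb ha hab]
  ring

end Labels

section NF

variable {T : Type*} [Group T] {γ : T} {δ : G → T} (R : Rules D c q γ δ)
include R

omit [Finite G] in
theorem Rules.nf_gamma {t : T} (ht : NF D c q γ δ t) : NF D c q γ δ (γ * t) := by
  obtain ⟨e, he, h1⟩ := ht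
  refine ⟨γ * e, ?_, ?_⟩
  · rcases he with rfl | rfl
    · right; rw [mul_one]
    · left; exact R.gg
  · rcases h1 with rfl | ⟨a, ha, rfl⟩ | ⟨a, ha, b, hb, h2, h3, rfl⟩
    · left; rfl
    · right; left; exact ⟨a, ha, by rw [mul_assoc]⟩
    · right; right; exact ⟨a, ha, b, hb, h2, h3, by rw [mul_assoc]⟩

omit [Finite G] in
theorem Rules.nf_e {e t : T} (he : e = 1 ∨ e = γ) (ht : NF D c q γ δ t) : NF D c q γ δ (e * t) := by
  rcases he with rfl | rfl
  · rwa [one_mul]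
  · exact R.nf_gamma ht

omit [Finite G] in
theorem nf_one' {a : G} (ha : a ∈ Om D c q) : NF D c q γ δ (δ a) :=
  ⟨1, Or.inl rfl, Or.inr (Or.inl ⟨a, ha, by rw [one_mul]⟩)⟩

omit [Finite G] R in
theorem nf_id : NF D c q γ δ 1 := ⟨1, Or.inl rfl, Or.inl rfl⟩

omit [Finite G] in
theorem Rules.nf_two {a b : G} (ha : a ∈ Om D c q) (hb : b ∈ Om D c q) : NF D c q γ δ (δ a * δ b) := by
  by_cases hab : a = b
  · rw [hab, R.d1 b hb]; exact nf_id
  by_cases hc : Commute a b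
  · obtain ⟨w, hw, h1⟩ := R.d2 a ha b hb hab hc
    rw [h1]; exact R.nf_gamma (nf_one' R hw)
  by_cases ht : tl q a b
  · obtain ⟨w, hw, h1⟩ := R.d3 a ha b hb ht
    rw [h1]; exact nf_one' R hw
  exact ⟨1, Or.inl rfl, Or.inr (Or.inr ⟨a, ha, b, hb, hc, ht, by rw [one_mul]⟩)⟩

omit [Finite G] in
theorem Rules.nf_swap {a b : G} (ha : a ∈ Om D c q) (hb : b ∈ Om D c q) :
    ∃ e : T, (e = 1 ∨ e = γ) ∧ δ a * δ b = e * (δ b * δ a) := by
  rcases R.d4 a ha b hb with h1 | h1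
  · exact ⟨1, Or.inl rfl, by rw [h1, one_mul]⟩
  · exact ⟨γ, Or.inr rfl, h1⟩

omit [Finite G] in
theorem Rules.e_comm {e : T} (he : e = 1 ∨ e = γ) {a : G} (ha : a ∈ Om D c q) : e * δ a = δ a * e := by
  rcases he with rfl | rfl
  · rw [one_mul, mul_one]
  · exact R.gd a ha

omit [Finite G] in
theorem Rules.e_mul {e e' : T} (he : e = 1 ∨ e = γ) (he' : e' = 1 ∨ e' = γ) : e * e' = 1 ∨ e * e' = γ := by
  rcases he with rfl | rfl <;> rcases he' with rfl | rfl
  · left; rw [one_mul]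
  · right; rw [one_mul]
  · right; rw [mul_one]
  · left; exact R.gg

include U hL in
/-- three terms with equal consecutive labels -/
theorem Rules.nf_three_aux {a b d : G} (ha : a ∈ Om D c q) (hb : b ∈ Om D c q) (hd : d ∈ Om D c q)
    (hab : ¬ Commute a b) (hbd : ¬ Commute b d) (h1 : tt D c q L a b ≠ 0)
    (h3 : tt D c q L a b = tt D c q L b d) : NF D c q γ δ (δ a * δ b * δ d) := by
  obtain ⟨b1, hb1, hpr1, hLb1⟩ := hL.surj _ (U.pr_mem hb.1) (L b + tt D c q L a b)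
  obtain ⟨b2, hb2, hpr2, hLb2⟩ := hL.surj _ (U.pr_mem hb.1) (L b - tt D c q L a b)
  have hab1 : ¬ Commute a b1 := by
    intro h4
    apply hab
    rw [← U.commute_pr_iff ha.1 hb.1, ← hpr1, U.commute_pr_iff ha.1 hb1.1]; exact h4
  have hbd2 : ¬ Commute b2 d := by
    intro h4
    apply hbd
    rw [← U.commute_pr_iff hb.1 hd.1, ← hpr2, U.commute_pr_iff hb2.1 hd.1]; exact h4
  have t1 : tl q a b1 := by
    rw [← hL.tt_eq_zero U ha hb1 hab1, tt_line hpr1, hLb1]; ring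
  have t2 : tl q b2 d := by
    rw [← hL.tt_eq_zero U hb2 hd hbd2, hL.tt_line' U hd hb hb2 hbd hpr2, hLb2, h3]; ring
  have n1 : b ≠ b1 := by
    rintro rfl
    apply h1
    have : L b + tt D c q L a b = L b + 0 := by rw [add_zero]; exact hLb1.symm
    exact add_left_cancel this
  have n2 : b ≠ b2 := by
    rintro rfl
    apply h1
    have : L b = L b - tt D c q L a b := hLb2
    exact (sub_eq_self.1 this.symm)
  have n3 : b1 ≠ b2 := by
    rintro rfl
    rw [hLb1] at hLb2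
    have h4 : tt D c q L a b + tt D c q L a b = 0 := by linear_combination hLb2
    have h5 : ∀ z : ZMod 3, z + z = 0 → z = 0 := by decide
    exact h1 (h5 _ h4)
  obtain ⟨w1, hw1, e1⟩ := R.d3 a ha b1 hb1 t1
  obtain ⟨w2, hw2, e2⟩ := R.d3 b2 hb2 d hd t2
  have h6 : δ a * δ b * δ d = γ * (δ w1 * δ w2) := by
    rw [R.d5 b hb b1 hb1 b2 hb2 hpr1 hpr2 n1 n2 n3, ← e1, ← e2]
    calc δ a * (γ * δ b1 * δ b2) * δ d = (δ a * γ) * (δ b1 * δ b2 * δ d) := by group
      _ = (γ * δ a) * (δ b1 * δ b2 * δ d) := by rw [R.gd a ha]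
      _ = _ := by group
  rw [h6]
  exact R.nf_gamma (R.nf_two hw1 hw2)

include U hL in
theorem Rules.nf_three {a b d : G} (ha : a ∈ Om D c q) (hb : b ∈ Om D c q) (hd : d ∈ Om D c q) :
    NF D c q γ δ (δ a * δ b * δ d) := by
  -- left pair mergeable
  have left : ∀ a b d : G, a ∈ Om D c q → b ∈ Om D c q → d ∈ Om D c q → (Commute a b ∨ tl q a b) →
      NF D c q γ δ (δ a * δ b * δ d) := by
    intro a b d ha hb hd h1
    by_cases hab : a = b
    · rw [hab, R.d1 b hb, one_mul]; exact nf_one' R hd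
    rcases h1 with h1 | h1
    · obtain ⟨w, hw, h2⟩ := R.d2 a ha b hb hab h1
      rw [h2, mul_assoc]; exact R.nf_gamma (R.nf_two hw hd)
    · obtain ⟨w, hw, h2⟩ := R.d3 a ha b hb h1
      rw [h2]; exact R.nf_two hw hd
  -- rotation
  have rot : ∀ a b d : G, a ∈ Om D c q → b ∈ Om D c q → d ∈ Om D c q → NF D c q γ δ (δ b * δ d * δ a) →
      NF D c q γ δ (δ a * δ b * δ d) := by
    intro a b d ha hb hd h1
    obtain ⟨e, he, h2⟩ := R.nf_swap ha hb
    obtain ⟨e', he', h3⟩ := R.nf_swap ha hd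
    have h4 : δ a * δ b * δ d = (e * e') * (δ b * δ d * δ a) := by
      rw [h2]
      calc e * (δ b * δ a) * δ d = e * δ b * (δ a * δ d) := by group
        _ = e * δ b * (e' * (δ d * δ a)) := by rw [h3]
        _ = e * (δ b * e') * (δ d * δ a) := by group
        _ = e * (e' * δ b) * (δ d * δ a) := by rw [R.e_comm he' hb]
        _ = _ := by group
    rw [h4]
    exact R.nf_e (R.e_mul he he') h1
  by_cases c1 : Commute a b ∨ tl q a b
  · exact left a b d ha hb hd c1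
  by_cases c2 : Commute b d ∨ tl q b d
  · exact rot a b d ha hb hd (left b d a hb hd ha c2)
  by_cases c3 : Commute d a ∨ tl q d a
  · exact rot a b d ha hb hd (rot b d a hb hd ha (left d a b hd ha hb c3))
  rw [not_or] at c1 c2 c3
  have t1 : tt D c q L a b ≠ 0 := fun h1 => c1.2 ((hL.tt_eq_zero U ha hb c1.1).1 h1)
  have t2 : tt D c q L b d ≠ 0 := fun h1 => c2.2 ((hL.tt_eq_zero U hb hd c2.1).1 h1)
  have t3 : tt D c q L d a ≠ 0 := fun h1 => c3.2 ((hL.tt_eq_zero U hd ha c3.1).1 h1)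
  have pig : ∀ x y z : ZMod 3, x ≠ 0 → y ≠ 0 → z ≠ 0 → x = y ∨ y = z ∨ z = x := by decide
  rcases pig _ _ _ t1 t2 t3 with h1 | h1 | h1
  · exact R.nf_three_aux U hL ha hb hd c1.1 c2.1 t1 h1
  · exact rot a b d ha hb hd (R.nf_three_aux U hL hb hd ha c2.1 c3.1 t2 h1)
  · exact rot a b d ha hb hd (rot b d a hb hd ha (R.nf_three_aux U hL hd ha hb c3.1 c1.1 t3 h1))

include U hL in
theorem Rules.nf_mul {t : T} (ht : NF D c q γ δ t) {y : G} (hy : y ∈ Om D c q) : NF D c q γ δ (t * δ y) := by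
  obtain ⟨e, he, h1⟩ := ht
  rcases h1 with rfl | ⟨a, ha, rfl⟩ | ⟨a, ha, b, hb, h2, h3, rfl⟩
  · exact R.nf_e he (nf_one' R hy)
  · rw [mul_assoc]; exact R.nf_e he (R.nf_two ha hy)
  · rw [mul_assoc]; exact R.nf_e he (R.nf_three U hL ha hb hy)

include U hL in
/-- every element of the generated subgroup has a normal form -/
theorem Rules.nf_all {t : T} (ht : t ∈ Subgroup.closure (insert γ (δ '' Om D c q))) : NF D c q γ δ t := by
  have gcomm : ∀ t, NF D c q γ δ t → t * γ = γ * t := by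
    rintro t ⟨e, he, h1⟩
    have heg : e * γ = γ * e := by
      rcases he with rfl | rfl
      · rw [one_mul, mul_one]
      · rfl
    rcases h1 with rfl | ⟨a, ha, rfl⟩ | ⟨a, ha, b, hb, h2, h3, rfl⟩
    · exact heg
    · rw [mul_assoc, ← R.gd a ha, ← mul_assoc, heg, mul_assoc]
    · calc e * (δ a * δ b) * γ = e * δ a * (δ b * γ) := by group
        _ = e * δ a * (γ * δ b) := by rw [R.gd b hb]
        _ = e * (δ a * γ) * δ b := by group
        _ = e * (γ * δ a) * δ b := by rw [R.gd a ha]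
        _ = (e * γ) * (δ a * δ b) := by group
        _ = (γ * e) * (δ a * δ b) := by rw [heg]
        _ = _ := by group
  induction ht using Subgroup.closure_induction_right with
  | one => exact nf_id
  | mul_right t _ x hx ih =>
    rcases hx with rfl | ⟨y, hy, rfl⟩
    · rw [gcomm t ih]; exact R.nf_gamma ih
    · exact R.nf_mul U hL ih hy
  | mul_inv_cancel t _ x hx ih =>
    rcases hx with rfl | ⟨y, hy, rfl⟩
    · have h1 : x⁻¹ = x := inv_eq_of_mul_eq_one_left R.gg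
      rw [h1, gcomm t ih]; exact R.nf_gamma ih
    · have h1 : (δ y)⁻¹ = δ y := inv_eq_of_mul_eq_one_left (R.d1 y hy)
      rw [h1]; exact R.nf_mul U hL ih hy

end NF

end Cfsg.Agent.ThreeTransp
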