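import Cfsg.Agent.ThreeTransp.PolarSymp
/-!
The case of lines with five points: the radical group of a point (owner: helper8).
-/
set_option autoImplicit false
open Cfsg
open scoped Pointwise commutatorElement
namespace Cfsg.Agent.ThreeTransp

variable {G : Type*} [Group G] {D : Set G}

/-- products of two points of a line through `c` -/
def radGen (D : Set G) (c : G) : Set G := {g | ∃ a ∈ perp D c, ∃ b ∈ pl D c a, b ≠ c ∧ g = a * b}

/-- the radical group of `c` -/
def rad (D : Set G) (c : G) : Subgroup G := Subgroup.closure (insert c (radGen D c))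

theorem mem_rad_self (c : G) : c ∈ rad D c := Subgroup.subset_closure (Set.mem_insert _ _)

theorem mem_rad_of_mul {c a b : G} (ha : a ∈ perp D c) (hb : b ∈ pl D c a) (hbc : b ≠ c) : a * b ∈ rad D c :=
  Subgroup.subset_closure (Set.mem_insert_of_mem _ ⟨a, ha, b, hb, hbc, rfl⟩)

variable [Finite G] (h : VHyp D)
include h

omit [Finite G] in
theorem rad_commute {c r : G} (hc : c ∈ D) (hr : r ∈ rad D c) : Commute c r := by
  induction hr using Subgroup.closure_induction with
  | mem x hx =>
    rcases hx with rfl | ⟨a, ha, b, hb, hbc, rfl⟩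
    · exact Commute.refl _
    · exact ha.2.2.mul_right (pl_commute hc ha (h.left_mem hc) hb)
  | one => exact Commute.one_right _
  | mul a b _ _ ha hb => exact ha.mul_right hb
  | inv a _ ha => exact ha.inv_right

omit [Finite G] in
theorem rad_conj_self {c r : G} (hc : c ∈ D) (hr : r ∈ rad D c) : r * c * r⁻¹ = c := by
  rw [← (rad_commute h hc hr).eq]; group

omit [Finite G] in
theorem rad_perp {c r p : G} (hc : c ∈ D) (hr : r ∈ rad D c) (hp : p ∈ perp D c) : r * p * r⁻¹ ∈ perp D c := by
  have := perp_conj_mem h.conj r hp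
  rwa [rad_conj_self h hc hr] at this

/-- surjectivity of shifts -/
theorem VHyp.shift_surj {c x p p' : G} (hc : c ∈ D) (hx : x ∈ perp D c) (hp : p ∈ perp D c)
    (hpx : ¬ Commute p x) (hp' : p' ∈ pl D c p) (h1 : p' ≠ c) (h2 : p' ≠ p) :
    ∃ w ∈ pl D c x, w ≠ c ∧ w ≠ x ∧ (x * w) * p * (x * w)⁻¹ = p' := by
  have hcm := h.left_mem (a := x) hc
  have hxm := h.right_mem (d := c) hx.1
  have hxi := h.inv_eq hx.1
  have himg : (fun w => (x * w) * p * (x * w)⁻¹) '' (pl D c x \ {c, x}) = pl D c p \ {c, p} := by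
    apply Set.eq_of_subset_of_ncard_le _ _ (Set.toFinite _)
    · rintro _ ⟨w, ⟨hw, hw2⟩, rfl⟩
      rw [Set.mem_insert_iff, Set.mem_singleton_iff, not_or] at hw2
      obtain ⟨s1, s2, s3⟩ := h.shift hc hx hw hw2.1 hw2.2 hp hpx
      refine ⟨s1, ?_⟩
      rw [Set.mem_insert_iff, Set.mem_singleton_iff, not_or]
      exact ⟨s2, s3⟩
    · rw [Set.InjOn.ncard_image]
      · have h1 : ({c, x} : Set G) ⊆ pl D c x := by
          intro y hy
          rcases hy with rfl | hy
          · exact hcm
          · rw [Set.mem_singleton_iff.1 hy]; exact hxm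
        have h2 : ({c, p} : Set G) ⊆ pl D c p := by
          intro y hy
          rcases hy with rfl | hy
          · exact h.left_mem hc
          · rw [Set.mem_singleton_iff.1 hy]; exact h.right_mem hp.1
        rw [Set.ncard_sdiff h1 (Set.toFinite _), Set.ncard_sdiff h2 (Set.toFinite _), Set.ncard_pair hx.2.1.symm,
          Set.ncard_pair hp.2.1.symm, h.pl_ncard hc hx hc hp]
      · rintro w ⟨hw, hw2⟩ w' ⟨hw', hw2'⟩ heq
        rw [Set.mem_insert_iff, Set.mem_singleton_iff, not_or] at hw2 hw2'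
        by_contra hne
        simp only at heq
        have h1 : Commute p (w' * w) := by
          have hwi := h.inv_eq hw.1
          have hwi' := h.inv_eq hw'.1
          have h2 : w * p * w = w' * p * w' := by
            rw [mul_inv_rev, mul_inv_rev, hwi, hwi', hxi] at heq
            calc w * p * w = x⁻¹ * (x * w * p * (w * x)) * x⁻¹ := by group
              _ = x⁻¹ * (x * w' * p * (w' * x)) * x⁻¹ := by rw [heq]
              _ = _ := by group
          show p * (w' * w) = w' * w * p
          calc p * (w' * w) = (w' * w') * p * w' * w := by rw [h.mul_self hw'.1]; group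
            _ = w' * (w' * p * w') * w := by group
            _ = w' * (w * p * w) * w := by rw [h2]
            _ = w' * w * p * (w * w) := by group
            _ = _ := by rw [h.mul_self hw.1, mul_one]
        rw [commute_mul_two_iff h.cls.1 hw'.1 hw.1 hp.1 (fun h3 => hne h3.symm) (pl_commute hc hx hw' hw)] at h1
        exact hpx (h.commute_all hc hx hcm hw (fun h3 => hw2.1 h3.symm) hp.1 hp.2.2.symm h1.2 hxm)
  have : p' ∈ pl D c p \ {c, p} := by
    refine ⟨hp', ?_⟩
    rw [Set.mem_insert_iff, Set.mem_singleton_iff, not_or]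
    exact ⟨h1, h2⟩
  rw [← himg] at this
  obtain ⟨w, hw, hwp⟩ := this
  have hw2 := hw.2
  rw [Set.mem_insert_iff, Set.mem_singleton_iff, not_or] at hw2
  exact ⟨w, hw.1, hw2.1, hw2.2, hwp⟩

/-- a product of two points of a line through `c` maps every point to a point on the same line through `c` -/
theorem radGen_pl {c a b p : G} (hc : c ∈ D) (ha : a ∈ perp D c) (hb : b ∈ pl D c a) (hbc : b ≠ c)
    (hp : p ∈ perp D c) : (a * b) * p * (a * b)⁻¹ ∈ pl D c p ∧ (a * b) * p * (a * b)⁻¹ ≠ c := by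
  by_cases hba : b = a
  · have h1 : a * b = 1 := by rw [hba]; exact h.mul_self ha.1
    rw [h1, one_mul, inv_one, mul_one]
    exact ⟨h.right_mem hp.1, hp.2.1⟩
  by_cases hpa : Commute p a
  · have hpb : Commute p b := h.commute_all hc ha (h.left_mem hc) (h.right_mem ha.1) ha.2.1.symm hp.1 hp.2.2.symm hpa hb
    have h1 : (a * b) * p * (a * b)⁻¹ = p := by rw [← (hpa.mul_right hpb).eq]; group
    rw [h1]
    exact ⟨h.right_mem hp.1, hp.2.1⟩
  · obtain ⟨s1, s2, _⟩ := h.shift hc ha hb hbc hba hp hpa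
    exact ⟨s1, s2⟩

theorem rad_pl {c r : G} (hc : c ∈ D) (hr : r ∈ rad D c) : ∀ p ∈ perp D c, r * p * r⁻¹ ∈ pl D c p := by
  induction hr using Subgroup.closure_induction with
  | mem x hx =>
    intro p hp
    rcases hx with rfl | ⟨a, ha, b, hb, hbc, rfl⟩
    · have h1 : x * p * x⁻¹ = p := by rw [hp.2.2.eq]; group
      rw [h1]; exact h.right_mem hp.1
    · exact (radGen_pl h hc ha hb hbc hp).1
  | one => intro p hp; rw [one_mul, inv_one, mul_one]; exact h.right_mem hp.1
  | mul a b ha' hb' ha hb =>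
    intro p hp
    have h1 := rad_perp h hc hb' hp
    have h2 := ha _ h1
    rw [h.pl_eq_left hc hp (hb p hp) h1.2.1] at h2
    have e1 : a * b * p * (a * b)⁻¹ = a * (b * p * b⁻¹) * a⁻¹ := by group
    rwa [e1]
  | inv a ha' ha =>
    intro p hp
    have h1 := rad_perp h hc (inv_mem ha') hp
    have h2 := ha _ h1
    have e1 : a * (a⁻¹ * p * a⁻¹⁻¹) * a⁻¹ = p := by group
    rw [e1] at h2
    rw [h.pl_eq_left hc h1 h2 hp.2.1]
    exact h.right_mem h1.1

theorem radGen_comm {c a b a' b' : G} (hc : c ∈ D) (ha : a ∈ perp D c) (hb : b ∈ pl D c a) (hbc : b ≠ c)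
    (ha' : a' ∈ perp D c) (hb' : b' ∈ pl D c a') (hbc' : b' ≠ c) :
    (a * b) * (a' * b') * (a * b)⁻¹ = a' * b' ∨ (a * b) * (a' * b') * (a * b)⁻¹ = c * (a' * b') := by
  by_cases hba : b = a
  · left
    have h1 : a * b = 1 := by rw [hba]; exact h.mul_self ha.1
    rw [h1]; group
  by_cases hba' : b' = a'
  · left
    have h1 : a' * b' = 1 := by rw [hba']; exact h.mul_self ha'.1
    rw [h1]; group
  have hcm := h.left_mem (a := a) hc
  have ham := h.right_mem (d := c) ha.1
  have hcm' := h.left_mem (a := a') hc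
  have ham' := h.right_mem (d := c) ha'.1
  by_cases hpa : Commute a' a
  · left
    have h1 : Commute a' b := h.commute_all hc ha hcm ham ha.2.1.symm ha'.1 ha'.2.2.symm hpa hb
    have h2 : Commute a b' := h.commute_all hc ha' hcm' ham' ha'.2.1.symm ha.1 ha.2.2.symm hpa.symm hb'
    have h3 : Commute b b' := h.commute_all hc ha' hcm' ham' ha'.2.1.symm hb.1
      (pl_commute hc ha hb hcm) h1.symm hb'
    have h4 : Commute (a' * b') (a * b) := (hpa.mul_right h1).mul_left (h2.symm.mul_right h3.symm)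
    rw [← h4.eq]; group
  · have hpb' : ¬ Commute b' a := fun h1 => hpa (h.commute_all hc ha' hcm' hb' hbc'.symm ha.1 ha.2.2.symm h1.symm
      ham').symm
    have hbp' : b' ∈ perp D c := h.mem_perp_of_pl hc ha' hb' hbc'
    have hl : pl D c b' = pl D c a' := h.pl_eq_left hc ha' hb' hbc'
    have hab : Commute a b := pl_commute hc ha ham hb
    obtain ⟨s1, s2, s3⟩ := h.shift hc ha hb hbc hba ha' hpa
    obtain ⟨t1, t2, t3⟩ := h.shift hc ha hb hbc hba hbp' hpb'
    rw [hl] at t1
    set g := a * b with hg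
    have hgg : g * g = 1 := by
      rw [hg]
      calc a * b * (a * b) = a * (b * a) * b := by group
        _ = a * (a * b) * b := by rw [hab.eq]
        _ = (a * a) * (b * b) := by group
        _ = 1 := by rw [h.mul_self ha.1, h.mul_self hb.1, one_mul]
    have hinv : ∀ y z : G, g * y * g⁻¹ = z → g * z * g⁻¹ = y := by
      intro y z hyz
      rw [← hyz]
      calc g * (g * y * g⁻¹) * g⁻¹ = (g * g) * y * (g * g)⁻¹ := by group
        _ = y := by rw [hgg]; group
    have hsplit : g * (a' * b') * g⁻¹ = (g * a' * g⁻¹) * (g * b' * g⁻¹) := by group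
    rw [hsplit]
    have hcomm' : Commute a' b' := pl_commute hc ha' ham' hb'
    by_cases hu : g * a' * g⁻¹ = b'
    · left
      rw [hu, hinv _ _ hu]
      exact hcomm'.eq.symm
    · right
      set u := g * a' * g⁻¹ with hu'
      set w := g * b' * g⁻¹ with hw'
      have hwa : w ≠ a' := fun h1 => hu (hinv b' a' h1)
      have hwu : w ≠ u := fun h1 => hba' (mul_left_cancel (mul_right_cancel h1))
      have hprod := h.prod_five hc ha' hcm' ham' hb' s1 t1 ha'.2.1.symm hbc'.symm s2.symm
        (fun h1 => hba' h1.symm) s3.symm (fun h1 => hu h1.symm) t2 hwa t3 hwu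
      -- c a' b' u w = 1
      have h1 : u * w = (c * a' * b')⁻¹ := by
        rw [eq_inv_iff_mul_eq_one]
        have h2 : (c * a' * b') * (u * w) = 1 := by rw [← hprod]; group
        exact mul_eq_one_comm.1 h2
      rw [h1, mul_inv_rev, mul_inv_rev, h.inv_eq hc, h.inv_eq ha'.1, h.inv_eq hb'.1]
      have c1 : Commute c b' := pl_commute hc ha' hcm' hb'
      calc b' * (a' * c) = b' * (c * a') := by rw [ha'.2.2.eq]
        _ = (b' * c) * a' := by group
        _ = (c * b') * a' := by rw [c1.eq]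
        _ = c * (b' * a') := by group
        _ = c * (a' * b') := by rw [hcomm'.eq]

theorem rad_comm {c r s : G} (hc : c ∈ D) (hr : r ∈ rad D c) (hs : s ∈ rad D c) :
    r * s * r⁻¹ = s ∨ r * s * r⁻¹ = c * s := by
  have hcc := h.mul_self hc
  -- step 1: r, s generators
  have step1 : ∀ r ∈ insert c (radGen D c), ∀ s ∈ insert c (radGen D c), r * s * r⁻¹ = s ∨ r * s * r⁻¹ = c * s := by
    rintro r (rfl | ⟨a, ha, b, hb, hbc, rfl⟩) s (rfl | ⟨a', ha', b', hb', hbc', rfl⟩)
    · left; group
    · left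
      have h1 : Commute r (a' * b') := ha'.2.2.mul_right (pl_commute hc ha' (h.left_mem hc) hb')
      rw [h1.eq]; group
    · left
      have h1 : Commute s (a * b) := ha.2.2.mul_right (pl_commute hc ha (h.left_mem hc) hb)
      rw [← h1.eq]; group
    · exact radGen_comm h hc ha hb hbc ha' hb' hbc'
  have step2 : ∀ s ∈ insert c (radGen D c), r * s * r⁻¹ = s ∨ r * s * r⁻¹ = c * s := by
    intro s hs
    have hcs : ∀ r ∈ rad D c, r * (c * s) * r⁻¹ = c * (r * s * r⁻¹) := by
      intro r hr
      have h1 := rad_conj_self h hc hr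
      calc r * (c * s) * r⁻¹ = (r * c * r⁻¹) * (r * s * r⁻¹) := by group
        _ = _ := by rw [h1]
    induction hr using Subgroup.closure_induction with
    | mem x hx => exact step1 x hx s hs
    | one => left; group
    | mul a b ha' hb' ha hb =>
      have e1 : a * b * s * (a * b)⁻¹ = a * (b * s * b⁻¹) * a⁻¹ := by group
      rw [e1]
      rcases hb with h1 | h1 <;> rcases ha with h2 | h2
      · left; rw [h1, h2]
      · right; rw [h1, h2]
      · right; rw [h1, hcs a ha', h2]
      · left; rw [h1, hcs a ha', h2, ← mul_assoc, hcc, one_mul]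
    | inv a ha' ha =>
      rcases ha with h1 | h1
      · left
        nth_rewrite 1 [← h1]; group
      · right
        have h2 : s = c * (a⁻¹ * s * a⁻¹⁻¹) := by
          rw [← hcs a⁻¹ (inv_mem ha'), ← h1]; group
        calc a⁻¹ * s * a⁻¹⁻¹ = (c * c) * (a⁻¹ * s * a⁻¹⁻¹) := by rw [hcc, one_mul]
          _ = c * (c * (a⁻¹ * s * a⁻¹⁻¹)) := by group
          _ = c * s := by rw [← h2]
  induction hs using Subgroup.closure_induction with
  | mem x hx => exact step2 x hx
  | one => left; group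
  | mul a b ha' hb' ha hb =>
    have e1 : r * (a * b) * r⁻¹ = (r * a * r⁻¹) * (r * b * r⁻¹) := by group
    have hca : c * a = a * c := (rad_commute h hc ha').eq
    rw [e1]
    rcases ha with h1 | h1 <;> rcases hb with h2 | h2
    · left; rw [h1, h2]
    · right; rw [h1, h2, ← mul_assoc, ← hca, mul_assoc]
    · right; rw [h1, h2, mul_assoc]
    · left
      rw [h1, h2]
      calc c * a * (c * b) = c * (a * c) * b := by group
        _ = c * (c * a) * b := by rw [hca]
        _ = (c * c) * (a * b) := by group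
        _ = a * b := by rw [hcc, one_mul]
  | inv a ha' ha =>
    have e1 : r * a⁻¹ * r⁻¹ = (r * a * r⁻¹)⁻¹ := by group
    rw [e1]
    rcases ha with h1 | h1
    · left; rw [h1]
    · right
      rw [h1, mul_inv_rev, h.inv_eq hc]
      have hca := (rad_commute h hc ha').inv_right
      exact hca.eq.symm

theorem rad_fix {c r p w : G} (hc : c ∈ D) (hr : r ∈ rad D c) (hp : p ∈ perp D c) (hrp : Commute r p)
    (hw : w ∈ pl D c p) : Commute r w := by
  by_cases hwc : w = c
  · rw [hwc]; exact (rad_commute h hc hr).symm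
  have hwp : w ∈ perp D c := h.mem_perp_of_pl hc hp hw hwc
  have hline := h.pl_eq_left hc hp hw hwc
  have h1 : r * p * r⁻¹ = p := by rw [hrp.eq]; group
  have h2 : r * (p * w) * r⁻¹ = p * (r * w * r⁻¹) := by
    calc r * (p * w) * r⁻¹ = (r * p * r⁻¹) * (r * w * r⁻¹) := by group
      _ = _ := by rw [h1]
  have h4 : r * w * r⁻¹ = w := by
    rcases rad_comm h hc hr (mem_rad_of_mul hp hw hwc) with h3 | h3
    · rw [h2] at h3
      exact mul_left_cancel h3
    · exfalso
      rw [h2] at h3
      have h6 : r * w * r⁻¹ = c * w := by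
        have hcp := hp.2.2
        have : p * (r * w * r⁻¹) = p * (c * w) := by
          rw [h3, ← mul_assoc, ← mul_assoc, hcp.eq]
        exact mul_left_cancel this
      have h7 := rad_pl h hc hr w hwp
      rw [h6, hline] at h7
      have hcw : Commute c w := hwp.2.2
      apply h.three_ne hc hp (h.left_mem hc) hw h7 (fun h8 => hwc h8.symm) (u := c * w)
      · intro h8
        exact ne_one h.cls.1 hc (mul_eq_right.1 h8.symm)
      · calc c * w * (c * w) = c * (w * c) * w := by group
          _ = c * (c * w) * w := by rw [hcw.eq]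
          _ = (c * c) * (w * w) := by group
          _ = 1 := by rw [h.mul_self hc, h.mul_self hw.1, one_mul]
  show r * w = w * r
  nth_rewrite 2 [← h4]; group

/-- an element of the radical group commuting with all points of lines through `c` meeting ... -/
theorem rad_eq_one {c q r : G} (hc : c ∈ D) (hq : q ∈ D) (hqc : ¬ Commute q c) (hr : r ∈ rad D c)
    (hrq : Commute r q) : r = 1 := by
  apply h.eq_one hc hq (fun h1 => hqc h1.symm)
  · intro y hy hcy
    by_cases hyc : y = c
    · rw [hyc]; exact rad_commute h hc hr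
    have hyp : y ∈ perp D c := ⟨hy, hyc, hcy⟩
    obtain ⟨x, hx, hqx⟩ := h.exists_mem_commute hc hyp hq
    have hxc : x ≠ c := by rintro rfl; exact hqc hqx
    have hxp : x ∈ perp D c := h.mem_perp_of_pl hc hyp hx hxc
    have hline := h.pl_eq_left hc hyp hx hxc
    have h1 := rad_pl h hc hr x hxp
    have h2 : Commute q (r * x * r⁻¹) := by
      have h3 : r * q * r⁻¹ = q := by rw [hrq.eq]; group
      nth_rewrite 1 [← h3]
      exact (commute_conj_iff r).2 hqx
    have h3 := h.unique hc hxp hq hqc h1 (h.right_mem hxp.1) h2 hqx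
    have h4 : Commute r x := by
      show r * x = x * r
      nth_rewrite 2 [← h3]; group
    exact (rad_fix h hc hr hxp h4 (by rw [hline]; exact h.right_mem hy)).symm
  · exact hrq.symm

theorem rad_inj {c q r s : G} (hc : c ∈ D) (hq : q ∈ D) (hqc : ¬ Commute q c) (hr : r ∈ rad D c) (hs : s ∈ rad D c)
    (hrs : r * q * r⁻¹ = s * q * s⁻¹) : r = s := by
  have h1 : s⁻¹ * r = 1 := by
    apply rad_eq_one h hc hq hqc (mul_mem (inv_mem hs) hr)
    show s⁻¹ * r * q = q * (s⁻¹ * r)
    calc s⁻¹ * r * q = s⁻¹ * (r * q * r⁻¹) * r := by group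
      _ = s⁻¹ * (s * q * s⁻¹) * r := by rw [hrs]
      _ = _ := by group
  exact (inv_mul_eq_one.1 h1).symm

/-- commuting members not commuting with `c` are conjugate by an explicit element -/
theorem exists_rad_commuting {c z z' : G} (hc : c ∈ D) (hz : z ∈ D) (hz' : z' ∈ D) (hzc : ¬ Commute z c)
    (hzc' : ¬ Commute z' c) (hne : z ≠ z') (hzz : Commute z z') : ∃ x ∈ perp D c, ∃ y ∈ pl D c x, y ≠ c ∧ y ≠ x ∧
      Commute z x ∧ (c * (x * y)) * z * (c * (x * y))⁻¹ = z' := by
  have hz'p : z' ∈ perp D z := ⟨hz', hne.symm, hzz⟩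
  obtain ⟨x, hx, hcx⟩ := h.exists_mem_commute hz hz'p hc
  have hxz : x ≠ z := by rintro rfl; exact hzc hcx.symm
  have hxz' : x ≠ z' := by rintro rfl; exact hzc' hcx.symm
  have hxc : x ≠ c := by
    rintro rfl
    exact hzc (pl_commute hz hz'p (h.left_mem hz) hx)
  have hxp : x ∈ perp D z := h.mem_perp_of_pl hz hz'p hx hxz
  have hxcp : x ∈ perp D c := ⟨hx.1, hxc, hcx⟩
  have hline : pl D z x = pl D z z' := h.pl_eq_left hz hz'p hx hxz
  have hz'l : z' ∈ pl D x z := by
    rw [pl_symm, hline]; exact h.right_mem hz'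
  obtain ⟨w, hw, hwx, hwc, hw2⟩ := h.shift_surj (c := x) (x := c) (p := z) (p' := z') hx.1 (perp_symm' hc hxcp)
    (perp_symm' hz hxp) hzc hz'l (fun h1 => hxz' h1.symm) hne.symm
  rw [pl_symm] at hw
  refine ⟨x, hxcp, w, hw, hwc, hwx, hxp.2.2, ?_⟩
  have cx := hcx
  have cw : Commute c w := pl_commute hc hxcp (h.left_mem hc) hw
  have xw : Commute x w := pl_commute hc hxcp (h.right_mem hx.1) hw
  have e1 : c * (x * w) = (c * w) * x := by
    calc c * (x * w) = c * (w * x) := by rw [xw.eq]
      _ = _ := by group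
  have e2 : x * z * x⁻¹ = z := by rw [← hxp.2.2.eq]; group
  rw [e1]
  calc c * w * x * z * (c * w * x)⁻¹ = (c * w) * (x * z * x⁻¹) * (c * w)⁻¹ := by group
    _ = z' := by rw [e2, hw2]

theorem rad_trans_commuting {c z z' : G} (hc : c ∈ D) (hz : z ∈ D) (hz' : z' ∈ D) (hzc : ¬ Commute z c)
    (hzc' : ¬ Commute z' c) (hzz : Commute z z') : ∃ r ∈ rad D c, r * z * r⁻¹ = z' := by
  by_cases hne : z = z'
  · exact ⟨1, one_mem _, by rw [← hne]; group⟩
  obtain ⟨x, hx, y, hy, hyc, _, _, he⟩ := exists_rad_commuting h hc hz hz' hzc hzc' hne hzz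
  exact ⟨c * (x * y), mul_mem (mem_rad_self c) (mem_rad_of_mul hx hy hyc), he⟩

theorem rad_transitive {c z z' : G} (hc : c ∈ D) (hz : z ∈ D) (hz' : z' ∈ D) (hzc : ¬ Commute z c)
    (hzc' : ¬ Commute z' c) : ∃ r ∈ rad D c, r * z * r⁻¹ = z' := by
  have htrans : ∀ u v w : G, (∃ r ∈ rad D c, r * u * r⁻¹ = v) → (∃ r ∈ rad D c, r * v * r⁻¹ = w) →
      ∃ r ∈ rad D c, r * u * r⁻¹ = w := by
    rintro u v w ⟨r, hr, h1⟩ ⟨s, hs, h2⟩
    exact ⟨s * r, mul_mem hs hr, by rw [← h2, ← h1]; group⟩
  have two : ∀ u ∈ D, ∀ v ∈ D, ¬ Commute u c → ¬ Commute v c → (∃ w ∈ cc D u v, ¬ Commute w c) →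
      ∃ r ∈ rad D c, r * u * r⁻¹ = v := by
    rintro u hu v hv huc hvc ⟨w, hw, hwc⟩
    exact htrans u w v (rad_trans_commuting h hc hu hw.1 huc hwc hw.2.1.symm)
      (rad_trans_commuting h hc hw.1 hv hwc hvc hw.2.2)
  by_cases hzz : Commute z z'
  · exact rad_trans_commuting h hc hz hz' hzc hzc' hzz
  by_cases hex : ∃ w ∈ cc D z z', ¬ Commute w c
  · exact two z hz z' hz' hzc hzc' hex
  push Not at hex
  obtain ⟨a, ha⟩ := h.exists_perp hz'
  -- a point of the line other than z' not commuting with c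
  obtain ⟨z2, hz2, hz2z, hz2c⟩ : ∃ z2 ∈ pl D z' a, z2 ≠ z' ∧ ¬ Commute z2 c := by
    obtain ⟨v, hv, hvz, hva⟩ := h.exists_third hz' ha
    by_cases hvc : Commute v c
    · refine ⟨a, h.right_mem ha.1, ha.2.1, fun hac => ?_⟩
      exact hzc' (h.commute_all hz' ha hv (h.right_mem ha.1) hva hc hvc.symm hac.symm (h.left_mem hz')).symm
    · exact ⟨v, hv, hvz, hvc⟩
  have hz2p : z2 ∈ perp D z' := h.mem_perp_of_pl hz' ha hz2 hz2z
  have hlast := rad_trans_commuting h hc hz2.1 hz' hz2c hzc' hz2p.2.2.symm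
  by_cases h1 : Commute z z2
  · exact htrans z z2 z' (rad_trans_commuting h hc hz hz2.1 hzc hz2c h1) hlast
  by_cases h2 : ∃ w ∈ cc D z z2, ¬ Commute w c
  · exact htrans z z2 z' (two z hz z2 hz2.1 hzc hz2c h2) hlast
  push Not at h2
  exfalso
  have e1 : cc D z z' = cc D z c := h.cc_eq_of_subset hz hz' hzz hz hc hzc
    (fun y hy => ⟨hy.1, hy.2.1, hex y hy⟩)
  have e2 : cc D z z2 = cc D z c := h.cc_eq_of_subset hz hz2.1 h1 hz hc hzc
    (fun y hy => ⟨hy.1, hy.2.1, h2 y hy⟩)
  obtain ⟨y, hy, hzy⟩ := h.exists_mem_commute hz' hz2p hz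
  have hyz : y = z := by
    apply h.eq_of_cc hz hz' hzz hy.1 hzy
    intro w hw
    have hw2 : w ∈ cc D z z2 := by rw [e2, ← e1]; exact hw
    exact h.commute_all hz' hz2p (h.left_mem hz') (h.right_mem hz2.1) (fun h3 => hz2z h3.symm) hw.1 hw.2.2 hw2.2.2 hy
  rw [hyz] at hy
  exact hzz (pl_commute hz' hz2p (h.left_mem hz') hy).symm

end Cfsg.Agent.ThreeTransp
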