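import Cfsg.Agent.ThreeTransp.PolarRad
import Cfsg.Agent.ThreeTransp.Planes
/-!
The case of lines with five points: the elements `rho y` of the radical group (owner: helper8).
-/
set_option autoImplicit false
open Cfsg
open scoped Pointwise commutatorElement
namespace Cfsg.Agent.ThreeTransp

variable {G : Type*} [Group G] {D : Set G}

/-- the base data -/
structure UData (D : Set G) (c q : G) : Prop where
  h : VHyp D
  h5 : ∀ c ∈ D, ∀ x ∈ perp D c, (pl D c x).ncard = 5
  hc : c ∈ D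
  hq : q ∈ D
  qc : ¬ Commute q c

/-- members `≠ c` commuting with `c` and not with `q` -/
def Om (D : Set G) (c q : G) : Set G := {y | y ∈ perp D c ∧ ¬ Commute q y}

/-- members commuting with `c` and `q` -/
def Dp (D : Set G) (c q : G) : Set G := {x | x ∈ perp D c ∧ Commute q x}

open Classical in
/-- the point of the line through `c` and `y` commuting with `q` -/
noncomputable def pr (D : Set G) (c q y : G) : G :=
  if h : ∃ v, v ∈ pl D c y ∧ Commute q v then h.choose else 1

/-- the element of the radical group -/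
noncomputable def rho (D : Set G) (c q y : G) : G := pr D c q y * y

/-- `y` and `y'` do not commute and the third member commutes with `q` -/
def tl (q y y' : G) : Prop := ¬ Commute y y' ∧ Commute q (y * y' * y)

theorem NinePts.word {p a b : G} (h : NinePts p a b) :
    ((p * a * p) * (p * b * p) * (p * a * p)) * (a * b * a) * ((p * a * p) * (p * b * p) * (p * a * p)) = p := by
  have h1 : p * a * p = npt p a b ![2, 0] := rfl
  have h2 : p * b * p = npt p a b ![0, 2] := rfl
  have h3 : a * b * a = npt p a b ![2, 2] := rfl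
  rw [h1, h2, h3, h.conj, h.conj]
  have h4 : -(-![2, 0] - ![0, 2]) - (![2, 2] : Fin 2 → ZMod 3) = ![0, 0] := by decide
  rw [h4]; rfl

variable [Finite G] {c q : G} (U : UData D c q)
include U

theorem UData.pr_spec {y : G} (hy : y ∈ perp D c) : pr D c q y ∈ pl D c y ∧ Commute q (pr D c q y) := by
  have hex := U.h.exists_mem_commute U.hc hy U.hq
  obtain ⟨v, hv, hqv⟩ := hex
  have h1 : ∃ v, v ∈ pl D c y ∧ Commute q v := ⟨v, hv, hqv⟩
  rw [pr, dif_pos h1]
  exact h1.choose_spec

theorem UData.pr_ne {y : G} (hy : y ∈ perp D c) : pr D c q y ≠ c := by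
  intro h1
  have := (U.pr_spec hy).2
  rw [h1] at this
  exact U.qc this

theorem UData.pr_mem {y : G} (hy : y ∈ perp D c) : pr D c q y ∈ Dp D c q :=
  ⟨U.h.mem_perp_of_pl U.hc hy (U.pr_spec hy).1 (U.pr_ne hy), (U.pr_spec hy).2⟩

theorem UData.pr_line {y : G} (hy : y ∈ perp D c) : pl D c (pr D c q y) = pl D c y :=
  U.h.pl_eq_left U.hc hy (U.pr_spec hy).1 (U.pr_ne hy)

theorem UData.mem_pl_pr {y : G} (hy : y ∈ perp D c) : y ∈ pl D c (pr D c q y) := by
  rw [U.pr_line hy]; exact U.h.right_mem hy.1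

theorem UData.pr_unique {y v : G} (hy : y ∈ perp D c) (hv : v ∈ pl D c y) (hqv : Commute q v) : v = pr D c q y :=
  U.h.unique U.hc hy U.hq U.qc hv (U.pr_spec hy).1 hqv (U.pr_spec hy).2

theorem UData.pr_of_mem {y v : G} (hy : y ∈ perp D c) (hv : v ∈ pl D c y) (hvc : v ≠ c) :
    pr D c q v = pr D c q y := by
  have hvp : v ∈ perp D c := U.h.mem_perp_of_pl U.hc hy hv hvc
  apply U.pr_unique hy _ (U.pr_spec hvp).2
  rw [← U.h.pl_eq_left U.hc hy hv hvc]
  exact (U.pr_spec hvp).1

theorem UData.pr_self {x : G} (hx : x ∈ Dp D c q) : pr D c q x = x :=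
  (U.pr_unique hx.1 (U.h.right_mem hx.1.1) hx.2).symm

theorem UData.pr_ne_self {y : G} (hy : y ∈ Om D c q) : pr D c q y ≠ y := by
  intro h1
  have := (U.pr_spec hy.1).2
  rw [h1] at this
  exact hy.2 this

theorem UData.pr_commute {y : G} (hy : y ∈ perp D c) : Commute (pr D c q y) y :=
  pl_commute U.hc hy (U.pr_spec hy).1 (U.h.right_mem hy.1)

/-- members on lines with commuting members commute -/
theorem UData.commute_line {y y' v w : G} (hy : y ∈ perp D c) (hy' : y' ∈ perp D c) (hyy : Commute y y')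
    (hv : v ∈ pl D c y) (hw : w ∈ pl D c y') : Commute v w := by
  have h1 : Commute y' v := U.h.commute_all U.hc hy (U.h.left_mem U.hc) (U.h.right_mem hy.1) hy.2.1.symm hy'.1
    hy'.2.2.symm hyy.symm hv
  exact U.h.commute_all U.hc hy' (U.h.left_mem U.hc) (U.h.right_mem hy'.1) hy'.2.1.symm hv.1
    (pl_commute U.hc hy hv (U.h.left_mem U.hc)) h1.symm hw

theorem UData.commute_line_iff {y y' v w : G} (hy : y ∈ perp D c) (hy' : y' ∈ perp D c)
    (hv : v ∈ pl D c y) (hw : w ∈ pl D c y') (hvc : v ≠ c) (hwc : w ≠ c) : Commute v w ↔ Commute y y' := by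
  constructor
  · intro h1
    apply U.commute_line (U.h.mem_perp_of_pl U.hc hy hv hvc) (U.h.mem_perp_of_pl U.hc hy' hw hwc) h1
    · rw [U.h.pl_eq_left U.hc hy hv hvc]; exact U.h.right_mem hy.1
    · rw [U.h.pl_eq_left U.hc hy' hw hwc]; exact U.h.right_mem hy'.1
  · intro h1; exact U.commute_line hy hy' h1 hv hw

theorem UData.commute_pr_iff {y y' : G} (hy : y ∈ perp D c) (hy' : y' ∈ perp D c) :
    Commute (pr D c q y) (pr D c q y') ↔ Commute y y' :=
  U.commute_line_iff hy hy' (U.pr_spec hy).1 (U.pr_spec hy').1 (U.pr_ne hy) (U.pr_ne hy')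

theorem UData.rho_mem {y : G} (hy : y ∈ perp D c) : rho D c q y ∈ rad D c :=
  mem_rad_of_mul (U.pr_mem hy).1 (U.mem_pl_pr hy) hy.2.1

theorem UData.rho_mul_self {y : G} (hy : y ∈ perp D c) : rho D c q y * rho D c q y = 1 := by
  unfold rho
  have h1 := U.pr_commute hy
  calc pr D c q y * y * (pr D c q y * y) = pr D c q y * (y * pr D c q y) * y := by group
    _ = pr D c q y * (pr D c q y * y) * y := by rw [h1.eq]
    _ = (pr D c q y * pr D c q y) * (y * y) := by group
    _ = 1 := by rw [U.h.mul_self (U.pr_mem hy).1.1, U.h.mul_self hy.1, one_mul]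

theorem UData.rho_inv {y : G} (hy : y ∈ perp D c) : (rho D c q y)⁻¹ = rho D c q y :=
  inv_eq_of_mul_eq_one_left (U.rho_mul_self hy)

theorem UData.rho_conj_q {y : G} (hy : y ∈ perp D c) : rho D c q y * q * (rho D c q y)⁻¹ = y * q * y := by
  have h1 := U.pr_commute hy
  have h2 := (U.pr_spec hy).2
  have h3 : rho D c q y = y * pr D c q y := h1.eq
  rw [h3, mul_inv_rev, U.h.inv_eq hy.1]
  calc y * pr D c q y * q * ((pr D c q y)⁻¹ * y) = y * (pr D c q y * q * (pr D c q y)⁻¹) * y := by group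
    _ = y * q * y := by rw [← h2.eq]; group

/-- commuting with `c` and in the third position -/
theorem UData.eq_rho {r : G} (hr : r ∈ rad D c) (hnc : ¬ Commute q (r * q * r⁻¹))
    (ht : Commute c (q * (r * q * r⁻¹) * q)) (htc : q * (r * q * r⁻¹) * q ≠ c) :
    q * (r * q * r⁻¹) * q ∈ Om D c q ∧ r = rho D c q (q * (r * q * r⁻¹) * q) := by
  have hqq := U.h.mul_self U.hq
  have hrqD : r * q * r⁻¹ ∈ D := U.h.conj r q U.hq
  set t := q * (r * q * r⁻¹) * q with htd
  have htD : t ∈ D := U.h.conj3 U.hq hrqD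
  have htp : t ∈ perp D c := ⟨htD, htc, ht⟩
  have hqt : ¬ Commute q t := by
    intro h1
    apply hnc
    rw [← cj hqq, hqq, one_mul]
    exact h1
  refine ⟨⟨htp, hqt⟩, ?_⟩
  apply rad_inj U.h U.hc U.hq U.qc hr (U.rho_mem htp)
  rw [U.rho_conj_q htp]
  -- r q r⁻¹ = t q t
  have h1 : t * q * t = q * t * q := (braid U.h.cls.1 U.hq htD hqt).symm
  rw [h1, htd, ThreeTrans.conj_cancel hqq]

theorem UData.eq_c {r : G} (hr : r ∈ rad D c) (htc : q * (r * q * r⁻¹) * q = c) : r = c := by
  have hqq := U.h.mul_self U.hq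
  apply rad_inj U.h U.hc U.hq U.qc hr (mem_rad_self c)
  rw [U.h.inv_eq U.hc, ← braid U.h.cls.1 U.hq U.hc U.qc, ← htc, ThreeTrans.conj_cancel hqq]

theorem UData.rho_ne_one {y : G} (hy : y ∈ Om D c q) : rho D c q y ≠ 1 := by
  intro h1
  apply U.pr_ne_self hy
  have h2 : pr D c q y = y⁻¹ := mul_eq_one_iff_eq_inv.1 h1
  rw [h2, U.h.inv_eq hy.1.1]

theorem UData.rho_ne_c {y : G} (hy : y ∈ Om D c q) : rho D c q y ≠ c := by
  intro h1
  apply U.h.three_ne U.hc hy.1 (U.h.left_mem U.hc) (U.pr_spec hy.1).1 (U.h.right_mem hy.1.1) (U.pr_ne hy.1).symm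
    (U.pr_ne_self hy)
  calc c * pr D c q y * y = c * rho D c q y := by unfold rho; group
    _ = 1 := by rw [h1, U.h.mul_self U.hc]

theorem UData.rho_inj {y y' : G} (hy : y ∈ Om D c q) (hy' : y' ∈ Om D c q) (he : rho D c q y = rho D c q y') :
    y = y' := by
  have h1 := U.rho_conj_q hy.1
  rw [he, U.rho_conj_q hy'.1] at h1
  have h2 := braid U.h.cls.1 U.hq hy.1.1 hy.2
  have h3 := braid U.h.cls.1 U.hq hy'.1.1 hy'.2
  rw [← h2, ← h3] at h1
  exact (mul_left_cancel (mul_right_cancel h1)).symm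

/-- the elements of the radical group mapping `q` to a commuting member -/
theorem UData.commute_conj_iff' {r : G} (hr : r ∈ rad D c) :
    Commute q (r * q * r⁻¹) ↔ r = 1 ∨ ∃ y ∈ Om D c q, r = c * rho D c q y := by
  have hci := rad_commute U.h U.hc hr
  constructor
  · intro h1
    by_cases hr1 : r = 1
    · exact Or.inl hr1
    right
    have hz' : ¬ Commute (r * q * r⁻¹) c := by
      intro h2
      apply U.qc
      rw [← rad_conj_self U.h U.hc hr] at h2
      exact (commute_conj_iff r).1 h2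
    have hne : q ≠ r * q * r⁻¹ := by
      intro h2
      apply hr1
      apply rad_eq_one U.h U.hc U.hq U.qc hr
      show r * q = q * r
      nth_rewrite 2 [h2]; group
    obtain ⟨x, hx, y, hy, hyc, hyx, hqx, he⟩ := exists_rad_commuting U.h U.hc U.hq (U.h.conj r q U.hq) U.qc hz' hne h1
    have hyp : y ∈ perp D c := U.h.mem_perp_of_pl U.hc hx hy hyc
    have hqy : ¬ Commute q y := fun h2 => hyx (U.h.unique U.hc hx U.hq U.qc hy (U.h.right_mem hx.1) h2 hqx)
    have hprx : pr D c q y = x := by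
      rw [U.pr_of_mem hx hy hyc, U.pr_self ⟨hx, hqx⟩]
    refine ⟨y, ⟨hyp, hqy⟩, ?_⟩
    apply rad_inj U.h U.hc U.hq U.qc hr (mul_mem (mem_rad_self c) (U.rho_mem hyp))
    rw [rho, hprx, he]
  · rintro (rfl | ⟨y, hy, rfl⟩)
    · rw [one_mul, inv_one, mul_one]
    · -- c rho y q .. lies on the line through q and pr y
      have hxm := U.pr_mem hy.1
      set x := pr D c q y with hx
      have hxq : q ∈ perp D x := ⟨U.hq, fun h1 => U.qc (by rw [h1]; exact hxm.1.2.2.symm), hxm.2.symm⟩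
      have hcx : c ∈ perp D x := perp_symm' U.hc hxm.1
      have hyl : y ∈ pl D x c := by rw [pl_symm]; exact U.mem_pl_pr hy.1
      have h1 := (U.h.shift hxm.1.1 hcx hyl (U.pr_ne_self hy).symm hy.1.2.1 hxq U.qc).1
      have e1 : (c * rho D c q y) * q * (c * rho D c q y)⁻¹ = (c * y) * q * (c * y)⁻¹ := by
        have h2 : (c * rho D c q y) * q * (c * rho D c q y)⁻¹ = c * (rho D c q y * q * (rho D c q y)⁻¹) * c⁻¹ := by
          group
        rw [h2, U.rho_conj_q hy.1, mul_inv_rev, U.h.inv_eq hy.1.1]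
        group
      rw [e1]
      exact (mem_cc_of_mem_pl hxm.1.1 hxq h1).2.2.symm

/-- (P1) products of commuting `rho`'s -/
theorem UData.rho_mul_comm {y y' : G} (hy : y ∈ Om D c q) (hy' : y' ∈ Om D c q) (hne : y ≠ y') (hyy : Commute y y') :
    ∃ w ∈ Om D c q, rho D c q y * rho D c q y' = c * rho D c q w := by
  obtain ⟨f1, f2, f3, f4, f5, f6⟩ := d4_facts U.h.cls.1 U.h.conj U.hc hy.1.1 hy'.1.1 U.hq hy.1.2.2 hy'.1.2.2 hyy
    hy.1.2.1.symm hy'.1.2.1.symm hne U.qc hy.2 hy'.2
  have hcc := U.h.mul_self U.hc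
  have hr : c * (rho D c q y * rho D c q y') ∈ rad D c :=
    mul_mem (mem_rad_self c) (mul_mem (U.rho_mem hy.1) (U.rho_mem hy'.1))
  have hx := U.pr_mem hy.1
  have hx' := U.pr_mem hy'.1
  have hxl := (U.pr_spec hy.1).1
  have hxl' := (U.pr_spec hy'.1).1
  have c1 : Commute (pr D c q y) y' := U.commute_line hy.1 hy'.1 hyy hxl (U.h.right_mem hy'.1.1)
  have c2 : Commute (pr D c q y') y := (U.commute_line hy.1 hy'.1 hyy (U.h.right_mem hy.1.1) hxl').symm
  have c3 : Commute (pr D c q y) (pr D c q y') := U.commute_line hy.1 hy'.1 hyy hxl hxl'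
  have c4 := U.pr_commute hy.1
  have c5 := U.pr_commute hy'.1
  have e1 : c * (rho D c q y * rho D c q y') = (c * y * y') * (pr D c q y * pr D c q y') := by
    unfold rho
    set x := pr D c q y
    set x' := pr D c q y'
    calc c * (x * y * (x' * y')) = c * (x * y) * (x' * y') := by group
      _ = c * (y * x) * (y' * x') := by rw [c4.eq, c5.eq]
      _ = c * y * (x * y') * x' := by group
      _ = c * y * (y' * x) * x' := by rw [c1.eq]
      _ = _ := by group
  have hqx : Commute q (pr D c q y * pr D c q y') := hx.2.mul_right hx'.2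
  have e2 : (c * (rho D c q y * rho D c q y')) * q * (c * (rho D c q y * rho D c q y'))⁻¹ =
      (c * y * y') * q * (c * y * y')⁻¹ := by
    rw [e1]
    calc (c * y * y') * (pr D c q y * pr D c q y') * q * ((c * y * y') * (pr D c q y * pr D c q y'))⁻¹
        = (c * y * y') * ((pr D c q y * pr D c q y') * q * (pr D c q y * pr D c q y')⁻¹) * (c * y * y')⁻¹ := by group
      _ = _ := by rw [← hqx.eq]; group
  have hnc : ¬ Commute q ((c * (rho D c q y * rho D c q y')) * q * (c * (rho D c q y * rho D c q y'))⁻¹) := by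
    rw [e2]; exact f1
  have ht : Commute c (q * ((c * (rho D c q y * rho D c q y')) * q * (c * (rho D c q y * rho D c q y'))⁻¹) * q) := by
    rw [e2]; exact f3.symm
  by_cases htc : q * ((c * (rho D c q y * rho D c q y')) * q * (c * (rho D c q y * rho D c q y'))⁻¹) * q = c
  · exfalso
    have h1 := U.eq_c hr htc
    have h2 : rho D c q y * rho D c q y' = 1 := mul_eq_left.1 h1
    apply hne
    apply U.rho_inj hy hy'
    rw [mul_eq_one_iff_eq_inv.1 h2, U.rho_inv hy'.1]
  · obtain ⟨h1, h2⟩ := U.eq_rho hr hnc ht htc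
    refine ⟨_, h1, ?_⟩
    rw [← h2, ← mul_assoc, hcc, one_mul]

theorem tl_symm' (hD : Cfsg.IsThreeTranspositionSet D) {y y' : G} (hy : y ∈ D) (hy' : y' ∈ D) (ht : tl q y y') :
    tl q y' y := by
  refine ⟨fun h1 => ht.1 h1.symm, ?_⟩
  rw [← braid hD hy hy' ht.1]
  exact ht.2

/-- (P3) -/
theorem UData.rho_mul_tl {y y' : G} (hy : y ∈ Om D c q) (hy' : y' ∈ Om D c q) (ht : tl q y y') :
    ∃ w ∈ Om D c q, rho D c q y * rho D c q y' = rho D c q w := by
  have hqq := U.h.mul_self U.hq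
  have hyy := U.h.mul_self hy.1.1
  have hyy' := U.h.mul_self hy'.1.1
  have hx := U.pr_mem hy.1
  have hx' := U.pr_mem hy'.1
  have hxx := U.h.mul_self hx.1.1
  have c1 := (U.pr_commute hy.1)
  have c2 := (U.pr_commute hy'.1)
  have hr : rho D c q y * rho D c q y' ∈ rad D c := mul_mem (U.rho_mem hy.1) (U.rho_mem hy'.1)
  set x := pr D c q y with hxd
  have hxnc : ¬ Commute x y' := by
    intro h1
    exact ht.1 ((U.commute_line_iff hy.1 hy'.1 (U.pr_spec hy.1).1 (U.h.right_mem hy'.1.1) (U.pr_ne hy.1)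
      hy'.1.2.1).1 h1)
  -- y commutes with y' q y'
  have k1 : Commute y (y' * q * y') := by
    have h1 : Commute (y' * q * y') (y' * (y * y' * y) * y') := (cj hyy').2 ht.2
    rw [braid U.h.cls.1 hy.1.1 hy'.1.1 ht.1, ThreeTrans.conj_cancel hyy'] at h1
    exact h1.symm
  have e1 : (rho D c q y * rho D c q y') * q * (rho D c q y * rho D c q y')⁻¹ = x * (y' * q * y') * x := by
    have h1 : (rho D c q y * rho D c q y') * q * (rho D c q y * rho D c q y')⁻¹ =
        rho D c q y * (rho D c q y' * q * (rho D c q y')⁻¹) * (rho D c q y)⁻¹ := by group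
    have h2 : rho D c q y = x * y := rfl
    rw [h1, U.rho_conj_q hy'.1, h2, mul_inv_rev, U.h.inv_eq hx.1.1, U.h.inv_eq hy.1.1]
    calc x * y * (y' * q * y') * (y * x) = x * (y * (y' * q * y') * y) * x := by group
      _ = _ := by rw [conj_comm hyy k1]
  have e2 : q * ((rho D c q y * rho D c q y') * q * (rho D c q y * rho D c q y')⁻¹) * q = x * y' * x := by
    rw [e1]
    have hqx := hx.2
    have hb := braid U.h.cls.1 U.hq hy'.1.1 hy'.2
    calc q * (x * (y' * q * y') * x) * q = (q * x) * (y' * q * y') * (x * q) := by group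
      _ = (x * q) * (y' * q * y') * (q * x) := by rw [hqx.eq]
      _ = (x * q) * (q * y' * q) * (q * x) := by rw [hb]
      _ = x * (q * q) * y' * (q * q) * x := by group
      _ = x * y' * x := by rw [hqq]; group
  have hcx : Commute c x := hx.1.2.2
  have hctd : Commute c (x * y' * x) := (hcx.mul_right hy'.1.2.2).mul_right hcx
  have hne : x * y' * x ≠ c := by
    intro h1
    apply hy'.1.2.1
    have h2 : x * y' * x = x * c * x := by rw [h1, conj_comm hxx hcx.symm]
    exact mul_left_cancel (mul_right_cancel h2)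
  have hnc : ¬ Commute q ((rho D c q y * rho D c q y') * q * (rho D c q y * rho D c q y')⁻¹) := by
    rw [e1]
    intro h1
    apply hy'.2
    have h2 : Commute (x * q * x) (x * (y' * q * y') * x) := by
      rw [conj_comm hxx hx.2.symm]; exact h1
    have h3 := (cj hxx).1 h2
    rw [← braid U.h.cls.1 U.hq hy'.1.1 hy'.2] at h3
    have h4 : Commute (q * q * q) (q * y' * q) := by rw [hqq, one_mul]; exact h3
    exact (cj hqq).1 h4
  have := U.eq_rho hr hnc (by rw [e2]; exact hctd) (by rw [e2]; exact hne)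
  exact ⟨_, this.1, this.2⟩

/-- the point of the line through `c` and `p` commuting with the image of `q` -/
theorem UData.tl_iff {y y' : G} (hy : y ∈ Om D c q) (hy' : y' ∈ Om D c q) (hnc : ¬ Commute y y') :
    tl q y y' ↔ rho D c q y * pr D c q y' * (rho D c q y)⁻¹ = y' := by
  have hyy := U.h.mul_self hy.1.1
  have hx' := U.pr_mem hy'.1
  have hrp := rad_pl U.h U.hc (U.rho_mem hy.1) _ hx'.1
  rw [U.pr_line hy'.1] at hrp
  have hyq : y * q * y ∈ D := U.h.conj3 hy.1.1 U.hq
  have hyqc : ¬ Commute (y * q * y) c := by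
    intro h1
    apply U.qc
    rw [← cj hyy, conj_comm hyy hy.1.2.2.symm]; exact h1
  have h2 : Commute (y * q * y) (rho D c q y * pr D c q y' * (rho D c q y)⁻¹) := by
    rw [← U.rho_conj_q hy.1]
    exact (commute_conj_iff _).2 hx'.2
  constructor
  · intro ht
    have h1 : Commute (y * q * y) y' := by
      have := (cj hyy).2 ht.2
      rwa [ThreeTrans.conj_cancel hyy] at this
    exact U.h.unique U.hc hy'.1 hyq hyqc hrp (U.h.right_mem hy'.1.1) h2 h1
  · intro he
    rw [he] at h2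
    refine ⟨hnc, ?_⟩
    rw [← cj hyy, ThreeTrans.conj_cancel hyy]
    exact h2

theorem UData.phi_mem {y x : G} (hy : y ∈ Om D c q) (hx : x ∈ Dp D c q) (hnc : ¬ Commute y x) :
    rho D c q y * x * (rho D c q y)⁻¹ ∈ Om D c q ∧ rho D c q y * x * (rho D c q y)⁻¹ ∈ pl D c x ∧
      tl q y (rho D c q y * x * (rho D c q y)⁻¹) := by
  have hyx := U.pr_mem hy.1
  have hncx : ¬ Commute x (pr D c q y) := by
    intro h1
    apply hnc
    exact (U.commute_line_iff hy.1 hx.1 (U.pr_spec hy.1).1 (U.h.right_mem hx.1.1) (U.pr_ne hy.1) hx.1.2.1).1 h1.symm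
  obtain ⟨s1, s2, s3⟩ := U.h.shift U.hc hyx.1 (U.mem_pl_pr hy.1) hy.1.2.1 (U.pr_ne_self hy).symm hx.1 hncx
  set p := rho D c q y * x * (rho D c q y)⁻¹ with hp
  have s1' : p ∈ pl D c x := s1
  have hpp : p ∈ perp D c := U.h.mem_perp_of_pl U.hc hx.1 s1' s2
  have hqp : ¬ Commute q p := fun h1 => s3 (U.h.unique U.hc hx.1 U.hq U.qc s1' (U.h.right_mem hx.1.1) h1 hx.2)
  have hpO : p ∈ Om D c q := ⟨hpp, hqp⟩
  have hprp : pr D c q p = x := by rw [U.pr_of_mem hx.1 s1' s2, U.pr_self hx]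
  have hyp : ¬ Commute y p := by
    intro h1
    exact hnc ((U.commute_line_iff hy.1 hx.1 (U.h.right_mem hy.1.1) s1' hy.1.2.1 s2).1 h1)
  exact ⟨hpO, s1', (U.tl_iff hy hpO hyp).2 (by rw [hprp])⟩

/-- uniqueness of the partner -/
theorem UData.tl_unique {y u v : G} (hy : y ∈ Om D c q) (hu : u ∈ Om D c q) (hv : v ∈ Om D c q)
    (huv : pr D c q u = pr D c q v) (h1 : tl q y u) (h2 : tl q y v) : u = v := by
  rw [← (U.tl_iff hy hu h1.1).1 h1, ← (U.tl_iff hy hv h2.1).1 h2, huv]

/-- the third member of a related pair -/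
theorem UData.tl_third {y y' : G} (hy : y ∈ Om D c q) (hy' : y' ∈ Om D c q) (ht : tl q y y') :
    y * y' * y = pr D c q y * pr D c q y' * pr D c q y := by
  have hyy := U.h.mul_self hy.1.1
  have hx := U.pr_mem hy.1
  have hx' := U.pr_mem hy'.1
  have hxx := U.h.mul_self hx.1.1
  have hc1 := U.pr_commute hy.1
  set x := pr D c q y with hxd
  set x' := pr D c q y' with hxd'
  have hcx : Commute x c := hx.1.2.2.symm
  have hline : ∀ p ∈ perp D c, x * p * x ∈ perp D c := by
    intro p hp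
    have := perp_conj_mem U.h.conj x hp
    rwa [U.h.inv_eq hx.1.1, conj_comm hxx hcx] at this
  have h1 : x * x' * x ∈ perp D c := hline x' hx'.1
  have h2 : Commute q (x * x' * x) := (hx.2.mul_right hx'.2).mul_right hx.2
  have h3 : x * y' * x ∈ pl D c (x * x' * x) := by
    have := pl_conj U.h.conj x (U.mem_pl_pr hy'.1)
    rwa [U.h.inv_eq hx.1.1, conj_comm hxx hcx] at this
  have h4 : x * y' * x ∈ perp D c := hline y' hy'.1
  have h5 := rad_pl U.h U.hc (U.rho_mem hy.1) _ h4
  have e1 : rho D c q y * (x * y' * x) * (rho D c q y)⁻¹ = y * y' * y := by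
    have h6 : rho D c q y = y * x := hc1.eq
    rw [h6, mul_inv_rev, U.h.inv_eq hx.1.1, U.h.inv_eq hy.1.1]
    calc y * x * (x * y' * x) * (x * y) = y * (x * x) * y' * (x * x) * y := by group
      _ = _ := by rw [hxx]; group
  rw [e1, U.h.pl_eq_left U.hc h1 h3 h4.2.1] at h5
  exact U.h.unique U.hc h1 U.hq U.qc h5 (U.h.right_mem h1.1) ht.2 h2

/-- transitivity of the relation when the plane is dual affine -/
theorem UData.tl_trans {y y' y'' : G} (hy : y ∈ Om D c q) (hy' : y' ∈ Om D c q) (hy'' : y'' ∈ Om D c q)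
    (h1 : tl q y y') (h2 : tl q y' y'') (h3 : ¬ Commute y y'')
    (h4 : Commute (pr D c q y'') (pr D c q y * pr D c q y' * pr D c q y)) : tl q y y'' := by
  have hyy := U.h.mul_self hy.1.1
  have hyi := U.h.inv_eq hy.1.1
  rw [← U.tl_third hy hy' h1] at h4
  set u := y * y' * y with hu
  have huD : u ∈ D := U.h.conj3 hy.1.1 hy'.1.1
  have huc : Commute c u := (hy.1.2.2.mul_right hy'.1.2.2).mul_right hy.1.2.2
  have huc' : u ≠ c := by
    intro h5
    apply hy'.1.2.1
    have h6 : y * y' * y = y * c * y := by rw [← hu, h5, conj_comm hyy hy.1.2.2.symm]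
    exact mul_left_cancel (mul_right_cancel h6)
  have hup : u ∈ perp D c := ⟨huD, huc', huc⟩
  have huy'' : Commute u y'' := by
    have h6 := U.commute_line (U.pr_mem hy''.1).1 hup h4 (U.mem_pl_pr hy''.1) (U.h.right_mem huD)
    exact h6.symm
  have hyu : ¬ Commute u y := by
    intro h5
    apply h1.1
    have h6 : Commute (y * y * y) (y * y' * y) := by rw [hyy, one_mul]; exact h5.symm
    exact (cj hyy).1 h6
  have hne : u ≠ y'' := by
    intro h5
    rw [← h5] at hy''
    exact hy''.2 h1.2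
  obtain ⟨φ, hinj, p1, p2, p3⟩ := string4 U.h.cls.1 huD hy.1.1 hy''.1.1 huy'' hne hyu h3
  have e0 : (Equiv.swap (1 : Fin 4) 2) * (Equiv.swap 2 3) * (Equiv.swap 1 2) =
      (Equiv.swap 0 1) * (((Equiv.swap 1 2) * (Equiv.swap 0 1) * (Equiv.swap 1 2)) * (Equiv.swap 2 3) *
        ((Equiv.swap 1 2) * (Equiv.swap 0 1) * (Equiv.swap 1 2))) * (Equiv.swap 0 1) := by decide
  have f0 := congrArg φ e0
  simp only [map_mul, p1, p2, p3] at f0
  have hy'e : y * u * y = y' := by rw [hu, ThreeTrans.conj_cancel hyy]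
  rw [hy'e] at f0
  refine ⟨h3, ?_⟩
  rw [f0]
  have h5 : Commute q u := h1.2
  exact (h5.mul_right h2.2).mul_right h5

/-- a closed triangle is dual affine -/
theorem UData.tl_closed {y y' y'' : G} (hy : y ∈ Om D c q) (hy' : y' ∈ Om D c q) (hy'' : y'' ∈ Om D c q)
    (h1 : tl q y y') (h2 : tl q y' y'') (h3 : tl q y y'') :
    Commute (pr D c q y'') (pr D c q y * pr D c q y' * pr D c q y) := by
  by_contra hcon
  have hD := U.h.cls.1
  have t1 := U.tl_third hy hy' h1
  have t2 := U.tl_third hy' hy'' h2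
  have t3 := U.tl_third hy hy'' h3
  have hx := U.pr_mem hy.1
  have hx' := U.pr_mem hy'.1
  have hx'' := U.pr_mem hy''.1
  have n1 : ¬ Commute (pr D c q y) (pr D c q y') := fun h => h1.1 ((U.commute_pr_iff hy.1 hy'.1).1 h)
  have n2 : ¬ Commute (pr D c q y') (pr D c q y'') := fun h => h2.1 ((U.commute_pr_iff hy'.1 hy''.1).1 h)
  have n3 : ¬ Commute (pr D c q y) (pr D c q y'') := fun h => h3.1 ((U.commute_pr_iff hy.1 hy''.1).1 h)
  have hxxD : pr D c q y * pr D c q y' * pr D c q y ∈ D := U.h.conj3 hx.1.1 hx'.1.1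
  have hN1 : NinePts (pr D c q y) (pr D c q y') (pr D c q y'') :=
    ⟨U.h.mul_self hx.1.1, U.h.mul_self hx'.1.1, U.h.mul_self hx''.1.1, braid hD hx.1.1 hx'.1.1 n1,
      braid hD hx.1.1 hx''.1.1 n3, braid hD hx'.1.1 hx''.1.1 n2,
      braid hD hxxD hx''.1.1 (fun h => hcon h.symm)⟩
  have hyyD : y * y' * y ∈ D := U.h.conj3 hy.1.1 hy'.1.1
  have hyyc : y * y' * y ∈ perp D c := by
    rw [t1]
    have hxx := U.h.mul_self hx.1.1
    have := perp_conj_mem U.h.conj (pr D c q y) hx'.1
    rwa [U.h.inv_eq hx.1.1, conj_comm hxx hx.1.2.2.symm] at this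
  have hcon2 : ¬ Commute (y * y' * y) y'' := by
    intro h5
    apply hcon
    rw [← t1]
    exact ((U.commute_line_iff hyyc hx''.1 (U.h.right_mem hyyc.1) (U.mem_pl_pr hy''.1) hyyc.2.1 hy''.1.2.1).1 h5).symm
  have hN2 : NinePts y y' y'' :=
    ⟨U.h.mul_self hy.1.1, U.h.mul_self hy'.1.1, U.h.mul_self hy''.1.1, braid hD hy.1.1 hy'.1.1 h1.1,
      braid hD hy.1.1 hy''.1.1 h3.1, braid hD hy'.1.1 hy''.1.1 h2.1, braid hD hyyD hy''.1.1 hcon2⟩
  have w1 := hN1.word
  have w2 := hN2.word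
  rw [t1, t2, t3, w1] at w2
  exact U.pr_ne_self hy w2

end Cfsg.Agent.ThreeTransp
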