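import Cfsg.Agent.ThreeTransp.PolarFive
import Cfsg.Agent.ThreeTransp.QuandleIso
import Cfsg.Agent.H43.SympEquiv
import Cfsg.Agent.ClassSp.Order
/-!
The case of lines with three points: symplectic groups over the field with two elements (owner: helper8).
-/
set_option autoImplicit false
open Cfsg
open scoped Pointwise commutatorElement
namespace Cfsg.Agent.ThreeTransp

variable {G : Type*} [Group G] {D : Set G}

section Gen

variable [Finite G] (h : VHyp D)
include h

theorem VHyp.cc_ncard_nc {d e d' e' : G} (hd : d ∈ D) (he : e ∈ D) (hde : ¬ Commute d e) (hd' : d' ∈ D) (he' : e' ∈ D)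
    (hde' : ¬ Commute d' e') : (cc D d e).ncard = (cc D d' e').ncard := by
  obtain ⟨x, hx, y, hy, hne, hc⟩ := h.ex
  obtain ⟨k, rfl⟩ := exists_conj h.cls hd hd'
  have h1 : ¬ Commute (k * d * k⁻¹) (k * e * k⁻¹) := by rwa [commute_conj_iff]
  obtain ⟨g, g1, g2⟩ := transitive_noncommuting h.cls h.irr hx hy hne.symm hc hd' (h.conj k e he) he' h1 hde'
  apply ncard_conj (p := fun y => y ∈ cc D d e) (q := fun y => y ∈ cc D (k * d * k⁻¹) e') (g * k)
  intro x
  show x ∈ cc D d e ↔ (g * k) * x * (g * k)⁻¹ ∈ cc D (k * d * k⁻¹) e'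
  have e1 : (g * k) * x * (g * k)⁻¹ = g * (k * x * k⁻¹) * g⁻¹ := by group
  have e2 : cc D (k * d * k⁻¹) e' = cc D (g * (k * d * k⁻¹) * g⁻¹) (g * (k * e * k⁻¹) * g⁻¹) := by rw [g1, g2]
  rw [e1, e2, cc_conj_iff h.conj, cc_conj_iff h.conj]

theorem VHyp.cc_eq_of_subset {d e d' e' : G} (hd : d ∈ D) (he : e ∈ D) (hde : ¬ Commute d e) (hd' : d' ∈ D)
    (he' : e' ∈ D) (hde' : ¬ Commute d' e') (hsub : cc D d e ⊆ cc D d' e') : cc D d e = cc D d' e' :=
  Set.eq_of_subset_of_ncard_le hsub (h.cc_ncard_nc hd he hde hd' he' hde').symm.le (Set.toFinite _)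

theorem VHyp.exists_perp {d : G} (hd : d ∈ D) : ∃ a, a ∈ perp D d := by
  obtain ⟨x, hx, y, hy, hne, hc⟩ := h.ex
  obtain ⟨k, rfl⟩ := exists_conj h.cls hx hd
  exact ⟨k * y * k⁻¹, perp_conj_mem h.conj k ⟨hy, hne, hc⟩⟩

theorem VHyp.exists_cc {d e : G} (hd : d ∈ D) (he : e ∈ D) (hde : ¬ Commute d e) : ∃ a, a ∈ cc D d e := by
  obtain ⟨a, ha⟩ := h.exists_perp hd
  obtain ⟨v, hv, hev⟩ := h.exists_mem_commute hd ha he
  exact ⟨v, hv.1, (mem_cc_of_mem_pl hd ha hv).2.1, hev.symm⟩

/-- a point commuting with all of `cc D d e` and `d` is `d` -/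
theorem VHyp.eq_of_cc {d e a : G} (hd : d ∈ D) (he : e ∈ D) (hde : ¬ Commute d e) (ha : a ∈ D) (had : Commute d a)
    (hall : ∀ y ∈ cc D d e, Commute y a) : a = d := by
  by_contra hne
  have hap : a ∈ perp D d := ⟨ha, hne, had⟩
  obtain ⟨y, hy, hyd, hya⟩ := h.exists_sep ha (perp_symm' hd hap)
  have hyd' : y ≠ d := by rintro rfl; exact hya had
  have hyp : y ∈ perp D d := ⟨hy, hyd', hyd.symm⟩
  obtain ⟨v, hv, hev⟩ := h.exists_mem_commute hd hyp he
  have hvd : v ≠ d := by rintro rfl; exact hde hev.symm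
  have h1 := hall v ⟨hv.1, (mem_cc_of_mem_pl hd hyp hv).2.1, hev.symm⟩
  exact hya (h.commute_all hd hyp (h.left_mem hd) hv hvd.symm ha had.symm h1.symm (h.right_mem hy)).symm

end Gen

section Three

variable [Finite G] (h : VHyp D) (h3 : ∀ c ∈ D, ∀ x ∈ perp D c, (pl D c x).ncard = 3)
include h h3

theorem third_unique {c x u v : G} (hc : c ∈ D) (hx : x ∈ perp D c) (hu : u ∈ pl D c x) (huc : u ≠ c) (hux : u ≠ x)
    (hv : v ∈ pl D c x) (hvc : v ≠ c) (hvx : v ≠ x) : u = v := by
  by_contra huv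
  have h1 : ({c, x, u, v} : Set G) ⊆ pl D c x := by
    rintro t (rfl | rfl | rfl | rfl)
    · exact h.left_mem hc
    · exact h.right_mem hx.1
    · exact hu
    · exact hv
  have h2 := Set.ncard_le_ncard h1 (Set.toFinite _)
  rw [h3 c hc x hx, Set.ncard_insert_of_notMem, Set.ncard_insert_of_notMem, Set.ncard_pair huv] at h2
  · omega
  · simp only [Set.mem_insert_iff, Set.mem_singleton_iff, not_or]; exact ⟨hux.symm, hvx.symm⟩
  · simp only [Set.mem_insert_iff, Set.mem_singleton_iff, not_or]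
    exact ⟨hx.2.1.symm, huc.symm, hvc.symm⟩

theorem third_swap {a d e d' e' : G} (ha : a ∈ D) (hd : d ∈ perp D a) (he : e ∈ perp D a) (hde : ¬ Commute d e)
    (hd' : d' ∈ pl D a d) (hda : d' ≠ a) (hdd : d' ≠ d) (he' : e' ∈ pl D a e) (hea : e' ≠ a) (hee : e' ≠ e) :
    e * d' * e = d * e' * d := by
  have hei := h.inv_eq he.1
  have hdi := h.inv_eq hd.1
  have e1 : e * a * e⁻¹ = a := by rw [← he.2.2.eq]; group
  have e2 : d * a * d⁻¹ = a := by rw [← hd.2.2.eq]; group
  have hb : e * d * e⁻¹ = d * e * d⁻¹ := (third h.cls.1 hd.1 he.1 hde).symm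
  have h1 : e * d' * e⁻¹ ∈ pl D a (e * d * e⁻¹) := by
    have := pl_conj h.conj e hd'
    rwa [e1] at this
  have h2 : d * e' * d⁻¹ ∈ pl D a (e * d * e⁻¹) := by
    have := pl_conj h.conj d he'
    rwa [e2, ← hb] at this
  have hp : e * d * e⁻¹ ∈ perp D a := by
    have := perp_conj_mem h.conj e hd
    rwa [e1] at this
  have cancel : ∀ g x y : G, g * x * g⁻¹ = g * y * g⁻¹ → x = y := fun g x y hxy =>
    mul_left_cancel (mul_right_cancel hxy)
  have := third_unique h h3 ha hp h1 (fun h4 => hda (cancel e _ _ (by rw [h4, e1])))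
    (fun h4 => hdd (cancel e _ _ h4)) h2 (fun h4 => hea (cancel d _ _ (by rw [h4, e2])))
    (fun h4 => hee (cancel d _ _ (by rw [h4, hb])))
  rwa [hei, hdi] at this

/-- the third point of the line commutes when the first two do not -/
theorem third_commute {a d d' f : G} (ha : a ∈ D) (hd : d ∈ perp D a) (hd' : d' ∈ pl D a d) (hda : d' ≠ a)
    (hdd : d' ≠ d) (hf : f ∈ D) (hfa : ¬ Commute f a) (hfd : ¬ Commute f d) : Commute f d' := by
  obtain ⟨v, hv, hfv⟩ := h.exists_mem_commute ha hd hf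
  have := third_unique h h3 ha hd hv (by rintro rfl; exact hfa hfv) (by rintro rfl; exact hfd hfv) hd' hda hdd
  rwa [← this]

omit h3 in
theorem third_nc {a d d' f : G} (ha : a ∈ D) (hd : d ∈ perp D a) (hd' : d' ∈ pl D a d) (hda : d' ≠ a)
    (hf : f ∈ D) (hfa : Commute f a) (hfd : ¬ Commute f d) : ¬ Commute f d' := by
  intro h1
  exact hfd (h.commute_all ha hd (h.left_mem ha) hd' hda.symm hf hfa h1 (h.right_mem hd.1))

theorem caseA {a d e f : G} (ha : a ∈ D) (hd : d ∈ perp D a) (he : e ∈ perp D a) (hde : ¬ Commute d e) (hf : f ∈ D)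
    (hfa : ¬ Commute f a) (hfd : ¬ Commute f d) (hfe : ¬ Commute f e) : Commute f (d * e * d) := by
  obtain ⟨d', hd', hda, hdd⟩ := h.exists_third ha hd
  obtain ⟨e', he', hea, hee⟩ := h.exists_third ha he
  have c1 := third_commute h h3 ha hd hd' hda hdd hf hfa hfd
  have c2 := third_commute h h3 ha he he' hea hee hf hfa hfe
  have hd'p : d' ∈ perp D a := h.mem_perp_of_pl ha hd hd' hda
  have hline : pl D a d' = pl D a d := h.pl_eq_left ha hd hd' hda
  have hd'e : ¬ Commute d' e := fun h1 => third_nc h ha hd hd' hda he.1 he.2.2.symm (fun h2 => hde h2.symm) h1.symm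
  have h1 := third_swap h h3 ha hd'p he hd'e (d' := d) (by rw [hline]; exact h.right_mem hd.1) hd.2.1 hdd.symm
    he' hea hee
  rw [braid h.cls.1 hd.1 he.1 hde, h1]
  exact (c1.mul_right c2).mul_right c1

theorem no_three {d e f : G} (hd : d ∈ D) (he : e ∈ D) (hde : ¬ Commute d e) (hf : f ∈ D) (hfd : ¬ Commute f d)
    (hfe : ¬ Commute f e) : Commute f (d * e * d) := by
  by_contra hcon
  have hmain : ∀ e : G, e ∈ D → ¬ Commute d e → ¬ Commute f e → ¬ Commute f (d * e * d) → cc D d e = cc D d f := by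
    intro e he hde hfe hcon
    apply h.cc_eq_of_subset hd he hde hd hf (fun h1 => hfd h1.symm)
    rintro a ⟨ha, had, hae⟩
    refine ⟨ha, had, ?_⟩
    by_contra haf
    have h1 : d ∈ perp D a := ⟨hd, fun h2 => hde (by rw [h2]; exact hae), had⟩
    have h2 : e ∈ perp D a := ⟨he, fun h2 => hde (by rw [h2]; exact had.symm), hae⟩
    exact hcon (caseA h h3 ha h1 h2 hde hf (fun h3 => haf h3.symm) hfd hfe)
  have heq := hmain e he hde hfe hcon
  obtain ⟨a, ha⟩ := h.exists_cc hd he hde
  have haf : Commute a f := by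
    rw [heq] at ha; exact ha.2.2
  obtain ⟨haD, had, hae⟩ := ha
  have hdp : d ∈ perp D a := ⟨hd, fun h2 => hde (by rw [h2]; exact hae), had⟩
  have hep : e ∈ perp D a := ⟨he, fun h2 => hde (by rw [h2]; exact had.symm), hae⟩
  obtain ⟨e', he', hea, hee⟩ := h.exists_third haD hep
  have k1 : ¬ Commute f e' := third_nc h haD hep he' hea hf haf.symm hfe
  have k2 : ¬ Commute d e' := third_nc h haD hep he' hea hd had.symm hde
  have hedp : d * e * d ∈ perp D a := by
    have h1 := perp_conj_mem h.conj d hep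
    have h2 : d * a * d⁻¹ = a := by rw [← had.eq]; group
    rwa [h2, h.inv_eq hd] at h1
  have k3 : ¬ Commute f (d * e' * d) := by
    apply third_nc h haD hedp (d' := d * e' * d) _ _ hf haf.symm hcon
    · have h1 := pl_conj h.conj d he'
      have h2 : d * a * d⁻¹ = a := by rw [← had.eq]; group
      rwa [h2, h.inv_eq hd] at h1
    · intro h1
      apply hea
      have h2 : d * e' * d = d * a * d := by rw [h1, conj_comm (h.mul_self hd) had.symm]
      exact mul_left_cancel (mul_right_cancel h2)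
  have heq2 := hmain e' he'.1 k2 k1 k3
  apply hdp.2.1
  symm
  apply h.eq_of_cc hd he hde haD had.symm
  intro y hy
  have hy' : y ∈ cc D d e' := by rw [heq2, ← heq]; exact hy
  exact h.commute_all haD hep (h.right_mem he) he' hee.symm hy.1 hy.2.2 hy'.2.2 (h.left_mem haD)

open Classical in
/-- the commuting relation as a function with values in the field with two elements -/
noncomputable def nb (x y : G) : ZMod 2 := if Commute x y then 0 else 1

omit [Finite G] h h3 in
theorem nb_symm (x y : G) : nb x y = nb y x := by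
  unfold nb
  by_cases h1 : Commute x y
  · rw [if_pos h1, if_pos h1.symm]
  · rw [if_neg h1, if_neg fun h2 => h1 h2.symm]

omit [Finite G] h h3 in
theorem nb_self (x : G) : nb x x = 0 := if_pos (Commute.refl x)

theorem nb_third {d e f : G} (hd : d ∈ D) (he : e ∈ D) (hde : ¬ Commute d e) (hf : f ∈ D) :
    nb (d * e * d) f = nb d f + nb e f := by
  have hdd := h.mul_self hd
  have hee := h.mul_self he
  unfold nb
  by_cases h1 : Commute d f
  · by_cases h2 : Commute e f
    · rw [if_pos h1, if_pos h2, if_pos ((h1.mul_left h2).mul_left h1)]; rfl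
    · rw [if_pos h1, if_neg h2, if_neg]; · rfl
      intro h3
      apply h2
      rw [← cj hdd, conj_comm hdd h1]; exact h3
  · by_cases h2 : Commute e f
    · rw [if_neg h1, if_pos h2, if_neg]; · rfl
      rw [braid h.cls.1 hd he hde]
      intro h3
      apply h1
      rw [← cj hee, conj_comm hee h2]; exact h3
    · rw [if_neg h1, if_neg h2, if_pos]; · rfl
      exact (no_three h h3 hd he hde hf (fun h3 => h1 h3.symm) (fun h3 => h2 h3.symm)).symm

theorem nb_line {d e t f : G} (hd : d ∈ D) (he : e ∈ perp D d) (ht : t ∈ pl D d e) (htd : t ≠ d) (hte : t ≠ e)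
    (hf : f ∈ D) : nb t f = nb d f + nb e f := by
  unfold nb
  have hdm := h.left_mem (a := e) hd
  have hem := h.right_mem (d := d) he.1
  by_cases h1 : Commute d f
  · by_cases h2 : Commute e f
    · rw [if_pos h1, if_pos h2, if_pos]; · rfl
      exact (h.commute_all hd he hdm hem he.2.1.symm hf h1.symm h2.symm ht).symm
    · rw [if_pos h1, if_neg h2, if_neg]; · rfl
      intro h3
      exact h2 (h.commute_all hd he hdm ht htd.symm hf h1.symm h3.symm hem).symm
  · by_cases h2 : Commute e f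
    · rw [if_neg h1, if_pos h2, if_neg]; · rfl
      intro h3
      exact h1 (h.commute_all hd he hem ht hte.symm hf h2.symm h3.symm hdm).symm
    · rw [if_neg h1, if_neg h2, if_pos]; · rfl
      exact (third_commute h h3 hd he ht htd hte hf (fun h3 => h1 h3.symm) (fun h3 => h2 h3.symm)).symm

/-- every sum of two distinct rows is a row -/
theorem nb_add {d e : G} (hd : d ∈ D) (he : e ∈ D) (hne : d ≠ e) : ∃ t ∈ D, ∀ f ∈ D, nb t f = nb d f + nb e f := by
  by_cases hc : Commute d e
  · have hep : e ∈ perp D d := ⟨he, hne.symm, hc⟩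
    obtain ⟨t, ht, htd, hte⟩ := h.exists_third hd hep
    exact ⟨t, ht.1, fun f hf => nb_line h h3 hd hep ht htd hte hf⟩
  · exact ⟨d * e * d, h.conj3 hd he, fun f hf => nb_third h h3 hd he hc hf⟩

omit h3 in
theorem nb_inj {d e : G} (hd : d ∈ D) (he : e ∈ D) (hall : ∀ f ∈ D, nb d f = nb e f) : d = e := by
  by_contra hne
  have hiff : ∀ f ∈ D, Commute d f ↔ Commute e f := by
    intro f hf
    have h1 := hall f hf
    unfold nb at h1
    constructor
    · intro h2
      by_contra h3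
      rw [if_pos h2, if_neg h3] at h1
      exact absurd h1 (by decide)
    · intro h2
      by_contra h3
      rw [if_neg h3, if_pos h2] at h1
      exact absurd h1 (by decide)
  have hc : Commute d e := (hiff e he).2 (Commute.refl e)
  obtain ⟨f, hf, hdf⟩ := h.nc d hd
  exact not_same_perp h.cls h.irr hd he hne hf hdf hiff

end Three

section Sp

open Cfsg.Agent.ClassSp

variable [Finite G] (h : VHyp D) (h3 : ∀ c ∈ D, ∀ x ∈ perp D c, (pl D c x).ncard = 3)
include h h3

/-- the row space -/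
noncomputable def rowSp : Submodule (ZMod 2) (D → ZMod 2) where
  carrier := {w | w = 0 ∨ ∃ d ∈ D, ∀ f : D, w f = nb d f}
  zero_mem' := Or.inl rfl
  add_mem' := by
    rintro a b (rfl | ⟨d, hd, ha⟩) (rfl | ⟨e, he, hb⟩)
    · left; simp
    · right; exact ⟨e, he, fun f => by rw [zero_add]; exact hb f⟩
    · right; exact ⟨d, hd, fun f => by rw [add_zero]; exact ha f⟩
    · by_cases hde : d = e
      · left
        subst hde
        funext f
        rw [Pi.add_apply, ha, hb]
        exact CharTwo.add_self_eq_zero _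
      · right
        obtain ⟨t, ht, hall⟩ := nb_add h h3 hd he hde
        exact ⟨t, ht, fun f => by rw [Pi.add_apply, ha, hb, hall f f.2]⟩
  smul_mem' := by
    intro c x hx
    fin_cases c
    · left; exact zero_smul _ x
    · have : (1 : ZMod 2) • x = x := one_smul _ x
      exact this.symm ▸ hx

/-- the row of a member -/
noncomputable def row (d : D) : rowSp h h3 := ⟨fun f => nb (d : G) (f : G), Or.inr ⟨d, d.2, fun _ => rfl⟩⟩

/-- the form on the row space -/
theorem exists_form : ∃ B : LinearMap.BilinForm (ZMod 2) (rowSp h h3), B.IsAlt ∧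
    (∀ v, (∀ w, B v w = 0) → v = 0) ∧ ∀ d e : D, B (row h h3 d) (row h h3 e) = nb (d : G) e := by
  classical
  have hex : ∀ w : rowSp h h3, w ≠ 0 → ∃ d : D, w = row h h3 d := by
    rintro ⟨w, rfl | ⟨d, hd, hw⟩⟩ hne
    · exact absurd rfl hne
    · exact ⟨⟨d, hd⟩, Subtype.ext (funext fun f => hw f)⟩
  have : Nonempty D := ⟨⟨_, h.ex.choose_spec.1⟩⟩
  choose! idx hidx using hex
  let β : rowSp h h3 → rowSp h h3 → ZMod 2 := fun v w => if w = 0 then 0 else (v : D → ZMod 2) (idx w)
  have hrow0 : ∀ d : D, row h h3 d ≠ 0 := by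
    intro d hd
    obtain ⟨e, he, hde⟩ := h.nc d d.2
    have h1 := congrFun (congrArg Subtype.val hd) ⟨e, he⟩
    have h2 : nb (d : G) e = 0 := h1
    unfold nb at h2
    rw [if_neg hde] at h2
    exact absurd h2 (by decide)
  have hidxr : ∀ d : D, idx (row h h3 d) = d := by
    intro d
    have h1 := hidx _ (hrow0 d)
    apply Subtype.ext
    symm
    apply nb_inj h d.2 (idx (row h h3 d)).2
    intro f hf
    exact congrFun (congrArg Subtype.val h1) ⟨f, hf⟩
  have hβ : ∀ v (e : D), β v (row h h3 e) = (v : D → ZMod 2) e := by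
    intro v e
    simp only [β]
    rw [if_neg (hrow0 e), hidxr]
  have hβ0 : ∀ v, β v 0 = 0 := fun v => if_pos rfl
  have hcases : ∀ w : rowSp h h3, w = 0 ∨ ∃ d : D, w = row h h3 d := by
    intro w
    by_cases hw : w = 0
    · left; exact hw
    · right; exact ⟨idx w, hidx w hw⟩
  have hβs : ∀ v w, β v w = β w v := by
    intro v w
    rcases hcases w with rfl | ⟨e, rfl⟩
    · rw [hβ0]
      rcases hcases v with rfl | ⟨d, rfl⟩
      · rw [hβ0]
      · rw [hβ]; rfl
    · rcases hcases v with rfl | ⟨d, rfl⟩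
      · rw [hβ0, hβ]; rfl
      · rw [hβ, hβ]; exact nb_symm _ _
  have hadd : ∀ v v' w, β (v + v') w = β v w + β v' w := by
    intro v v' w
    rcases hcases w with rfl | ⟨e, rfl⟩
    · rw [hβ0, hβ0, hβ0, add_zero]
    · rw [hβ, hβ, hβ]; rfl
  have hsm : ∀ (c : ZMod 2) v w, β (c • v) w = c • β v w := by
    intro c v w
    rcases hcases w with rfl | ⟨e, rfl⟩
    · rw [hβ0, hβ0, smul_zero]
    · rw [hβ, hβ]; rfl
  let B : LinearMap.BilinForm (ZMod 2) (rowSp h h3) := LinearMap.mk₂ (ZMod 2) β hadd hsm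
    (fun v w w' => by rw [hβs, hadd, hβs w, hβs w']) (fun c v w => by rw [hβs, hsm, hβs w])
  have hB : ∀ v w, B v w = β v w := fun v w => LinearMap.mk₂_apply (R := ZMod 2) (f := β) v w
  refine ⟨B, ?_, ?_, ?_⟩
  · intro v
    rw [hB]
    rcases hcases v with rfl | ⟨d, rfl⟩
    · exact hβ0 _
    · rw [hβ]; exact nb_self _
  · intro v hv
    apply Subtype.ext
    funext e
    have := hv (row h h3 e)
    rw [hB, hβ] at this
    exact this
  · intro d e
    rw [hB, hβ]; rfl

/-- The group is a symplectic group. -/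
theorem exists_symplectic : ∃ (n : ℕ) (φ : G ≃* Matrix.symplecticGroup (Fin n) (ZMod 2))
    (vec : G → (Fin n ⊕ Fin n → ZMod 2)), (∀ d ∈ D, φ d = tv (vec d) 1) ∧ (∀ d ∈ D, ∀ e ∈ D, sf (vec d) (vec e) = nb d e)
    ∧ (∀ w, w ≠ 0 → ∃ d ∈ D, vec d = w) := by
  classical
  obtain ⟨B, hA, hnd, hrow⟩ := exists_form h h3
  obtain ⟨n, e, he⟩ := H43.exists_symp_equiv B hA hnd
  have hsf : ∀ u v : Fin n ⊕ Fin n → ZMod 2, Cfsg.sympForm n (ZMod 2) u v = sf u v := by
    intro u v
    rw [ClGeo.sympForm_eq]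
    unfold sf
    apply Finset.sum_congr rfl
    intro i _
    rw [CharTwo.sub_eq_add, CharTwo.sub_eq_add, add_comm]
  let vec : G → (Fin n ⊕ Fin n → ZMod 2) := fun g => if hg : g ∈ D then e (row h h3 ⟨g, hg⟩) else 0
  have hvec : ∀ d (hd : d ∈ D), vec d = e (row h h3 ⟨d, hd⟩) := fun d hd => dif_pos hd
  have hvsf : ∀ d ∈ D, ∀ e' ∈ D, sf (vec d) (vec e') = nb d e' := by
    intro d hd e' he'
    rw [hvec d hd, hvec e' he', ← hsf, ← he, hrow]
  have hsurj : ∀ w, w ≠ 0 → ∃ d ∈ D, vec d = w := by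
    intro w hw
    have h1 : e.symm w ≠ 0 := fun h2 => hw (by rw [← e.apply_symm_apply w, h2, map_zero])
    rcases h2 : e.symm w with ⟨x, hx⟩
    rcases hx with rfl | ⟨d, hd, hx⟩
    · exact absurd h2 h1
    · refine ⟨d, hd, ?_⟩
      rw [hvec d hd]
      have h3' : row h h3 ⟨d, hd⟩ = e.symm w := by
        rw [h2]; exact Subtype.ext (funext fun f => (hx f).symm)
      rw [h3', e.apply_symm_apply]
  have hext : ∀ u v : Fin n ⊕ Fin n → ZMod 2, (∀ d ∈ D, sf u (vec d) = sf v (vec d)) → u = v := by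
    intro u v huv
    by_contra hne
    obtain ⟨w, hw⟩ := exists_sf_ne_zero (sub_ne_zero.2 hne)
    have hw0 : w ≠ 0 := by rintro rfl; exact hw (sf_zero_left _)
    obtain ⟨d, hd, rfl⟩ := hsurj w hw0
    apply hw
    rw [sf_swap, sf_sub_left, huv d hd, sub_self, neg_zero]
  have hvne : ∀ d ∈ D, vec d ≠ 0 := by
    intro d hd h0
    obtain ⟨f, hf, hdf⟩ := h.nc d hd
    have h1 := hvsf d hd f hf
    rw [h0, sf_zero_left] at h1
    unfold nb at h1
    rw [if_neg hdf] at h1
    exact absurd h1 (by decide)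
  have hvconj : ∀ d ∈ D, ∀ f ∈ D, vec (d * f * d⁻¹) = vec f + sf (vec f) (vec d) • vec d := by
    intro d hd f hf
    have hdf : d * f * d⁻¹ ∈ D := h.conj d f hf
    apply hext
    intro g hg
    rw [hvsf _ hdf g hg, sf_add_left, sf_smul_left, hvsf f hf g hg, hvsf f hf d hd, hvsf d hd g hg]
    by_cases hc : Commute f d
    · have h1 : d * f * d⁻¹ = f := by rw [← hc.eq]; group
      rw [h1]
      have h2 : nb f d = 0 := if_pos hc
      rw [h2, zero_mul, add_zero]
    · rw [h.inv_eq hd, nb_third h h3 hd hf (fun h1 => hc h1.symm) hg]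
      have h2 : nb f d = 1 := if_neg hc
      rw [h2, one_mul, add_comm]
  have htvinj : ∀ u v : Fin n ⊕ Fin n → ZMod 2, u ≠ 0 → v ≠ 0 → tv u 1 = tv v 1 → u = v := by
    intro u v hu hv huv
    obtain ⟨w, hw⟩ := exists_sf_ne_zero hu
    have h1 : sf w u = 1 := by
      rcases (by decide : ∀ z : ZMod 2, z = 0 ∨ z = 1) (sf w u) with h2 | h2
      · exact absurd h2 hw
      · exact h2
    have h2 := congrArg (fun g : Matrix.symplecticGroup (Fin n) (ZMod 2) =>
      (g : Matrix (Fin n ⊕ Fin n) (Fin n ⊕ Fin n) (ZMod 2)).mulVec w) huv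
    simp only [tv_mulVec, h1, mul_one, one_mul, one_smul] at h2
    have h3 : u = sf w v • v := add_left_cancel h2
    rcases (by decide : ∀ z : ZMod 2, z = 0 ∨ z = 1) (sf w v) with h4 | h4
    · rw [h4, zero_smul] at h3; exact absurd h3 hu
    · rw [h4, one_smul] at h3; exact h3
  have hmain := quandle_iso (G := G) (H := Matrix.symplecticGroup (Fin n) (ZMod 2)) (D := D)
    (E := {g | ∃ w : Fin n ⊕ Fin n → ZMod 2, w ≠ 0 ∧ g = tv w 1}) h.cls.2.2 ?_ h.conj h.cen ?_ (fun g => tv (vec g) 1)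
    (fun d hd => ⟨vec d, hvne d hd, rfl⟩) ?_ ?_ ?_
  · obtain ⟨φ, hφ⟩ := hmain
    exact ⟨n, φ, vec, hφ, hvsf, hsurj⟩
  · rw [eq_top_iff, ← tvGroup_eq_top, tvGroup, Subgroup.closure_le]
    rintro _ ⟨w, c, rfl⟩
    by_cases hw : w = 0
    · have h1 : tv w c = 1 := by
        apply ext_vec; intro v
        rw [tv_mulVec, one_mulVec', hw, smul_zero, add_zero]
      rw [h1]; exact one_mem _
    · rcases (by decide : ∀ z : ZMod 2, z = 0 ∨ z = 1) c with hc | hc
      · rw [hc, tv_zero]; exact one_mem _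
      · rw [hc]; exact Subgroup.subset_closure ⟨w, hw, rfl⟩
  · intro z hz
    apply ext_vec
    intro v
    rw [one_mulVec']
    by_cases hv : v = 0
    · rw [hv, Matrix.mulVec_zero]
    · have h1 := (hz (tv v 1) ⟨v, hv, rfl⟩).symm
      have h2 : z * tv v 1 * z⁻¹ = tv v 1 := by rw [h1.eq]; group
      rw [tv_conj] at h2
      apply htvinj _ _ _ hv h2
      intro h3
      apply hv
      rw [← inv_mulVec_mulVec z v, h3, Matrix.mulVec_zero]
  · intro d hd d' hd' hdd
    have h1 := htvinj _ _ (hvne d hd) (hvne d' hd') hdd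
    apply nb_inj h hd hd'
    intro f hf
    rw [← hvsf d hd f hf, h1, hvsf d' hd' f hf]
  · rintro _ ⟨w, hw, rfl⟩
    obtain ⟨d, hd, rfl⟩ := hsurj w hw
    exact ⟨d, hd, rfl⟩
  · intro d hd f hf
    rw [tv_conj, tv_mulVec, one_mul, hvconj d hd f hf]

end Sp

end Cfsg.Agent.ThreeTransp
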