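import Cfsg.Agent.ThreeTransp.PolarForm
/-!
The case of lines with five points: the graph of the Heisenberg group (owner: helper8).
-/
set_option autoImplicit false
open Cfsg
open scoped Pointwise commutatorElement
namespace Cfsg.Agent.ThreeTransp

variable {G : Type*} [Group G] {D : Set G} {c q : G} {L : G → ZMod 3} {K : Type*} [Field K] {w : K}

/-- the form on the row space -/
structure WForm {w : K} {D : Set G} {c q : G} {L : G → ZMod 3} (B : WSp w D c q L → WSp w D c q L → K) : Prop where
  form : HForm B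
  eval : ∀ (u : WSp w D c q L) (y : Om D c q),
    B u ⟨gram w D c q L y, Submodule.subset_span ⟨y, rfl⟩⟩ = (u : Om D c q → K) y

open Classical in
/-- the vector of a point -/
noncomputable def hv (w : K) (D : Set G) (c q : G) (L : G → ZMod 3) (y : G) : WSp w D c q L :=
  if hy : y ∈ Om D c q then ⟨gram w D c q L ⟨y, hy⟩, Submodule.subset_span ⟨_, rfl⟩⟩ else 0

theorem hv_coe {y : G} (hy : y ∈ Om D c q) :
    (hv w D c q L y : Om D c q → K) = vv w D c q L (rho D c q y) := by
  unfold hv; rw [dif_pos hy]; rfl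

variable {B : WSp w D c q L → WSp w D c q L → K} (W : WForm B)

include W in
theorem WForm.eval' (u : WSp w D c q L) {y : G} (hy : y ∈ Om D c q) :
    B u (hv w D c q L y) = (u : Om D c q → K) ⟨y, hy⟩ := by
  have h1 : hv w D c q L y = ⟨gram w D c q L ⟨y, hy⟩, Submodule.subset_span ⟨_, rfl⟩⟩ := dif_pos hy
  rw [h1]; exact W.eval u ⟨y, hy⟩

include W in
/-- the form is nondegenerate -/
theorem WForm.nd {u : WSp w D c q L} (hu : ∀ v, B u v = 0) : u = 0 := by
  apply Subtype.ext
  funext y
  rw [← W.eval u y, hu]; rfl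

variable [Finite G] [Fintype K] (U : UData D c q) (hL : Lab D c q L) (F : Four K w)

include U hL F in
theorem UData.exists_wform : ∃ B : WSp w D c q L → WSp w D c q L → K, WForm B := by
  classical
  have := Fintype.ofFinite (Om D c q)
  obtain ⟨B, h1, h2⟩ := exists_rowForm F (M := gram w D c q L) (fun i j => U.gram_herm hL F i j)
  exact ⟨B, h1, h2⟩

omit [Finite G] in
/-- the form data -/
def WForm.hd : HData K (WSp w D c q L) := ⟨B, W.form.add_left, W.form.add_right F⟩

/-- the element over `c` -/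
def WForm.gam : G × HeisG (W.hd F) := (c, ⟨1, 0⟩)

/-- the elements over the `rho y` -/
noncomputable def WForm.del (y : G) : G × HeisG (W.hd F) := (rho D c q y, ⟨1, hv w D c q L y⟩)

include U W in
omit [Fintype K] in
theorem WForm.B_comm {y y' : G} (hy : y ∈ Om D c q) (hy' : y' ∈ Om D c q) (h1 : Commute y y') :
    B (hv w D c q L y) (hv w D c q L y') = 0 := by
  rw [W.eval' _ hy', hv_coe hy, U.vv_rho hy hy', if_pos h1]

include U W in
omit [Fintype K] in
theorem WForm.B_nc {y y' : G} (hy : y ∈ Om D c q) (hy' : y' ∈ Om D c q) (h1 : ¬ Commute y y') :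
    B (hv w D c q L y) (hv w D c q L y') = ep w (tt D c q L y y') := by
  rw [W.eval' _ hy', hv_coe hy, U.vv_rho hy hy', if_neg h1]

omit [Finite G] in
include F in
theorem hv_add_self (u : WSp w D c q L) : u + u = 0 := by
  apply Subtype.ext
  funext y
  exact F.two _

include U in
/-- noncommuting and not related: the elements `rho` do not commute -/
theorem UData.rho_not_commute {y y' : G} (hy : y ∈ Om D c q) (hy' : y' ∈ Om D c q) (hnc : ¬ Commute y y')
    (ht : ¬ tl q y y') : ¬ Commute (rho D c q y) (rho D c q y') := by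
  intro hcon
  have hx := U.pr_mem hy'.1
  have hncx : ¬ Commute y (pr D c q y') := by
    intro h1
    exact hnc ((U.commute_line_iff hy.1 hy'.1 (U.h.right_mem hy.1.1) (U.pr_spec hy'.1).1 hy.1.2.1
      (U.pr_ne hy'.1)).1 h1)
  obtain ⟨p1, p2, p3⟩ := U.phi_mem hy hx hncx
  rw [U.pr_line hy'.1] at p2
  have m1 := rad_pl U.h U.hc (U.rho_mem hy.1) y' hy'.1
  have c1 := (rad_perp U.h U.hc (U.rho_mem hy.1) hy'.1).2.1
  have hrel : (rho D c q y * pr D c q y' * (rho D c q y)⁻¹) * (rho D c q y * y' * (rho D c q y)⁻¹) =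
      pr D c q y' * y' := by
    have h1 : rho D c q y' = pr D c q y' * y' := rfl
    rw [← h1]
    calc _ = rho D c q y * (pr D c q y' * y') * (rho D c q y)⁻¹ := by group
      _ = rho D c q y * rho D c q y' * (rho D c q y)⁻¹ := rfl
      _ = rho D c q y' := by rw [hcon.eq]; group
  set y1 := rho D c q y * pr D c q y' * (rho D c q y)⁻¹ with hy1
  set p := rho D c q y * y' * (rho D c q y)⁻¹ with hp
  set x := pr D c q y' with hxd
  have hxl : x ∈ pl D c y' := (U.pr_spec hy'.1).1
  have hyl : y' ∈ pl D c y' := U.h.right_mem hy'.1.1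
  have hxc : x ≠ c := U.pr_ne hy'.1
  have n1 : y1 ≠ x := by
    intro h1
    rw [h1] at p1
    exact p1.2 hx.2
  have n2 : y1 ≠ y' := by
    intro h1
    rw [h1] at p3
    exact ht p3
  have n3 : p ≠ y1 := by
    intro h1
    exact U.pr_ne_self hy' (mul_left_cancel (mul_right_cancel h1)).symm
  have cm : ∀ a ∈ pl D c y', ∀ b ∈ pl D c y', a * b = b * a := fun a ha b hb => (pl_commute U.hc hy'.1 ha hb).eq
  have n4 : p ≠ x := by
    intro h1
    rw [h1, cm _ p2 _ hxl] at hrel
    exact n2 (mul_left_cancel hrel)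
  have n5 : p ≠ y' := by
    intro h1
    rw [h1] at hrel
    exact n1 (mul_right_cancel hrel)
  have h5 := U.h.prod_five U.hc hy'.1 (U.h.left_mem U.hc) hxl hyl p2 m1 hxc.symm hy'.1.2.1.symm p1.1.2.1.symm
    (U.pr_ne_self hy') n1.symm n2.symm c1 n4 n5 n3
  -- c x y' y1 p = 1
  have h6 : c * ((x * y') * (x * y')) = 1 := by
    calc c * ((x * y') * (x * y')) = c * ((x * y') * (y1 * p)) := by rw [hrel]
      _ = c * x * y' * y1 * p := by group
      _ = 1 := h5
  have h7 : (x * y') * (x * y') = 1 := U.rho_mul_self hy'.1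
  rw [h7, mul_one] at h6
  exact ne_one U.h.cls.1 U.hc h6

include U hL in
theorem WForm.rules : Rules D c q (W.gam F) (W.del F) := by
  have hcc := U.h.mul_self U.hc
  have hB0l : ∀ x, B 0 x = 0 := W.form.zero_left
  have hB0r : ∀ x, B x 0 = 0 := W.form.zero_right
  have h2 : (1 : K) + 1 = 0 := F.two 1
  have hBc := fun (y y' : G) (hy : y ∈ Om D c q) (hy' : y' ∈ Om D c q) => W.B_comm U hy hy'
  have vadd : ∀ r ∈ rad D c, ∀ s ∈ rad D c, vv w D c q L (r * s) = vv w D c q L r + vv w D c q L s :=
    fun r hr s hs => U.vv_mul hL F hr hs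
  have hHeis : ∀ (x y : HeisG (W.hd F)), (x * y).a = x.a + y.a + B y.v x.v := fun x y => rfl
  refine ⟨?_, ?_, ?_, ?_, ?_, ?_, ?_⟩
  · refine Prod.ext hcc (HeisG.ext ?_ ?_)
    · show (1 : K) + 1 + B 0 0 = 0
      rw [hB0l, h2, add_zero]
    · show (0 : WSp w D c q L) + 0 = 0
      rw [add_zero]
  · intro y hy
    refine Prod.ext (rad_commute U.h U.hc (U.rho_mem hy.1)).eq (HeisG.ext ?_ ?_)
    · show (1 : K) + 1 + B (hv w D c q L y) 0 = 1 + 1 + B 0 (hv w D c q L y)
      rw [hB0l, hB0r]
    · show (0 : WSp w D c q L) + hv w D c q L y = hv w D c q L y + 0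
      rw [add_zero, zero_add]
  · intro y hy
    refine Prod.ext (U.rho_mul_self hy.1) (HeisG.ext ?_ ?_)
    · show (1 : K) + 1 + B (hv w D c q L y) (hv w D c q L y) = 0
      rw [hBc y y hy hy (Commute.refl y), h2, add_zero]
    · show hv w D c q L y + hv w D c q L y = 0
      exact hv_add_self F _
  · intro y hy y' hy' hne hcm
    obtain ⟨z, hz, hzz⟩ := U.rho_mul_comm hy hy' hne hcm
    refine ⟨z, hz, Prod.ext hzz (HeisG.ext ?_ ?_)⟩
    · show (1 : K) + 1 + B (hv w D c q L y') (hv w D c q L y) = 1 + 1 + B (hv w D c q L z) 0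
      rw [hBc y' y hy' hy hcm.symm, hB0r]
    · show hv w D c q L y + hv w D c q L y' = 0 + hv w D c q L z
      apply Subtype.ext
      rw [zero_add, Submodule.coe_add, hv_coe hy, hv_coe hy', hv_coe hz,
        ← vadd _ (U.rho_mem hy.1) _ (U.rho_mem hy'.1), hzz, vadd _ (mem_rad_self c) _ (U.rho_mem hz.1), U.vv_c, zero_add]
  · intro y hy y' hy' ht
    obtain ⟨z, hz, hzz⟩ := U.rho_mul_tl hy hy' ht
    have ht' := U.tl_symm hy hy' ht
    refine ⟨z, hz, Prod.ext hzz (HeisG.ext ?_ ?_)⟩
    · show (1 : K) + 1 + B (hv w D c q L y') (hv w D c q L y) = 1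
      rw [W.B_nc U hy' hy ht'.1, (hL.tt_eq_zero U hy' hy ht'.1).2 ht', ep_zero, h2, zero_add]
    · show hv w D c q L y + hv w D c q L y' = hv w D c q L z
      apply Subtype.ext
      rw [Submodule.coe_add, hv_coe hy, hv_coe hy', hv_coe hz,
        ← vadd _ (U.rho_mem hy.1) _ (U.rho_mem hy'.1), hzz]
  · intro y hy y' hy'
    have hadd : hv w D c q L y + hv w D c q L y' = hv w D c q L y' + hv w D c q L y := add_comm _ _
    by_cases hcm : Commute y y'
    · left
      have h1 : rho D c q y * rho D c q y' = rho D c q y' * rho D c q y := by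
        by_cases hne : y = y'
        · rw [hne]
        obtain ⟨z, hz, hzz⟩ := U.rho_mul_comm hy hy' hne hcm
        have h3 : (rho D c q y * rho D c q y')⁻¹ = rho D c q y * rho D c q y' := by
          rw [hzz, mul_inv_rev, U.h.inv_eq U.hc, U.rho_inv hz.1]
          exact (rad_commute U.h U.hc (U.rho_mem hz.1)).eq.symm
        rw [← h3, mul_inv_rev, U.rho_inv hy.1, U.rho_inv hy'.1]
      refine Prod.ext h1 (HeisG.ext ?_ hadd)
      show (1 : K) + 1 + B (hv w D c q L y') (hv w D c q L y) = 1 + 1 + B (hv w D c q L y) (hv w D c q L y')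
      rw [hBc y' y hy' hy hcm.symm, hBc y y' hy hy' hcm]
    by_cases ht : tl q y y'
    · left
      have ht' := U.tl_symm hy hy' ht
      have h1 : rho D c q y * rho D c q y' = rho D c q y' * rho D c q y := by
        obtain ⟨z, hz, hzz⟩ := U.rho_mul_tl hy hy' ht
        have h3 : (rho D c q y * rho D c q y')⁻¹ = rho D c q y * rho D c q y' := by
          rw [hzz, U.rho_inv hz.1]
        rw [← h3, mul_inv_rev, U.rho_inv hy.1, U.rho_inv hy'.1]
      refine Prod.ext h1 (HeisG.ext ?_ hadd)
      show (1 : K) + 1 + B (hv w D c q L y') (hv w D c q L y) = 1 + 1 + B (hv w D c q L y) (hv w D c q L y')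
      rw [W.B_nc U hy' hy ht'.1, W.B_nc U hy hy' ht.1, (hL.tt_eq_zero U hy' hy ht'.1).2 ht',
        (hL.tt_eq_zero U hy hy' ht.1).2 ht]
    · right
      have h1 := U.rho_not_commute hy hy' hcm ht
      have h3 : rho D c q y * rho D c q y' = c * (rho D c q y' * rho D c q y) := by
        rcases rad_comm U.h U.hc (U.rho_mem hy.1) (U.rho_mem hy'.1) with h4 | h4
        · exfalso; apply h1
          show rho D c q y * rho D c q y' = rho D c q y' * rho D c q y
          nth_rewrite 2 [← h4]; group
        · calc rho D c q y * rho D c q y' = (rho D c q y * rho D c q y' * (rho D c q y)⁻¹) * rho D c q y := by group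
            _ = (c * rho D c q y') * rho D c q y := by rw [h4]
            _ = _ := by group
      refine Prod.ext h3 (HeisG.ext ?_ ?_)
      · show (1 : K) + 1 + B (hv w D c q L y') (hv w D c q L y) =
          1 + (1 + 1 + B (hv w D c q L y) (hv w D c q L y')) + B (hv w D c q L y' + hv w D c q L y) 0
        rw [hB0r, W.form.herm (hv w D c q L y') (hv w D c q L y), W.B_nc U hy' hy (fun h5 => hcm h5.symm)]
        have h5 : tt D c q L y' y ≠ 0 := by
          intro h6
          exact ht (U.tl_symm hy' hy ((hL.tt_eq_zero U hy' hy (fun h5 => hcm h5.symm)).1 h6))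
        set e := ep w (tt D c q L y' y) with he
        have h6 : e ^ 3 = 1 := F.cube (F.ep_ne_zero _)
        have h7 : e ≠ 1 := by
          intro h8
          apply h5
          apply F.ep_inj
          rw [← he, h8, ep_zero]
        have h8 : (e - 1) * (e ^ 2 + e + 1) = 0 := by linear_combination h6
        rcases mul_eq_zero.1 h8 with h9 | h9
        · exact absurd (sub_eq_zero.1 h9) h7
        · have h10 := F.two e
          have h11 := F.two 1
          linear_combination h10 - h9
      · show hv w D c q L y + hv w D c q L y' = 0 + (hv w D c q L y' + hv w D c q L y)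
        rw [zero_add]; exact hadd
  · intro b hb b1 hb1 b2 hb2 e1 e2 n1 n2 n3
    have l1 : b1 ∈ pl D c b := by
      have := U.mem_pl_pr hb1.1
      rwa [e1, U.pr_line hb.1] at this
    have l2 : b2 ∈ pl D c b := by
      have := U.mem_pl_pr hb2.1
      rwa [e2, U.pr_line hb.1] at this
    have lx : pr D c q b ∈ pl D c b := (U.pr_spec hb.1).1
    have lb : b ∈ pl D c b := U.h.right_mem hb.1.1
    have lc : c ∈ pl D c b := U.h.left_mem U.hc
    have x1 : pr D c q b ≠ b1 := by rw [← e1]; exact U.pr_ne_self hb1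
    have x2 : pr D c q b ≠ b2 := by rw [← e2]; exact U.pr_ne_self hb2
    have h5 := U.h.prod_five U.hc hb.1 lc lx lb l1 l2 (U.pr_ne hb.1).symm hb.1.2.1.symm hb1.1.2.1.symm
      (U.pr_ne_self hb) x1 n1 hb2.1.2.1 x2.symm n2.symm n3.symm
    have cm : ∀ a ∈ pl D c b, ∀ d ∈ pl D c b, a * d = d * a := fun a ha d hd => (pl_commute U.hc hb.1 ha hd).eq
    have xx := U.h.mul_self (U.pr_mem hb.1).1.1
    have b1b1 := U.h.mul_self hb1.1.1
    have b2b2 := U.h.mul_self hb2.1.1
    have h3 : rho D c q b = c * rho D c q b1 * rho D c q b2 := by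
      have r1 : rho D c q b1 = pr D c q b * b1 := by unfold rho; rw [e1]
      have r2 : rho D c q b2 = pr D c q b * b2 := by unfold rho; rw [e2]
      have r3 : rho D c q b = pr D c q b * b := rfl
      rw [r1, r2, r3]
      set x := pr D c q b with hx
      have h6 : x * b = (c * (b1 * b2)) := by
        have h7 : (x * b) * (b1 * b2) = c := by
          have : c * ((x * b) * (b1 * b2)) = c * c := by rw [hcc, ← h5]; group
          exact mul_left_cancel this
        have h8 : (b1 * b2) * (b1 * b2) = 1 := by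
          calc (b1 * b2) * (b1 * b2) = b1 * (b2 * b1) * b2 := by group
            _ = b1 * (b1 * b2) * b2 := by rw [cm _ l2 _ l1]
            _ = (b1 * b1) * (b2 * b2) := by group
            _ = 1 := by rw [b1b1, b2b2, one_mul]
        calc x * b = (x * b) * ((b1 * b2) * (b1 * b2)) := by rw [h8, mul_one]
          _ = (x * b) * (b1 * b2) * (b1 * b2) := by group
          _ = _ := by rw [h7]
      rw [h6]
      calc c * (b1 * b2) = c * (x * x) * (b1 * b2) := by rw [xx, mul_one]
        _ = c * x * (x * b1) * b2 := by group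
        _ = c * x * (b1 * x) * b2 := by rw [cm _ lx _ l1]
        _ = _ := by group
    refine Prod.ext h3 (HeisG.ext ?_ ?_)
    · show (1 : K) = 1 + 1 + B (hv w D c q L b1) 0 + 1 + B (hv w D c q L b2) (0 + hv w D c q L b1)
      rw [hB0r, zero_add, hBc b2 b1 hb2 hb1 (cm _ l2 _ l1), h2]
      ring
    · show hv w D c q L b = 0 + hv w D c q L b1 + hv w D c q L b2
      apply Subtype.ext
      rw [zero_add, Submodule.coe_add, hv_coe hb, hv_coe hb1, hv_coe hb2,
        ← vadd _ (U.rho_mem hb1.1) _ (U.rho_mem hb2.1), h3,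
        vadd _ (mul_mem (mem_rad_self c) (U.rho_mem hb1.1)) _ (U.rho_mem hb2.1),
        vadd _ (mem_rad_self c) _ (U.rho_mem hb1.1), U.vv_c, zero_add,
        ← vadd _ (U.rho_mem hb1.1) _ (U.rho_mem hb2.1)]

end Cfsg.Agent.ThreeTransp
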