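import Cfsg.Agent.ThreeTransp.PolarVec
import Cfsg.Agent.Fi22.Dict
/-!
The case of lines with five points: unitary groups over the field with four elements (owner: helper8).
-/
set_option autoImplicit false
open Cfsg
open scoped Pointwise commutatorElement
namespace Cfsg.Agent.ThreeTransp

section SU

variable {K : Type*} [Field K] [Fintype K] (hK : Fintype.card K = 2 ^ 2) {n : ℕ}
include hK

open Cfsg.Agent.Uni in
theorem transv_eq_tv {g : SU n K 2} {v : Fin n → K} {c : K} (hv0 : v ≠ 0) (hv : hermForm n K 2 v v = 0) (hc : c ≠ 0)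
    (hg : ∀ x, act g x = x + (c * hermForm n K 2 x v) • v) : g = Fi22.tv v := by
  obtain ⟨x, hx⟩ := exists_form_ne hK hv0
  have hxv : hermForm n K 2 x v ≠ 0 := by
    intro h1
    exact hx ((hermForm_eq_zero_comm hK).1 h1)
  have h1 := act_form g x x
  rw [hg x, hermForm_add_left, hermForm_add_right hK, hermForm_add_right hK, hermForm_smul_left, hermForm_smul_left,
    hermForm_smul_right, hermForm_smul_right, hv, ← hermForm_symm hK x v] at h1
  set s := hermForm n K 2 x v with hs
  have h3 : s ^ 3 = 1 := Fi22.pow_three_eq_one hK hxv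
  have h4 : c ^ 2 + c = 0 := by
    have e1 : (c * s) ^ 2 * s + c * s * s ^ 2 = 0 := by linear_combination h1
    have e2 : (c * s) ^ 2 * s + c * s * s ^ 2 = (c ^ 2 + c) * s ^ 3 := by ring
    rw [e2, h3, mul_one] at e1
    exact e1
  have h5 : c = 1 := by
    have h6 : c * (c + 1) = 0 := by linear_combination h4
    rcases mul_eq_zero.1 h6 with h7 | h7
    · exact absurd h7 hc
    · have := Fi22.add_self' hK (1 : K)
      linear_combination h7 - this
  apply Fi22.IsTv.eq_tv hK hv
  intro y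
  rw [hg y, h5, one_mul]

open Cfsg.Agent.Uni in
theorem closure_tv (hn : 4 ≤ n) :
    Subgroup.closure {g : SU n K 2 | ∃ v : Fin n → K, v ≠ 0 ∧ hermForm n K 2 v v = 0 ∧ g = Fi22.tv v} = ⊤ := by
  rw [eq_top_iff, ← TT_eq_top hK (by omega) (by omega), TT, Subgroup.closure_le]
  rintro g ⟨v, c, hv, hg⟩
  have h1 := (isEich_zero_iff hK g v c).1 ((isEich_zero_iff_matrix hK g v c).2 hg)
  by_cases hv0 : v = 0
  · have : g = 1 := by
      apply act_ext
      intro x
      rw [h1 x, hv0, smul_zero, add_zero, act_one]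
    rw [this]; exact one_mem _
  by_cases hc : c = 0
  · have : g = 1 := by
      apply act_ext
      intro x
      rw [h1 x, hc, zero_mul, zero_smul, add_zero, act_one]
    rw [this]; exact one_mem _
  exact Subgroup.subset_closure ⟨v, hv0, hv, transv_eq_tv hK hv0 hv hc h1⟩

/-- the transvections of `PSU` -/
def tvSet (K : Type*) [Field K] [Fintype K] (n : ℕ) : Set (PSU n K 2) :=
  {g | ∃ v : Fin n → K, v ≠ 0 ∧ hermForm n K 2 v v = 0 ∧ g = Fi22.pr (Fi22.tv v)}

theorem closure_tvSet (hn : 4 ≤ n) : Subgroup.closure (tvSet K n) = ⊤ := by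
  have h1 := congrArg (Subgroup.map (QuotientGroup.mk' (Subgroup.center (SU n K 2)))) (closure_tv hK hn)
  rw [MonoidHom.map_closure, Subgroup.map_top_of_surjective _ (QuotientGroup.mk'_surjective _)] at h1
  rw [eq_top_iff, ← h1, Subgroup.closure_le]
  rintro _ ⟨g, ⟨v, hv0, hv, rfl⟩, rfl⟩
  exact Subgroup.subset_closure ⟨v, hv0, hv, rfl⟩

omit hK in
theorem centreless_of_simple {H : Type*} [Group H] (hH : IsSimpleGroup H) {E : Set H}
    (hE : Subgroup.closure E = ⊤) (hnc : ∃ a b : H, ¬ Commute a b) (z : H) (hz : ∀ e ∈ E, Commute e z) : z = 1 := by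
  have h1 : z ∈ Subgroup.center H := by
    rw [Subgroup.mem_center_iff]
    intro g
    have h2 : g ∈ Subgroup.centralizer {z} := by
      have h3 : (⊤ : Subgroup H) ≤ Subgroup.centralizer {z} := by
        rw [← hE, Subgroup.closure_le]
        intro e he
        exact Subgroup.mem_centralizer_singleton_iff.2 (hz e he).eq
      exact h3 (Subgroup.mem_top g)
    exact Subgroup.mem_centralizer_singleton_iff.1 h2
  rcases hH.eq_bot_or_eq_top_of_normal (Subgroup.center H) inferInstance with h2 | h2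
  · rw [h2, Subgroup.mem_bot] at h1; exact h1
  · exfalso
    obtain ⟨a, b, hab⟩ := hnc
    apply hab
    have : b ∈ Subgroup.center H := by rw [h2]; exact Subgroup.mem_top _
    exact Subgroup.mem_center_iff.1 this a

open Cfsg.Agent.Uni in
/-- isotropic vectors with the same isotropic perp are proportional -/
theorem prop_of_perp {u v : Fin n → K} (hu0 : u ≠ 0) (hv0 : v ≠ 0) (huu : hermForm n K 2 u u = 0)
    (hvv : hermForm n K 2 v v = 0)
    (hall : ∀ x, x ≠ 0 → hermForm n K 2 x x = 0 → hermForm n K 2 x u = 0 → hermForm n K 2 x v = 0) :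
    ∃ a : K, a ≠ 0 ∧ v = a • u := by
  obtain ⟨w, F⟩ := exists_four (K := K) (by rw [hK]; norm_num)
  have huv : hermForm n K 2 v u = 0 := by
    have := hall u hu0 huu huu
    exact (hermForm_eq_zero_comm hK).1 this
  have claim : ∀ x, hermForm n K 2 x u = 0 → hermForm n K 2 x v = 0 := by
    intro x hx
    by_contra hs
    obtain ⟨l, hl⟩ : ∃ l : K, hermForm n K 2 (x + l • v) (x + l • v) = 0 := by
      rcases Fi22.herm_self hK x with h1 | h1
      · exact ⟨0, by rw [zero_smul, add_zero, h1]⟩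
      · refine ⟨w * hermForm n K 2 x v, ?_⟩
        rw [hermForm_add_left, hermForm_add_right hK, hermForm_add_right hK, hermForm_smul_left, hermForm_smul_left,
          hermForm_smul_right, hermForm_smul_right, hvv, h1, ← hermForm_symm hK x v]
        set s := hermForm n K 2 x v
        have h2 : s ^ 3 = 1 := F.cube hs
        have h3 := F.sum
        linear_combination (w ^ 2 + w) * h2 + h3
    have h1 : hermForm n K 2 (x + l • v) v = hermForm n K 2 x v := by
      rw [hermForm_add_left, hermForm_smul_left, hvv, mul_zero, add_zero]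
    have h2 : hermForm n K 2 (x + l • v) u = 0 := by
      rw [hermForm_add_left, hermForm_smul_left, huv, mul_zero, add_zero, hx]
    have h3 : x + l • v ≠ 0 := by
      intro h4
      rw [h4, hermForm_zero_left] at h1
      exact hs h1.symm
    have h4 := hall _ h3 hl h2
    rw [h1] at h4
    exact hs h4
  obtain ⟨x0, hx0⟩ := exists_form_ne hK hu0
  have hx0' : hermForm n K 2 x0 u ≠ 0 := fun h1 => hx0 ((hermForm_eq_zero_comm hK).1 h1)
  set b := hermForm n K 2 x0 v / hermForm n K 2 x0 u with hb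
  have hmul : ∀ x, hermForm n K 2 x v = b * hermForm n K 2 x u := by
    intro x
    have h1 : hermForm n K 2 (x + (-(hermForm n K 2 x u / hermForm n K 2 x0 u)) • x0) u = 0 := by
      rw [hermForm_add_left, hermForm_smul_left]; field_simp; ring
    have h2 := claim _ h1
    rw [hermForm_add_left, hermForm_smul_left] at h2
    rw [hb]
    have h3 : hermForm n K 2 x v = hermForm n K 2 x u / hermForm n K 2 x0 u * hermForm n K 2 x0 v := by
      linear_combination h2
    rw [h3]; field_simp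
  have h1 : v + b ^ 2 • u = 0 := by
    apply hermForm_nondeg' hK
    intro x
    rw [hermForm_add_right hK, hermForm_smul_right, hmul x, ← pow_mul, F.four]
    exact F.two _
  have h2 : v = b ^ 2 • u := by
    have h3 : b ^ 2 • u + b ^ 2 • u = 0 := Fi22.vadd_self' hK _
    exact add_right_cancel (h1.trans h3.symm)
  refine ⟨b ^ 2, ?_, h2⟩
  intro h3
  rw [h3, zero_smul] at h2
  exact hv0 h2

end SU

variable {G : Type*} [Group G] {D : Set G}

/-- the isomorphism with a unitary group -/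
structure UDict (D : Set G) (K : Type*) [Field K] [Fintype K] (n : ℕ) (φ : G ≃* Cfsg.PSU n K 2)
    (vec : G → Fin n → K) : Prop where
  four : 4 ≤ n
  ne : ∀ d ∈ D, vec d ≠ 0
  iso : ∀ d ∈ D, hermForm n K 2 (vec d) (vec d) = 0
  comm : ∀ d ∈ D, ∀ e ∈ D, hermForm n K 2 (vec d) (vec e) = 0 ↔ Commute d e
  surj : ∀ v, v ≠ 0 → hermForm n K 2 v v = 0 → ∃ d ∈ D, ∃ a : K, a ≠ 0 ∧ v = a • vec d
  map : ∀ d ∈ D, φ d = Fi22.pr (Fi22.tv (vec d))

variable [Finite G] (h : VHyp D) (h5 : ∀ c ∈ D, ∀ x ∈ perp D c, (pl D c x).ncard = 5)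
include h h5

theorem hyp_line_all {K : Type*} [Field K] [Fintype K] {w : K} (F : Four K w) {d e f : G} (hd : d ∈ D) (he : e ∈ D)
    (hde : ¬ Commute d e) (hf : f ∈ D) (hall : ∀ y ∈ cc D d e, Commute y f) : f = d ∨ f = e ∨ f = d * e * d := by
  have U : UData D d e := ⟨h, h5, hd, he, fun h1 => hde h1.symm⟩
  obtain ⟨L, l1, l2, l3⟩ := U.exists_label
  have hL : Lab D d e L := ⟨l1, l2, l3⟩
  obtain ⟨B, W⟩ := U.exists_wform hL F
  exact U.hyp_line hL W F hf hall

open Cfsg.Agent.Uni in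
theorem exists_udict {K : Type*} [Field K] [Fintype K] (hK : Fintype.card K = 2 ^ 2) :
    ∃ (n : ℕ) (φ : G ≃* Cfsg.PSU n K 2) (vec : G → Fin n → K), UDict D K n φ vec := by
  obtain ⟨d0, hd0, a0, ha0, hne0, hcm0⟩ := h.ex
  obtain ⟨e0, he0, hde0⟩ := h.nc d0 hd0
  have U : UData D d0 e0 := ⟨h, h5, hd0, he0, fun h1 => hde0 h1.symm⟩
  obtain ⟨L, l1, l2, l3⟩ := U.exists_label
  have hL : Lab D d0 e0 L := ⟨l1, l2, l3⟩
  obtain ⟨w, F⟩ := exists_four (K := K) (by rw [hK]; norm_num)
  obtain ⟨B, W⟩ := U.exists_wform hL F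
  have hH := W.hv_form F
  obtain ⟨n, e, he⟩ := hH.exists_coord F (fun x hx => W.hv_nd hx)
  have hex : ∀ d, ∃ v, d ∈ D → W.IsVec F d v := by
    intro d
    by_cases hd : d ∈ D
    · obtain ⟨v, hv⟩ := W.exists_isVec U hL F hd
      exact ⟨v, fun _ => hv⟩
    · exact ⟨0, fun h1 => absurd h1 hd⟩
  choose vec0 hvec0 using hex
  have hne : ∀ d ∈ D, e (vec0 d) ≠ 0 := by
    intro d hd h1
    exact (hvec0 d hd).ne U hL ((LinearEquiv.map_eq_zero_iff e).1 h1)
  have hcomm : ∀ d ∈ D, ∀ f ∈ D, hermForm n K 2 (e (vec0 d)) (e (vec0 f)) = 0 ↔ Commute d f := by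
    intro d hd f hf
    rw [← he]
    exact (hvec0 d hd).comm U hL (hvec0 f hf)
  have hiso : ∀ d ∈ D, hermForm n K 2 (e (vec0 d)) (e (vec0 d)) = 0 := fun d hd => (hcomm d hd d hd).2 (Commute.refl d)
  -- vectors determine members
  have hinj : ∀ d ∈ D, ∀ f ∈ D, ∀ a : K, a ≠ 0 → e (vec0 f) = a • e (vec0 d) → d = f := by
    intro d hd f hf a ha h1
    apply nb_inj h hd hf
    intro g hg
    unfold nb
    have h2 : Commute d g ↔ Commute f g := by
      rw [← hcomm d hd g hg, ← hcomm f hf g hg, h1, hermForm_smul_left, mul_eq_zero]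
      exact ⟨fun h => Or.inr h, fun h => h.resolve_left ha⟩
    by_cases h3 : Commute d g
    · rw [if_pos h3, if_pos (h2.1 h3)]
    · rw [if_neg h3, if_neg (fun h4 => h3 (h2.2 h4))]
  have hiso_ex : ∀ v, v ≠ 0 → hermForm n K 2 v v = 0 → ∃ d u, W.IsVec F d u ∧ ∃ a : K, a ≠ 0 ∧ v = a • e u := by
    intro v hv0 hv
    have h1 : HV B (e.symm v) (e.symm v) = 0 := by rw [he, e.apply_symm_apply]; exact hv
    have h2 : e.symm v ≠ 0 := fun h3 => hv0 ((LinearEquiv.map_eq_zero_iff e.symm).1 h3)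
    obtain ⟨d, u, hdu, a, ha, hau⟩ := W.exists_of_iso F U hL h2 h1
    exact ⟨d, u, hdu, a, ha, by rw [← map_smul, ← hau, e.apply_symm_apply]⟩
  have hsurj : ∀ v, v ≠ 0 → hermForm n K 2 v v = 0 → ∃ d ∈ D, ∃ a : K, a ≠ 0 ∧ v = a • e (vec0 d) := by
    intro v hv0 hv
    obtain ⟨d, u, hdu, a, ha, h4⟩ := hiso_ex v hv0 hv
    have hd : d ∈ D := hdu.mem U
    obtain ⟨b, hb, h6⟩ := prop_of_perp hK (u := e (vec0 d)) (v := e u) (hne d hd)
      (fun h6 => hdu.ne U hL ((LinearEquiv.map_eq_zero_iff e).1 h6)) (hiso d hd)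
      (by rw [← he]; exact (hdu.comm U hL hdu).2 (Commute.refl d)) (by
        intro x hx0 hxx hxd
        obtain ⟨f, uf, hfu, b, hb, hbu⟩ := hiso_ex x hx0 hxx
        rw [hbu, hermForm_smul_left, ← he] at hxd ⊢
        have h6 : HV B uf (vec0 d) = 0 := (mul_eq_zero.1 hxd).resolve_left hb
        rw [hfu.comm U hL (hvec0 d hd)] at h6
        rw [(hfu.comm U hL hdu).2 h6, mul_zero])
    exact ⟨d, hd, a * b, mul_ne_zero ha hb, by rw [h4, h6, smul_smul]⟩
  have hthird : ∀ d ∈ D, ∀ f ∈ D, ¬ Commute d f → ∃ a : K, a ≠ 0 ∧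
      e (vec0 f) + hermForm n K 2 (e (vec0 f)) (e (vec0 d)) • e (vec0 d) = a • e (vec0 (d * f * d⁻¹)) := by
    intro d hd f hf hdf
    set x := e (vec0 f) with hx
    set y := e (vec0 d) with hy
    set s := hermForm n K 2 x y with hs
    have hs0 : s ≠ 0 := fun h1 => hdf ((hcomm f hf d hd).1 h1).symm
    have hxx : hermForm n K 2 x x = 0 := hiso f hf
    have hyy : hermForm n K 2 y y = 0 := hiso d hd
    have h1 : hermForm n K 2 (x + s • y) (x + s • y) = 0 := by
      rw [← Fi22.tv_act hK hyy, act_form, hxx]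
    have h2 : hermForm n K 2 (x + s • y) y = s := by
      rw [hermForm_add_left, hermForm_smul_left, hyy, mul_zero, add_zero]
    have h3 : x + s • y ≠ 0 := by
      intro h4
      rw [h4, hermForm_zero_left] at h2
      exact hs0 h2.symm
    obtain ⟨g, hg, a, ha, h4⟩ := hsurj _ h3 h1
    have h6 : g = d ∨ g = f ∨ g = d * f * d := by
      apply hyp_line_all h h5 F hd hf hdf hg
      intro z hz
      have z1 := (hcomm z hz.1 d hd).2 hz.2.1
      have z2 := (hcomm z hz.1 f hf).2 hz.2.2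
      rw [← hcomm z hz.1 g hg]
      have h7 : hermForm n K 2 (e (vec0 z)) (a • e (vec0 g)) = 0 := by
        rw [← h4, hermForm_add_right hK, hermForm_smul_right, hx, hy, z1, z2, mul_zero, add_zero]
      rw [hermForm_smul_right] at h7
      exact (mul_eq_zero.1 h7).resolve_left (pow_ne_zero _ ha)
    rcases h6 with h6 | h6 | h6
    · exfalso
      rw [h4, h6, hermForm_smul_left, ← hy, hyy, mul_zero] at h2
      exact hs0 h2.symm
    · exfalso
      have h7 : hermForm n K 2 (x + s • y) x = s ^ 3 := by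
        rw [hermForm_add_left, hermForm_smul_left, hxx, zero_add, ← hermForm_symm hK x y, ← hs]; ring
      rw [h4, h6, hermForm_smul_left, ← hx, hxx, mul_zero] at h7
      exact pow_ne_zero 3 hs0 h7.symm
    · refine ⟨a, ha, ?_⟩
      rw [h4, h6, h.inv_eq hd]
  -- dimension
  have hn : 4 ≤ n := by
    have hTI : IsTI 2 (![e (vec0 d0), e (vec0 a0)] : Fin 2 → Fin n → K) := by
      constructor
      · rw [LinearIndependent.pair_iff]
        intro s t hst
        by_cases ht : t = 0
        · rw [ht, zero_smul, add_zero] at hst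
          exact ⟨(smul_eq_zero.1 hst).resolve_right (hne d0 hd0), ht⟩
        · exfalso
          by_cases hs0 : s = 0
          · rw [hs0, zero_smul, zero_add] at hst
            exact ht ((smul_eq_zero.1 hst).resolve_right (hne a0 ha0))
          · apply hne0
            symm
            apply hinj d0 hd0 a0 ha0 (-t⁻¹ * s) (mul_ne_zero (neg_ne_zero.2 (inv_ne_zero ht)) hs0)
            have h1 : t • e (vec0 a0) = -(s • e (vec0 d0)) := by
              rw [eq_neg_iff_add_eq_zero, add_comm]; exact hst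
            calc e (vec0 a0) = t⁻¹ • (t • e (vec0 a0)) := by rw [smul_smul, inv_mul_cancel₀ ht, one_smul]
              _ = _ := by rw [h1, smul_neg, smul_smul, ← neg_smul, neg_mul]
      · intro i j
        fin_cases i <;> fin_cases j
        · exact hiso d0 hd0
        · exact (hcomm d0 hd0 a0 ha0).2 hcm0
        · exact (hcomm a0 ha0 d0 hd0).2 hcm0.symm
        · exact hiso a0 ha0
    have := Fi22.IsTI.two_mul_le hK hTI
    omega
  have hn2 : 2 ≤ n := by omega
  have hgenD : Subgroup.closure D = ⊤ := h.cls.2.2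
  have hnc : ∃ a b : Cfsg.PSU n K 2, ¬ Commute a b := by
    refine ⟨Fi22.pr (Fi22.tv (e (vec0 d0))), Fi22.pr (Fi22.tv (e (vec0 e0))), ?_⟩
    rw [Fi22.pr_commute_iff hK hn2 (hne d0 hd0) (hne e0 he0) (hiso d0 hd0) (hiso e0 he0), hcomm d0 hd0 e0 he0]
    exact hde0
  obtain ⟨φ, hφ⟩ := quandle_iso (E := tvSet K n) hgenD (closure_tvSet hK hn) h.conj h.cen
    (centreless_of_simple (PSU_simple hK (by omega) (by omega)) (closure_tvSet hK hn) hnc)
    (fun d => Fi22.pr (Fi22.tv (e (vec0 d))))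
    (fun d hd => ⟨_, hne d hd, hiso d hd, rfl⟩)
    (fun d hd f hf hdf => by
      obtain ⟨a, ha, h1⟩ := (Fi22.pr_tv_inj hK hn2 (hne d hd) (hne f hf) (hiso d hd) (hiso f hf)).1 hdf
      exact hinj d hd f hf a ha h1)
    (by
      rintro _ ⟨v, hv0, hv, rfl⟩
      obtain ⟨d, hd, a, ha, h1⟩ := hsurj v hv0 hv
      refine ⟨d, hd, ?_⟩
      show Fi22.pr (Fi22.tv (e (vec0 d))) = Fi22.pr (Fi22.tv v)
      rw [h1, Fi22.tv_smul hK (hiso d hd) ha])
    (by
      intro d hd f hf
      by_cases hdf : Commute d f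
      · have h1 : d * f * d⁻¹ = f := by rw [hdf.eq]; group
        have h2 : Commute (Fi22.pr (Fi22.tv (e (vec0 d)))) (Fi22.pr (Fi22.tv (e (vec0 f)))) := by
          rw [Fi22.pr_commute_iff hK hn2 (hne d hd) (hne f hf) (hiso d hd) (hiso f hf), hcomm d hd f hf]
          exact hdf
        rw [h1, h2.eq, mul_inv_cancel_right]
      · obtain ⟨a, ha, h1⟩ := hthird d hd f hf hdf
        have hdfD := h.conj d f hf
        have h2 : Fi22.tv (e (vec0 d)) * Fi22.tv (e (vec0 f)) * (Fi22.tv (e (vec0 d)))⁻¹ =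
            Fi22.tv (e (vec0 (d * f * d⁻¹))) := by
          rw [Fi22.tv_conj_tv hK (hiso d hd) (hiso f hf), h1, Fi22.tv_smul hK (hiso _ hdfD) ha]
        show Fi22.pr (Fi22.tv (e (vec0 (d * f * d⁻¹)))) = _
        rw [← h2]; rfl)
  exact ⟨n, φ, fun d => e (vec0 d), hn, hne, hiso, hcomm, hsurj, hφ⟩

end Cfsg.Agent.ThreeTransp
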