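import Cfsg.Agent.ThreeTransp.PolarGraph
/-!
The case of lines with five points: the members as isotropic points of a hermitian space (owner: helper8).
-/
set_option autoImplicit false
open Cfsg
open scoped Pointwise commutatorElement
namespace Cfsg.Agent.ThreeTransp

variable {G : Type*} [Group G] {D : Set G} {c q : G} {L : G → ZMod 3} {K : Type*} [Field K] {w : K}
  {B : WSp w D c q L → WSp w D c q L → K} (W : WForm B)
  [Finite G] [Fintype K] (U : UData D c q) (hL : Lab D c q L) (F : Four K w)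

/-- the ambient space -/
abbrev VSp (w : K) (D : Set G) (c q : G) (L : G → ZMod 3) := K × WSp w D c q L × K

/-- the ambient form -/
def HV {w : K} {D : Set G} {c q : G} {L : G → ZMod 3} (B : WSp w D c q L → WSp w D c q L → K)
    (x y : VSp w D c q L) : K := x.1 * y.2.2 ^ 2 + x.2.2 * y.1 ^ 2 + B x.2.1 y.2.1

omit [Finite G] in
include W F in
theorem WForm.hv_form : HForm (HV B) where
  add_left x y z := by
    show (x.1 + y.1) * z.2.2 ^ 2 + (x.2.2 + y.2.2) * z.1 ^ 2 + B (x.2.1 + y.2.1) z.2.1 = _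
    rw [W.form.add_left]
    show _ = (x.1 * z.2.2 ^ 2 + x.2.2 * z.1 ^ 2 + B x.2.1 z.2.1) + (y.1 * z.2.2 ^ 2 + y.2.2 * z.1 ^ 2 + B y.2.1 z.2.1)
    ring
  smul_left a x z := by
    show (a * x.1) * z.2.2 ^ 2 + (a * x.2.2) * z.1 ^ 2 + B (a • x.2.1) z.2.1 = _
    rw [W.form.smul_left]
    show _ = a * (x.1 * z.2.2 ^ 2 + x.2.2 * z.1 ^ 2 + B x.2.1 z.2.1)
    ring
  herm x y := by
    show y.1 * x.2.2 ^ 2 + y.2.2 * x.1 ^ 2 + B y.2.1 x.2.1 = (x.1 * y.2.2 ^ 2 + x.2.2 * y.1 ^ 2 + B x.2.1 y.2.1) ^ 2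
    rw [F.add_sq, F.add_sq, W.form.herm x.2.1 y.2.1]
    have h1 := F.four y.1
    have h2 := F.four y.2.2
    linear_combination (-x.1 ^ 2) * h2 - x.2.2 ^ 2 * h1

omit [Finite G] [Fintype K] in
include W in
theorem WForm.hv_nd {x : VSp w D c q L} (hx : ∀ y, HV B x y = 0) : x = 0 := by
  have h0l : ∀ x, B x 0 = 0 := W.form.zero_right
  have h1 : x.1 = 0 := by
    have := hx (0, 0, 1)
    have h2 : x.1 * 1 ^ 2 + x.2.2 * 0 ^ 2 + B x.2.1 0 = 0 := this
    rw [h0l] at h2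
    linear_combination h2
  have h2 : x.2.2 = 0 := by
    have := hx (1, 0, 0)
    have h2 : x.1 * 0 ^ 2 + x.2.2 * 1 ^ 2 + B x.2.1 0 = 0 := this
    rw [h0l] at h2
    linear_combination h2
  have h3 : x.2.1 = 0 := by
    apply W.nd
    intro v
    have := hx (0, v, 0)
    have h4 : x.1 * 0 ^ 2 + x.2.2 * 0 ^ 2 + B x.2.1 v = 0 := this
    linear_combination h4
  exact Prod.ext h1 (Prod.ext h3 h2)

omit [Finite G] in
/-- the vectors of the members -/
inductive WForm.IsVec : G → VSp w D c q L → Prop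
  | c : WForm.IsVec c (1, 0, 0)
  | x (y : G) (hy : y ∈ Om D c q) : WForm.IsVec (pr D c q y) (0, hv w D c q L y, 0)
  | y (y : G) (hy : y ∈ Om D c q) : WForm.IsVec y (1, hv w D c q L y, 0)
  | r (r : G) (t : HeisG (W.hd F)) (ht : (r, t) ∈ W.Dl F) : WForm.IsVec (r * q * r⁻¹) (t.a, t.v, 1)

include U hL in
theorem WForm.exists_isVec {d : G} (hd : d ∈ D) : ∃ v, W.IsVec F d v := by
  by_cases hdc : d = c
  · subst hdc
    exact ⟨_, WForm.IsVec.c⟩
  by_cases hcm : Commute c d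
  · have hp : d ∈ perp D c := ⟨hd, hdc, hcm⟩
    by_cases hq : Commute q d
    · obtain ⟨y, hy, h1, _⟩ := hL.surj d ⟨hp, hq⟩ 0
      rw [← h1]
      exact ⟨_, WForm.IsVec.x y hy⟩
    · exact ⟨_, WForm.IsVec.y d ⟨hp, hq⟩⟩
  · obtain ⟨r, hr, h1⟩ := rad_transitive U.h U.hc U.hq hd U.qc (fun h1 => hcm h1.symm)
    obtain ⟨t, ht⟩ := W.exists_graph U F hr
    rw [← h1]
    exact ⟨_, WForm.IsVec.r r t ht⟩

variable {W F}

include U in
theorem WForm.IsVec.mem {d : G} {v : VSp w D c q L} (h : W.IsVec F d v) : d ∈ D := by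
  cases h with
  | c => exact U.hc
  | x y hy => exact (U.pr_mem hy.1).1.1
  | y y hy => exact hy.1.1
  | r r t ht => exact U.h.conj _ _ U.hq

theorem WForm.IsVec.ne {d : G} {v : VSp w D c q L} (h : W.IsVec F d v) (U : UData D c q) (hL : Lab D c q L) :
    v ≠ 0 := by
  cases h with
  | c => intro h1; exact one_ne_zero (congrArg Prod.fst h1)
  | x y hy =>
    intro h1
    exact W.hv_ne_zero U hL F hy (congrArg (fun z : VSp w D c q L => z.2.1) h1)
  | y y hy => intro h1; exact one_ne_zero (congrArg Prod.fst h1)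
  | r r t ht => intro h1; exact one_ne_zero (congrArg (fun z : VSp w D c q L => z.2.2) h1)

theorem WForm.rr_eq {r : G} (U : UData D c q) (hL : Lab D c q L) (W : WForm B) (F : Four K w) (hr : r ∈ rad D c) :
    r * r = 1 ∨ r * r = c := by
  apply W.vv_ker U hL F (mul_mem hr hr)
  rw [U.vv_mul hL F hr hr]
  funext y; exact F.two _

theorem WForm.rr_conj {r p : G} (U : UData D c q) (hL : Lab D c q L) (W : WForm B) (F : Four K w) (hr : r ∈ rad D c)
    (hp : Commute c p) : r * p * r⁻¹ = r⁻¹ * p * r := by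
  have h1 : Commute (r * r) p := by
    rcases WForm.rr_eq U hL W F hr with h2 | h2
    · rw [h2]; exact Commute.one_left _
    · rw [h2]; exact hp
  calc r * p * r⁻¹ = r⁻¹ * ((r * r) * p) * r⁻¹ := by group
    _ = r⁻¹ * (p * (r * r)) * r⁻¹ := by rw [h1.eq]
    _ = _ := by group

/-- value of the vector of an element -/
theorem WForm.vv_val {r y : G} (U : UData D c q) (hL : Lab D c q L) (F : Four K w) (hr : r ∈ rad D c)
    (hy : y ∈ Om D c q) :
    vv w D c q L r ⟨y, hy⟩ = bet w q L y (r⁻¹ * pr D c q y * r) := by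
  rw [← U.vv_inv hL F hr]
  show bet w q L y (r⁻¹ * pr D c q y * r⁻¹⁻¹) = _
  rw [inv_inv]

theorem WForm.comm_c_r {r : G} {t : HeisG (W.hd F)} (U : UData D c q) (hL : Lab D c q L) (ht : (r, t) ∈ W.Dl F) :
    HV B (1, 0, 0) (t.a, t.v, 1) = 0 ↔ Commute c (r * q * r⁻¹) := by
  have h1 : HV B (1, 0, 0) (t.a, t.v, 1) = 1 := by
    show (1 : K) * 1 ^ 2 + 0 * t.a ^ 2 + B 0 t.v = 1
    rw [W.form.zero_left]; ring
  rw [h1]
  constructor
  · intro h2; exact absurd h2 one_ne_zero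
  · intro h2
    exfalso
    have hr : r ∈ rad D c := (W.graph_facts U hL F ht).1
    rw [← rad_conj_self U.h U.hc hr, commute_conj_iff] at h2
    exact U.qc h2.symm

theorem WForm.comm_x_r {y r : G} {t : HeisG (W.hd F)} (U : UData D c q) (hL : Lab D c q L) (hy : y ∈ Om D c q)
    (ht : (r, t) ∈ W.Dl F) :
    HV B (0, hv w D c q L y, 0) (t.a, t.v, 1) = 0 ↔ Commute (pr D c q y) (r * q * r⁻¹) := by
  have hr : r ∈ rad D c := (W.graph_facts U hL F ht).1
  have hv' : (t.v : Om D c q → K) = vv w D c q L r := (W.graph_facts U hL F ht).2.1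
  have h1 : HV B (0, hv w D c q L y, 0) (t.a, t.v, 1) = (bet w q L y (r⁻¹ * pr D c q y * r)) ^ 2 := by
    show (0 : K) * 1 ^ 2 + 0 * t.a ^ 2 + B (hv w D c q L y) t.v = _
    rw [W.form.herm t.v, W.eval' _ hy, hv', WForm.vv_val U hL F hr hy]; ring
  rw [h1, sq_eq_zero_iff]
  have h2 : Commute (pr D c q y) (r * q * r⁻¹) ↔ Commute q (r⁻¹ * pr D c q y * r) := by
    rw [← commute_conj_iff (x := q) r]
    have e1 : r * (r⁻¹ * pr D c q y * r) * r⁻¹ = pr D c q y := by group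
    rw [e1]
    exact ⟨fun h => h.symm, fun h => h.symm⟩
  rw [h2]
  unfold bet
  by_cases h3 : Commute q (r⁻¹ * pr D c q y * r)
  · rw [if_pos h3]; exact ⟨fun _ => h3, fun _ => rfl⟩
  · rw [if_neg h3]; exact ⟨fun h4 => absurd h4 (F.ep_ne_zero _), fun h4 => absurd h4 h3⟩

theorem WForm.comm_y_r {y r : G} {t : HeisG (W.hd F)} (U : UData D c q) (hL : Lab D c q L) (hy : y ∈ Om D c q)
    (ht : (r, t) ∈ W.Dl F) :
    HV B (1, hv w D c q L y, 0) (t.a, t.v, 1) = 0 ↔ Commute y (r * q * r⁻¹) := by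
  have hr : r ∈ rad D c := (W.graph_facts U hL F ht).1
  have hv' : (t.v : Om D c q → K) = vv w D c q L r := (W.graph_facts U hL F ht).2.1
  have h1 : HV B (1, hv w D c q L y, 0) (t.a, t.v, 1) = 1 + (bet w q L y (r⁻¹ * pr D c q y * r)) ^ 2 := by
    show (1 : K) * 1 ^ 2 + 0 * t.a ^ 2 + B (hv w D c q L y) t.v = _
    rw [W.form.herm t.v, W.eval' _ hy, hv', WForm.vv_val U hL F hr hy]; ring
  rw [h1]
  have hx := U.pr_mem hy.1
  have hline := U.pr_line hy.1
  have hri : r⁻¹ ∈ rad D c := inv_mem hr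
  -- members
  have m1 : r⁻¹ * pr D c q y * r ∈ pl D c y := by
    have := rad_pl U.h U.hc hri _ hx.1
    rwa [inv_inv, hline] at this
  have m2 : r⁻¹ * y * r ∈ pl D c y := by
    have := rad_pl U.h U.hc hri _ hy.1
    rwa [inv_inv] at this
  have n1 : r⁻¹ * pr D c q y * r ≠ c := by
    have := (rad_perp U.h U.hc hri hx.1).2.1
    rwa [inv_inv] at this
  -- the value one means equality
  have h2 : 1 + (bet w q L y (r⁻¹ * pr D c q y * r)) ^ 2 = 0 ↔ r⁻¹ * pr D c q y * r = y := by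
    unfold bet
    by_cases h3 : Commute q (r⁻¹ * pr D c q y * r)
    · rw [if_pos h3]
      constructor
      · intro h4; exfalso; apply one_ne_zero (α := K); linear_combination h4
      · intro h4; rw [h4] at h3; exact absurd h3 hy.2
    · rw [if_neg h3]
      have hp : r⁻¹ * pr D c q y * r ∈ Om D c q := ⟨U.h.mem_perp_of_pl U.hc hy.1 m1 n1, h3⟩
      constructor
      · intro h4
        have h5 : ep w (L (r⁻¹ * pr D c q y * r) - L y) = 1 := by
          set e := ep w (L (r⁻¹ * pr D c q y * r) - L y)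
          have h6 : (e + 1) ^ 2 = 0 := by rw [F.add_sq, one_pow, add_comm]; exact h4
          have h7 : e + 1 = 0 := pow_eq_zero_iff two_ne_zero |>.1 h6
          linear_combination h7 - F.two 1
        have h6 : L (r⁻¹ * pr D c q y * r) - L y = 0 := F.ep_inj (h5.trans ep_zero.symm)
        exact hL.inj _ hp _ hy (U.pr_of_mem hy.1 m1 n1) (sub_eq_zero.1 h6)
      · intro h4
        rw [h4, sub_self, ep_zero, one_pow, F.two]
  have h3 : Commute y (r * q * r⁻¹) ↔ r⁻¹ * y * r = pr D c q y := by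
    have h4 : Commute y (r * q * r⁻¹) ↔ Commute q (r⁻¹ * y * r) := by
      rw [← commute_conj_iff (x := q) r]
      have e1 : r * (r⁻¹ * y * r) * r⁻¹ = y := by group
      rw [e1]
      exact ⟨fun h => h.symm, fun h => h.symm⟩
    rw [h4]
    exact ⟨fun h => U.pr_unique hy.1 m2 h, fun h => by rw [h]; exact hx.2⟩
  rw [h2, h3]
  have h4 := WForm.rr_conj U hL W F hr hy.1.2.2
  constructor
  · intro h5
    rw [← h4]
    nth_rewrite 1 [← h5]; group
  · intro h5
    rw [← h4] at h5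
    rw [← h5]; group

theorem WForm.comm_r_r {r s : G} {t t' : HeisG (W.hd F)} (U : UData D c q) (hL : Lab D c q L)
    (ht : (r, t) ∈ W.Dl F) (ht' : (s, t') ∈ W.Dl F) :
    HV B (t.a, t.v, 1) (t'.a, t'.v, 1) = 0 ↔ Commute (r * q * r⁻¹) (s * q * s⁻¹) := by
  have h1 : (r⁻¹ * s, t⁻¹ * t') ∈ W.Dl F := mul_mem (inv_mem ht) ht'
  have h2 := W.graph_a U hL F h1
  have h3 : Commute (r * q * r⁻¹) (s * q * s⁻¹) ↔ Commute q (r⁻¹ * s * q * (r⁻¹ * s)⁻¹) := by
    rw [← commute_conj_iff (x := q) r]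
    have e1 : r * (r⁻¹ * s * q * (r⁻¹ * s)⁻¹) * r⁻¹ = s * q * s⁻¹ := by group
    rw [e1]
  rw [h3, ← h2]
  have h4 : (t⁻¹ * t').a = -t.a + B t.v t.v + t'.a + B t'.v (-t.v) := rfl
  have hneg : (-t.v : WSp w D c q L) = t.v := by
    apply Subtype.ext; funext y; exact F.neg _
  have h5 : t.a + t.a ^ 2 = B t.v t.v := (W.graph_facts U hL F ht).2.2
  have h6 : HV B (t.a, t.v, 1) (t'.a, t'.v, 1) ^ 2 = (t⁻¹ * t').a := by
    show (t.a * 1 ^ 2 + 1 * t'.a ^ 2 + B t.v t'.v) ^ 2 = _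
    rw [h4, hneg, ← h5, F.add_sq, F.add_sq, ← W.form.herm t.v t'.v]
    have h7 := F.four t'.a
    linear_combination h7
  rw [← h6, sq_eq_zero_iff]

/-- the form detects commuting -/
theorem WForm.IsVec.comm (U : UData D c q) (hL : Lab D c q L) {d d' : G} {v v' : VSp w D c q L} (h : W.IsVec F d v)
    (h' : W.IsVec F d' v') : HV B v v' = 0 ↔ Commute d d' := by
  have swap : ∀ (d d' : G) (v v' : VSp w D c q L), (HV B v v' = 0 ↔ Commute d d') →
      (HV B v' v = 0 ↔ Commute d' d) := by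
    intro d d' v v' h1
    rw [(W.hv_form F).herm v v', sq_eq_zero_iff, h1]
    exact ⟨fun h => h.symm, fun h => h.symm⟩
  have h0l := W.form.zero_left
  have h0r := W.form.zero_right
  have hB : ∀ (y y' : G) (hy : y ∈ Om D c q) (hy' : y' ∈ Om D c q),
      B (hv w D c q L y) (hv w D c q L y') = 0 ↔ Commute y y' := by
    intro y y' hy hy'
    constructor
    · intro h1
      by_contra h2
      rw [W.B_nc U hy hy' h2] at h1
      exact F.ep_ne_zero _ h1
    · exact W.B_comm U hy hy'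
  have k_cx : ∀ y ∈ Om D c q, (HV B (1, 0, 0) (0, hv w D c q L y, 0) = 0 ↔ Commute c (pr D c q y)) := by
    intro y hy
    have h1 : HV B (1, 0, 0) (0, hv w D c q L y, 0) = 0 := by
      show (1 : K) * 0 ^ 2 + 0 * 0 ^ 2 + B 0 _ = 0
      rw [h0l]; ring
    exact ⟨fun _ => (U.pr_mem hy.1).1.2.2, fun _ => h1⟩
  have k_cy : ∀ y ∈ Om D c q, (HV B (1, 0, 0) (1, hv w D c q L y, 0) = 0 ↔ Commute c y) := by
    intro y hy
    have h1 : HV B (1, 0, 0) (1, hv w D c q L y, 0) = 0 := by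
      show (1 : K) * 0 ^ 2 + 0 * 1 ^ 2 + B 0 _ = 0
      rw [h0l]; ring
    exact ⟨fun _ => hy.1.2.2, fun _ => h1⟩
  have k_xy : ∀ y ∈ Om D c q, ∀ y' ∈ Om D c q,
      (HV B (0, hv w D c q L y, 0) (1, hv w D c q L y', 0) = 0 ↔ Commute (pr D c q y) y') := by
    intro y hy y' hy'
    have h1 : HV B (0, hv w D c q L y, 0) (1, hv w D c q L y', 0) = B (hv w D c q L y) (hv w D c q L y') := by
      show (0 : K) * 0 ^ 2 + 0 * 1 ^ 2 + B _ _ = _
      ring
    rw [h1, hB y y' hy hy']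
    exact (U.commute_line_iff hy.1 hy'.1 (U.pr_spec hy.1).1 (U.h.right_mem hy'.1.1) (U.pr_ne hy.1) hy'.1.2.1).symm
  cases h with
  | c =>
    cases h' with
    | c =>
      have h1 : HV B (1, 0, 0) ((1, 0, 0) : VSp w D c q L) = 0 := by
        show (1 : K) * 0 ^ 2 + 0 * 1 ^ 2 + B 0 0 = 0
        rw [h0l]; ring
      exact ⟨fun _ => Commute.refl _, fun _ => h1⟩
    | x y' hy' => exact k_cx y' hy'
    | y y' hy' => exact k_cy _ hy'
    | r s t' ht' => exact WForm.comm_c_r U hL ht'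
  | x y hy =>
    cases h' with
    | c => exact swap _ _ _ _ (k_cx y hy)
    | x y' hy' =>
      have h1 : HV B (0, hv w D c q L y, 0) (0, hv w D c q L y', 0) = B (hv w D c q L y) (hv w D c q L y') := by
        show (0 : K) * 0 ^ 2 + 0 * 0 ^ 2 + B _ _ = _
        ring
      rw [h1, hB y y' hy hy', U.commute_pr_iff hy.1 hy'.1]
    | y y' hy' => exact k_xy y hy _ hy'
    | r s t' ht' => exact WForm.comm_x_r U hL hy ht'
  | y y hy =>
    cases h' with
    | c => exact swap _ _ _ _ (k_cy _ hy)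
    | x y' hy' => exact swap _ _ _ _ (k_xy y' hy' _ hy)
    | y y' hy' =>
      have h1 : HV B (1, hv w D c q L d, 0) (1, hv w D c q L d', 0) = B (hv w D c q L d) (hv w D c q L d') := by
        show (1 : K) * 0 ^ 2 + 0 * 1 ^ 2 + B _ _ = _
        ring
      rw [h1, hB _ _ hy hy']
    | r s t' ht' => exact WForm.comm_y_r U hL hy ht'
  | r r t ht =>
    cases h' with
    | c => exact swap _ _ _ _ (WForm.comm_c_r U hL ht)
    | x y' hy' => exact swap _ _ _ _ (WForm.comm_x_r U hL hy' ht)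
    | y y' hy' => exact swap _ _ _ _ (WForm.comm_y_r U hL hy' ht)
    | r s t' ht' => exact WForm.comm_r_r U hL ht ht'

/-- every isotropic point occurs -/
theorem WForm.exists_of_iso (W : WForm B) (F : Four K w) (U : UData D c q) (hL : Lab D c q L) {v : VSp w D c q L}
    (hv0 : v ≠ 0) (hiso : HV B v v = 0) : ∃ d u, W.IsVec F d u ∧ ∃ a : K, a ≠ 0 ∧ v = a • u := by
  have hH := W.hv_form F
  obtain ⟨α, u, β⟩ := v
  by_cases hβ : β = 0
  · subst hβ
    have h1 : B u u = 0 := by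
      have h2 : α * 0 ^ 2 + 0 * α ^ 2 + B u u = 0 := hiso
      linear_combination h2
    by_cases hu : u = 0
    · subst hu
      have hα : α ≠ 0 := by rintro rfl; exact hv0 rfl
      refine ⟨_, _, WForm.IsVec.c, α, hα, ?_⟩
      show (α, (0 : WSp w D c q L), (0 : K)) = (α * 1, α • (0 : WSp w D c q L), α * 0)
      rw [mul_one, smul_zero, mul_zero]
    · by_cases hα : α = 0
      · subst hα
        obtain ⟨y, hy, hyu⟩ := W.iso_point U hL F hu h1
        refine ⟨_, _, WForm.IsVec.x y hy, 1, one_ne_zero, ?_⟩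
        rw [hyu, one_smul]
      · have hu' : α⁻¹ • u ≠ 0 := smul_ne_zero (inv_ne_zero hα) hu
        have h2 : B (α⁻¹ • u) (α⁻¹ • u) = 0 := by
          rw [W.form.smul_left, W.form.smul_right, h1, mul_zero, mul_zero]
        obtain ⟨y, hy, hyu⟩ := W.iso_point U hL F hu' h2
        refine ⟨_, _, WForm.IsVec.y y hy, α, hα, ?_⟩
        show (α, u, (0 : K)) = (α * 1, α • hv w D c q L y, α * 0)
        rw [hyu, mul_one, smul_smul, mul_inv_cancel₀ hα, one_smul, mul_zero]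
  · have h1 : HV B (β⁻¹ • ((α, u, β) : VSp w D c q L)) (β⁻¹ • ((α, u, β) : VSp w D c q L)) = 0 := by
      rw [hH.smul_left, hH.smul_right, hiso, mul_zero, mul_zero]
    have h2 : (β⁻¹ • ((α, u, β) : VSp w D c q L)) = (β⁻¹ * α, β⁻¹ • u, 1) := by
      show (β⁻¹ * α, β⁻¹ • u, β⁻¹ * β) = _
      rw [inv_mul_cancel₀ hβ]
    rw [h2] at h1
    have h3 : (β⁻¹ * α) * 1 ^ 2 + 1 * (β⁻¹ * α) ^ 2 + B (β⁻¹ • u) (β⁻¹ • u) = 0 := h1
    have h4 : (β⁻¹ * α) + (β⁻¹ * α) ^ 2 = B (β⁻¹ • u) (β⁻¹ • u) := by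
      linear_combination h3 - F.two (B (β⁻¹ • u) (β⁻¹ • u))
    obtain ⟨r, t, ht, hta, htv⟩ := W.exists_of_pair U hL F h4
    refine ⟨_, _, WForm.IsVec.r r t ht, β, hβ, ?_⟩
    rw [hta, htv]
    show (α, u, β) = (β * (β⁻¹ * α), β • (β⁻¹ • u), β * 1)
    rw [mul_one, smul_smul, mul_inv_cancel₀ hβ, one_smul, ← mul_assoc, mul_inv_cancel₀ hβ, one_mul]

/-- the hyperbolic lines -/
theorem UData.hyp_line (U : UData D c q) (hL : Lab D c q L) (W : WForm B) (F : Four K w) {f : G} (hf : f ∈ D)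
    (hall : ∀ y ∈ cc D c q, Commute y f) : f = c ∨ f = q ∨ f = c * q * c := by
  have hcq : ¬ Commute c q := fun h1 => U.qc h1.symm
  by_cases h1 : Commute c f
  · exact Or.inl (U.h.eq_of_cc U.hc U.hq hcq hf h1 hall)
  right
  obtain ⟨r, hr, h2⟩ := rad_transitive U.h U.hc U.hq hf U.qc (fun h3 => h1 h3.symm)
  have h3 : vv w D c q L r = 0 := by
    funext y
    obtain ⟨y, hy⟩ := y
    show bet w q L y (r * pr D c q y * r⁻¹) = 0
    have hx := U.pr_mem hy.1
    have h4 : pr D c q y ∈ cc D c q := ⟨hx.1.1, hx.1.2.2.symm, hx.2.symm⟩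
    have h5 := hall _ h4
    have h6 : Commute f (r * pr D c q y * r⁻¹) := by
      rw [← h2]; exact (commute_conj_iff r).2 hx.2
    have h7 := rad_pl U.h U.hc hr _ hx.1
    have h8 := U.h.unique U.hc hx.1 hf (fun h9 => h1 h9.symm) h7 (U.h.right_mem hx.1.1) h6 h5.symm
    rw [h8]
    exact U.bet_pr hy
  rcases W.vv_ker U hL F hr h3 with h4 | h4
  · left; rw [← h2, h4]; group
  · right; rw [← h2, h4, U.h.inv_eq U.hc]

end Cfsg.Agent.ThreeTransp
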